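import Cfsg.Agent.Forms.HyperbolicModel
import Cfsg.Agent.Forms.SubspaceStab
import Cfsg.Agent.Forms.NormField
import Mathlib.FieldTheory.Finite.GaloisField
import Mathlib.LinearAlgebra.Dimension.Free

/-!
# Restriction of scalars from the field with `q²` elements to the field with `q` elements
-/

set_option autoImplicit false
set_option linter.unusedSectionVars false

namespace Cfsg.Agent.Forms

open Module

variable {K F : Type*} [Field K] [Fintype K] [Field F] [Fintype F] {q : ℕ}

/-- The smaller field embeds. -/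
theorem exists_emb (hK : Fintype.card K = q ^ 2) (hF : Fintype.card F = q) :
    Nonempty (F →+* K) := by
  obtain ⟨p, hp⟩ := CharP.exists F
  obtain ⟨f, hpp, hf⟩ := FiniteField.card F p
  obtain ⟨p', hp'⟩ := CharP.exists K
  obtain ⟨g, hpp', hg⟩ := FiniteField.card K p'
  have hq : q = p ^ (f : ℕ) := hF ▸ hf
  have hpow : p' ^ (g : ℕ) = p ^ (2 * (f : ℕ)) := by rw [← hg, hK, hq, ← pow_mul, mul_comm]
  have hpe : p' = p := by
    have h1 : p' ∣ p ^ (2 * (f : ℕ)) := hpow ▸ dvd_pow_self p' g.pos.ne'
    exact (Nat.prime_dvd_prime_iff_eq hpp' hpp).1 (hpp'.dvd_of_dvd_pow h1)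
  subst hpe
  have hgf : (g : ℕ) = 2 * f := Nat.pow_right_injective hpp.two_le hpow
  have : Fact p'.Prime := ⟨hpp⟩
  letI := ZMod.algebra F p'
  letI := ZMod.algebra K p'
  have hrF : finrank (ZMod p') F = f := by
    have := Module.card_eq_pow_finrank (K := ZMod p') (V := F)
    rw [ZMod.card, hf] at this
    exact (Nat.pow_right_injective hpp.two_le this).symm
  have hrK : finrank (ZMod p') K = g := by
    have := Module.card_eq_pow_finrank (K := ZMod p') (V := K)
    rw [ZMod.card, hg] at this
    exact (Nat.pow_right_injective hpp.two_le this).symm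
  obtain ⟨φ⟩ := FiniteField.nonempty_algHom_of_finrank_dvd (F := ZMod p') (K := F) (L := K)
    (by rw [hrF, hrK, hgf]; exact Dvd.intro_left 2 rfl)
  exact ⟨φ.toRingHom⟩

variable [Algebra F K]

theorem algebraMap_pow_q (hF : Fintype.card F = q) (c : F) :
    (algebraMap F K c) ^ q = algebraMap F K c := by
  rw [← map_pow, ← hF, FiniteField.pow_card]

/-- The fixed field of `x ↦ x ^ q` is the smaller field. -/
theorem exists_of_pow_q (hK : Fintype.card K = q ^ 2) (hF : Fintype.card F = q) {x : K}
    (hx : x ^ q = x) : ∃ c : F, algebraMap F K c = x := by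
  classical
  have hq : 2 ≤ q := two_le_q hK
  have hcard : (Finset.univ.filter fun y : K => y ^ q = y).card ≤ q := by
    refine le_trans (Finset.card_le_card fun y hy => ?_)
      ((Multiset.toFinset_card_le _).trans ((Polynomial.X ^ q - Polynomial.X : Polynomial K).card_roots'.trans
        (Polynomial.natDegree_sub_le _ _ |>.trans (by simp; omega))))
    rw [Multiset.mem_toFinset, Polynomial.mem_roots (fun h => by
      have := congrArg (fun p => Polynomial.coeff p q) h
      simp only [Polynomial.coeff_sub, Polynomial.coeff_X_pow_self, Polynomial.coeff_zero,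
        Polynomial.coeff_X_of_ne_one (by omega : q ≠ 1), sub_zero] at this
      exact one_ne_zero this)]
    simpa [sub_eq_zero] using (Finset.mem_filter.1 hy).2
  have hsub : Finset.univ.image (algebraMap F K) = Finset.univ.filter fun y : K => y ^ q = y := by
    refine Finset.eq_of_subset_of_card_le (fun y hy => ?_) ?_
    · obtain ⟨c, -, rfl⟩ := Finset.mem_image.1 hy
      simp [algebraMap_pow_q hF]
    · rw [Finset.card_image_of_injective _ (algebraMap F K).injective, Finset.card_univ, hF]
      exact hcard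
  have : x ∈ Finset.univ.image (algebraMap F K) := by rw [hsub]; simp [hx]
  obtain ⟨c, -, hc⟩ := Finset.mem_image.1 this
  exact ⟨c, hc⟩

theorem finrank_quadratic (hK : Fintype.card K = q ^ 2) (hF : Fintype.card F = q) :
    finrank F K = 2 := by
  have h := Module.card_eq_pow_finrank (K := F) (V := K)
  rw [hK, hF] at h
  exact Nat.pow_right_injective (two_le_q hK) h.symm

/-- The trace `x ↦ x + x ^ q`. -/
theorem exists_trace (hK : Fintype.card K = q ^ 2) (hF : Fintype.card F = q) :
    ∃ L : K →ₗ[F] F, (∀ x, algebraMap F K (L x) = x + x ^ q) ∧ ∃ x, L x = 1 := by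
  have hσ : ∀ x : K, frobQ hK x = x ^ q := fun x => rfl
  choose L hL using fun x : K => exists_of_pow_q (x := x + x ^ q) hK hF (by
    rw [← hσ (x + x ^ q), map_add, ← hσ x, frobQ_frobQ, add_comm])
  let T : K →ₗ[F] F :=
    { toFun := L
      map_add' := fun x y => (algebraMap F K).injective (by
        rw [map_add, hL, hL, hL, ← hσ, ← hσ, ← hσ, map_add]; ring)
      map_smul' := fun c x => (algebraMap F K).injective (by
        rw [RingHom.id_apply, smul_eq_mul, map_mul, hL, hL, Algebra.smul_def, mul_pow,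
          algebraMap_pow_q hF]; ring) }
  refine ⟨T, hL, ?_⟩
  obtain ⟨x, hx⟩ : ∃ x, T x ≠ 0 := by
    by_contra h
    push Not at h
    have h1 : ∀ x : K, x ^ q = -x := fun x => by
      have := hL x
      rw [show L x = 0 from h x, map_zero] at this
      linear_combination -this
    have h2 := h1 1
    rw [one_pow] at h2
    refine frobQ_ne_id hK (RingHom.ext fun y => ?_)
    rw [hσ, h1, ← neg_one_mul, ← h2, one_mul]
    rfl
  exact ⟨(T x)⁻¹ • x, by rw [map_smul, smul_eq_mul, inv_mul_cancel₀ hx]⟩

/-- `h(u, v) ↦ L (δ h(u, v))`, bilinear over the smaller field. -/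
def reducedForm (hF : Fintype.card F = q) (L : K →ₗ[F] F) (δ : K) (n : ℕ) :
    LinearMap.BilinForm F (Fin n → K) :=
  LinearMap.mk₂ F (fun u v => L (δ * ∑ i, u i * v i ^ q))
    (fun u u' v => by
      rw [← map_add]
      congr 1
      simp [add_mul, Finset.sum_add_distrib, mul_add])
    (fun c u v => by
      rw [← map_smul]
      congr 1
      simp only [Finset.mul_sum, Algebra.smul_def, Pi.smul_apply]
      exact Finset.sum_congr rfl fun i _ => by ring)
    (fun u v v' => by
      rw [← map_add]
      congr 1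
      have hq' : ∀ x y : K, (x + y) ^ q = x ^ q + y ^ q := fun x y => by
        obtain ⟨p, hp⟩ := CharP.exists F
        obtain ⟨f, hpp, hf⟩ := FiniteField.card F p
        have : Fact p.Prime := ⟨hpp⟩
        have : CharP K p := (RingHom.charP_iff _ (algebraMap F K).injective p).1 hp
        rw [← hF, hf, add_pow_char_pow]
      simp [hq', mul_add, Finset.sum_add_distrib])
    (fun c u v => by
      rw [← map_smul]
      congr 1
      simp only [Finset.mul_sum, Algebra.smul_def, Pi.smul_apply, mul_pow, algebraMap_pow_q hF]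
      exact Finset.sum_congr rfl fun i _ => by ring)

theorem reducedForm_apply (hF : Fintype.card F = q) (L : K →ₗ[F] F) (δ : K) (n : ℕ)
    (u v : Fin n → K) : reducedForm hF L δ n u v = L (δ * Cfsg.hermForm n K q u v) := rfl

theorem hermForm_swap (hK : Fintype.card K = q ^ 2) (n : ℕ) (u v : Fin n → K) :
    Cfsg.hermForm n K q v u = Cfsg.hermForm n K q u v ^ q := by
  have h := (hermB_isSymm (n := n) hK).eq v u
  simpa using h.symm

theorem reducedForm_nondeg (hK : Fintype.card K = q ^ 2) (hF : Fintype.card F = q)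
    {L : K →ₗ[F] F} (hL : ∃ x, L x = 1) {δ : K} (hδ : δ ≠ 0) (n : ℕ) :
    (reducedForm hF L δ n).Nondegenerate := by
  obtain ⟨x₀, hx₀⟩ := hL
  have hzero : ∀ a : K, (∀ z : K, L (δ * (z * a)) = 0) → a = 0 := fun a ha => by
    by_contra h
    have h1 := ha (x₀ / (δ * a))
    rw [show δ * (x₀ / (δ * a) * a) = x₀ by field_simp, hx₀] at h1
    exact one_ne_zero h1
  refine ⟨fun u hu => funext fun i => ?_, fun v hv => funext fun i => ?_⟩
  · refine hzero _ fun z => ?_
    obtain ⟨w, hw⟩ : ∃ w : K, w ^ q = z :=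
      ⟨z ^ q, by rw [← pow_mul, ← sq, ← hK, FiniteField.pow_card]⟩
    have h := hu (Pi.single i w)
    rw [reducedForm_apply] at h
    simpa [Cfsg.hermForm, Pi.single_apply, hw, ite_pow, zero_pow (by have := two_le_q hK; omega : q ≠ 0),
      mul_comm (u i) z] using h
  · have h1 : v i ^ q = 0 := hzero _ fun z => by
      have h := hv (Pi.single i z)
      rw [reducedForm_apply] at h
      simpa [Cfsg.hermForm, Pi.single_apply] using h
    exact (pow_eq_zero_iff (by have := two_le_q hK; omega : q ≠ 0)).1 h1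

/-- Matrices over the larger field act linearly over the smaller one. -/
noncomputable def reducedAction (F : Type*) [Field F] {K : Type*} [Field K] [Algebra F K]
    {ι : Type} [Fintype ι] [DecidableEq ι] :
    Matrix.GeneralLinearGroup ι K →* ((ι → K) ≃ₗ[F] (ι → K)) where
  toFun g := (glEquiv ι K g).restrictScalars F
  map_one' := LinearEquiv.ext fun v => by simp
  map_mul' g h := LinearEquiv.ext fun v => by simp [Matrix.mulVec_mulVec]

theorem reducedAction_apply (F : Type*) [Field F] {K : Type*} [Field K] [Algebra F K] {ι : Type}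
    [Fintype ι] [DecidableEq ι] (g : Matrix.GeneralLinearGroup ι K) (v : ι → K) :
    reducedAction F g v = (g : Matrix ι ι K).mulVec v := rfl

theorem reducedAction_injective (F : Type*) [Field F] {K : Type*} [Field K] [Algebra F K]
    {ι : Type} [Fintype ι] [DecidableEq ι] :
    Function.Injective (reducedAction F (K := K) (ι := ι)) := fun g h e =>
  Units.ext (matrix_ext_mulVec fun v => LinearEquiv.congr_fun e v)

/-- A faithful symplectic action gives a map into the matrix group. -/
theorem exists_symp_hom {G W : Type*} [Group G] [AddCommGroup W] [Module F W]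
    [FiniteDimensional F W] {B : LinearMap.BilinForm F W} (hB : B.Nondegenerate) (hA : B.IsAlt)
    {k : ℕ} (hk : finrank F W = 2 * k) (ρ : G →* (W ≃ₗ[F] W)) (hρ : Function.Injective ρ)
    (hpres : ∀ g u v, B (ρ g u) (ρ g v) = B u v) :
    ∃ φ : G →* Matrix.symplecticGroup (Fin k) F, Function.Injective φ := by
  obtain ⟨e⟩ := nonempty_isom_symp (isForm_alt B hB hA) hA hk
  let ρ' : G →* isomGroup B (fun _ => (0 : F)) :=
    ρ.codRestrict _ fun g => ⟨fun u v => hpres g u v, fun _ => rfl⟩
  exact ⟨((spEquiv k F).symm.toMonoidHom.comp e.toMonoidHom).comp ρ',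
    ((spEquiv k F).symm.injective.comp e.injective).comp fun a b h =>
      hρ (congrArg Subtype.val h)⟩

/-- A faithful orthogonal action gives a map into the matrix group of an isometric form. -/
theorem exists_orth_hom {G W : Type*} [Group G] [AddCommGroup W] [Module F W]
    {ι : Type} [Fintype ι] [DecidableEq ι] {Q : QuadraticForm F W} {Q₀ : QuadraticForm F (ι → F)}
    {Q' : (ι → F) → F} (hQQ : ⇑Q₀ = Q') (e : (ι → F) ≃ₗ[F] W) (he : ∀ x, Q (e x) = Q₀ x)
    (ρ : G →* (W ≃ₗ[F] W)) (hρ : Function.Injective ρ) (hpres : ∀ g v, Q (ρ g v) = Q v) :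
    ∃ φ : G →* ↥(Cfsg.isometryGroup F Q'), Function.Injective φ := by
  subst hQQ
  let ρ' : G →* isomGroup (QuadraticMap.polarBilin Q) Q :=
    ρ.codRestrict _ fun g => (mem_isomGroup_quad_iff Q _).2 (hpres g)
  have hpol : ∀ u v, QuadraticMap.polarBilin Q (e u) (e v) = QuadraticMap.polarBilin Q₀ u v :=
    fun u v => by simp [QuadraticMap.polar, ← map_add, he]
  let c := isomCongr (B := QuadraticMap.polarBilin Q₀) (N := ⇑Q₀) e hpol he
  exact ⟨((isometryEquiv Q₀).symm.toMonoidHom.comp c.symm.toMonoidHom).comp ρ',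
    ((isometryEquiv Q₀).symm.injective.comp c.symm.injective).comp fun a b h =>
      hρ (congrArg Subtype.val h)⟩

end Cfsg.Agent.Forms

namespace Cfsg.Agent.Forms

open Module

variable {K F : Type*} [Field K] [Fintype K] [Field F] [Fintype F] {q : ℕ} [Algebra F K]

/-- An element of the larger field with given trace and norm. -/
theorem exists_trace_norm_root (hK : Fintype.card K = q ^ 2) (hF : Fintype.card F = q) {a b : F}
    (hab : ∀ z₁ z₂ : F, z₁ ^ 2 + a * z₁ * z₂ + b * z₂ ^ 2 = 0 → z₁ = 0 ∧ z₂ = 0) :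
    ∃ ω : K, ω ^ 2 - algebraMap F K a * ω + algebraMap F K b = 0 ∧
      ω + ω ^ q = algebraMap F K a ∧ ω * ω ^ q = algebraMap F K b := by
  open Polynomial in
  obtain ⟨ω, hω⟩ : ∃ ω : K, ω ^ 2 - algebraMap F K a * ω + algebraMap F K b = 0 := by
    let P : Polynomial F := X ^ 2 + C (-a) * X + C b
    have hP2 : P.natDegree = 2 := by simp only [P]; compute_degree!
    have hPm : P.Monic := by simp only [P]; monicity!
    have hirr : Irreducible P := by
      rw [hPm.irreducible_iff_roots_eq_zero_of_degree_le_three (by omega) (by omega)]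
      refine Multiset.eq_zero_of_forall_notMem fun r hr => ?_
      have h1 := (mem_roots hPm.ne_zero).1 hr
      simp [P] at h1
      exact one_ne_zero (hab (-r) 1 (by linear_combination h1)).2
    haveI : Fact (Irreducible P) := ⟨hirr⟩
    have : Module.Finite F (AdjoinRoot P) := (AdjoinRoot.powerBasis hPm.ne_zero).finite
    have : Finite (AdjoinRoot P) := Module.finite_of_finite F
    obtain ⟨φ⟩ := FiniteField.nonempty_algHom_of_finrank_dvd (F := F) (K := AdjoinRoot P) (L := K)
      (by rw [(AdjoinRoot.powerBasis hPm.ne_zero).finrank, AdjoinRoot.powerBasis_dim, hP2,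
        finrank_quadratic hK hF])
    refine ⟨φ (AdjoinRoot.root P), ?_⟩
    have h0 : aeval (AdjoinRoot.root P) P = 0 := by rw [AdjoinRoot.aeval_eq, AdjoinRoot.mk_self]
    have h : aeval (φ (AdjoinRoot.root P)) P = 0 := by
      rw [aeval_algHom_apply, h0, map_zero]
    generalize φ (AdjoinRoot.root P) = w at h ⊢
    simp [P] at h
    linear_combination h
  have hω' := congrArg (frobQ hK) hω
  simp only [map_add, map_sub, map_mul, map_pow, map_zero, frobQ_apply,
    algebraMap_pow_q hF] at hω'
  have hne : ω ^ q ≠ ω := fun h => by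
    obtain ⟨r, rfl⟩ := exists_of_pow_q hK hF h
    rw [← map_pow, ← map_mul, ← map_sub, ← map_add, map_eq_zero] at hω
    exact one_ne_zero (hab (-r) 1 (by linear_combination hω)).2
  have hsum : ω + ω ^ q = algebraMap F K a :=
    mul_left_cancel₀ (sub_ne_zero.2 hne) (by linear_combination hω' - hω)
  exact ⟨ω, hω, hsum, by linear_combination ω * hsum - hω⟩

/-- The quadratic form `v ↦ h(v, v)` over the smaller field, hyperbolic in even dimension. -/
theorem exists_unitary_quad (hK : Fintype.card K = q ^ 2) (hF : Fintype.card F = q) (m : ℕ) :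
    ∃ Q : QuadraticForm F (Fin m → K),
      (∀ v, algebraMap F K (Q v) = Cfsg.hermForm m K q v v) ∧
      (QuadraticMap.polarBilin Q).Nondegenerate := by
  obtain ⟨L, hL, θ, hθ⟩ := exists_trace (F := F) hK hF
  have hθ' : θ + θ ^ q = 1 := by rw [← hL, hθ, map_one]
  refine ⟨LinearMap.BilinMap.toQuadraticMap (reducedForm hF L θ m), fun v => ?_, ?_⟩
  · rw [LinearMap.BilinMap.toQuadraticMap_apply, reducedForm_apply, hL, mul_pow,
      ← hermForm_swap hK]
    linear_combination Cfsg.hermForm m K q v v * hθ'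
  · have : QuadraticMap.polarBilin (LinearMap.BilinMap.toQuadraticMap (reducedForm hF L θ m)) =
        reducedForm hF L 1 m := by
      refine LinearMap.ext₂ fun u v => (algebraMap F K).injective ?_
      rw [QuadraticMap.polarBilin_apply_apply, LinearMap.BilinMap.polar_toQuadraticMap, map_add,
        reducedForm_apply, reducedForm_apply, reducedForm_apply, hL, hL, hL, one_mul, mul_pow,
        mul_pow, ← hermForm_swap hK, ← hermForm_swap hK]
      linear_combination (Cfsg.hermForm m K q u v + Cfsg.hermForm m K q v u) * hθ'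
    rw [this]
    exact reducedForm_nondeg hK hF ⟨θ, hθ⟩ one_ne_zero m

theorem finrank_pi_quadratic (hK : Fintype.card K = q ^ 2) (hF : Fintype.card F = q) (ι : Type)
    [Fintype ι] : finrank F (ι → K) = 2 * Fintype.card ι := by
  rw [Module.finrank_pi_fintype, Finset.sum_const, Finset.card_univ, smul_eq_mul,
    finrank_quadratic hK hF, mul_comm]

/-- The form `h(v, v)` on `K^(2k)` is hyperbolic. -/
theorem exists_unitary_plus_isom (hK : Fintype.card K = q ^ 2) (hF : Fintype.card F = q) (k : ℕ) :
    ∃ (Q : QuadraticForm F (Fin (k + k) → K))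
      (e : (Fin (k + k) ⊕ Fin (k + k) → F) ≃ₗ[F] (Fin (k + k) → K)),
      (∀ v, algebraMap F K (Q v) = Cfsg.hermForm (k + k) K q v v) ∧
      ∀ x, Q (e x) = qPlus (k + k) F x := by
  obtain ⟨Q, hQ, hnd⟩ := exists_unitary_quad (F := F) hK hF (k + k)
  obtain ⟨l, hl⟩ := exists_norm_eq hK (-1 : K) (by
    have := congrArg (algebraMap F K) (FiniteField.pow_card (-1 : F))
    simpa [hF] using this)
  let S : (Fin k → K) →ₗ[F] (Fin (k + k) → K) :=
    { toFun := fun c i => Sum.elim c (fun j => l * c j) (finSumFinEquiv.symm i)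
      map_add' := fun c d => funext fun i => by
        rcases h : finSumFinEquiv.symm i with j | j <;> simp [h, mul_add]
      map_smul' := fun r c => funext fun i => by
        rcases h : finSumFinEquiv.symm i with j | j <;> simp [h, Algebra.smul_def, mul_left_comm] }
  have hS : Function.Injective S := fun c d h => funext fun j => by
    simpa [S] using congrFun h (finSumFinEquiv (Sum.inl j))
  have hS0 : ∀ c, Q (S c) = 0 := fun c => (algebraMap F K).injective (by
    rw [hQ, map_zero, Cfsg.hermForm, ← Equiv.sum_comp finSumFinEquiv, Fintype.sum_sum_type]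
    simp only [S, LinearMap.coe_mk, AddHom.coe_mk, Equiv.symm_apply_apply, Sum.elim_inl,
      Sum.elim_inr, mul_pow]
    rw [← Finset.sum_add_distrib]
    refine Finset.sum_eq_zero fun j _ => ?_
    rw [pow_succ] at hl
    linear_combination (c j * c j ^ q) * hl)
  have hd : finrank F (Fin k → K) = k + k := by
    rw [finrank_pi_quadratic hK hF, Fintype.card_fin]; omega
  let b := (Module.finBasisOfFinrankEq F (Fin k → K) hd)
  obtain ⟨e, he⟩ := exists_qPlus_isom hnd (s := fun i => S (b i))
    (b.linearIndependent.map' S (LinearMap.ker_eq_bot.2 hS))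
    (fun x hx => by
      have : x ∈ LinearMap.range S := Submodule.span_le.2 (by rintro _ ⟨i, rfl⟩; exact ⟨_, rfl⟩) hx
      obtain ⟨c, rfl⟩ := this
      exact hS0 c)
    (by rw [finrank_pi_quadratic hK hF, Fintype.card_fin])
  exact ⟨Q, e, hQ, he⟩

/-- The form `h(v, v)` on `K^(2k+1)` is elliptic. -/
theorem exists_unitary_minus_isom (hK : Fintype.card K = q ^ 2) (hF : Fintype.card F = q) (k : ℕ)
    {a b : F} (hab : ∀ z₁ z₂ : F, z₁ ^ 2 + a * z₁ * z₂ + b * z₂ ^ 2 = 0 → z₁ = 0 ∧ z₂ = 0) :
    ∃ (Q : QuadraticForm F (Fin (k + k + 1) → K))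
      (e : ((Fin (k + k) ⊕ Fin (k + k)) ⊕ Fin 2 → F) ≃ₗ[F] (Fin (k + k + 1) → K)),
      (∀ v, algebraMap F K (Q v) = Cfsg.hermForm (k + k + 1) K q v v) ∧
      ∀ x, Q (e x) = qMinus (k + k) F a b x := by
  obtain ⟨Q, hQ, -⟩ := exists_unitary_quad (F := F) hK hF (k + k + 1)
  obtain ⟨Q₀, e, hQ₀, he⟩ := exists_unitary_plus_isom (F := F) hK hF k
  obtain ⟨ω, -, hsum, hprod⟩ := exists_trace_norm_root hK hF hab
  let E : ((Fin (k + k) ⊕ Fin (k + k)) ⊕ Fin 2 → F) →ₗ[F] (Fin (k + k + 1) → K) :=
    { toFun := fun x => Fin.snoc (e (x ∘ Sum.inl))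
        (algebraMap F K (x (Sum.inr 0)) + algebraMap F K (x (Sum.inr 1)) * ω)
      map_add' := fun x y => by
        funext i
        induction i using Fin.lastCases with
        | last => simp; ring
        | cast i =>
          simp only [Fin.snoc_castSucc, Pi.add_apply]
          rw [show (x + y) ∘ Sum.inl = x ∘ Sum.inl + y ∘ Sum.inl from rfl, map_add]
          rfl
      map_smul' := fun r x => by
        funext i
        induction i using Fin.lastCases with
        | last => simp [Algebra.smul_def]; ring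
        | cast i =>
          simp only [Fin.snoc_castSucc, Pi.smul_apply, RingHom.id_apply]
          rw [show (r • x) ∘ Sum.inl = r • (x ∘ Sum.inl) from rfl, map_smul]
          rfl }
  have hinj : Function.Injective E := by
    refine (injective_iff_map_eq_zero _).2 fun x hx => ?_
    have h1 : e (x ∘ Sum.inl) = 0 := funext fun i => by simpa [E] using congrFun hx i.castSucc
    rw [LinearEquiv.map_eq_zero_iff] at h1
    have h2 : algebraMap F K (x (Sum.inr 0)) + algebraMap F K (x (Sum.inr 1)) * ω = 0 := by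
      simpa [E] using congrFun hx (Fin.last _)
    have h3 : x (Sum.inr 0) ^ 2 + a * x (Sum.inr 0) * x (Sum.inr 1) + b * x (Sum.inr 1) ^ 2 = 0 := by
      refine (algebraMap F K).injective ?_
      simp only [map_add, map_mul, map_pow, map_zero, ← hsum, ← hprod]
      linear_combination (algebraMap F K (x (Sum.inr 0)) + algebraMap F K (x (Sum.inr 1)) * ω ^ q) * h2
    obtain ⟨h4, h5⟩ := hab _ _ h3
    funext i
    rcases i with i | i
    · exact congrFun h1 i
    · fin_cases i <;> [exact h4; exact h5]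
  refine ⟨Q, LinearEquiv.ofInjectiveOfFinrankEq E hinj ?_, hQ, fun x => (algebraMap F K).injective ?_⟩
  · rw [finrank_pi_quadratic hK hF, Module.finrank_pi]
    simp
    omega
  · have h1 := hQ₀ (e (x ∘ Sum.inl))
    rw [he] at h1
    change algebraMap F K (Q (E x)) = _
    rw [hQ, Cfsg.hermForm, Fin.sum_univ_castSucc]
    simp only [E, LinearMap.coe_mk, AddHom.coe_mk, Fin.snoc_castSucc, Fin.snoc_last]
    have hadd : ∀ u v : K, (u + v) ^ q = u ^ q + v ^ q := fun u v => by
      simpa using (frobQ hK).map_add u v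
    rw [← Cfsg.hermForm, ← h1, hadd, mul_pow, algebraMap_pow_q hF, algebraMap_pow_q hF]
    simp only [coe_qPlus, coe_qMinus, Cfsg.quadFormPlus, Cfsg.quadFormMinus, Function.comp_apply,
      map_add, map_mul, map_pow, ← hsum, ← hprod]
    ring

/-- `O⁻_{2k+2}(q)` inside `O⁺_{2k+2}(q²)`. -/
theorem exists_minus_to_plus (hK : Fintype.card K = q ^ 2) (hF : Fintype.card F = q) (k : ℕ)
    {a c : F} (hac : ∀ z₁ z₂ : F, z₁ ^ 2 + a * z₁ * z₂ + c * z₂ ^ 2 = 0 → z₁ = 0 ∧ z₂ = 0) :
    ∃ φ : ↥(Cfsg.isometryGroup F (Cfsg.quadFormMinus k F a c)) →*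
      ↥(Cfsg.isometryGroup K (Cfsg.quadFormPlus (k + 1) K)), Function.Injective φ := by
  set i := algebraMap F K
  obtain ⟨ω, hω, hsum, hprod⟩ := exists_trace_norm_root hK hF hac
  have hdisc : i a ^ 2 - 4 * i c ≠ 0 := by
    intro h
    apply disc_ne_zero hac
    refine i.injective ?_
    rw [map_sub, map_pow, map_mul, map_zero, map_ofNat]
    exact h
  have hnd : (QuadraticMap.polarBilin (qMinus k K (i a) (i c))).Nondegenerate :=
    qMinus_nondegenerate _ _ hdisc
  let v₀ : (Fin k ⊕ Fin k) ⊕ Fin 2 → K := Sum.elim 0 ![-ω, 1]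
  let s : Fin (k + 1) → (Fin k ⊕ Fin k) ⊕ Fin 2 → K :=
    Fin.lastCases v₀ fun j => Pi.single (Sum.inl (Sum.inl j)) 1
  have hli : LinearIndependent K s := by
    rw [Fintype.linearIndependent_iff]
    intro g hg j
    induction j using Fin.lastCases with
    | last => simpa [s, v₀, Fin.sum_univ_castSucc] using congrFun hg (Sum.inr 1)
    | cast j =>
      simpa [s, v₀, Fin.sum_univ_castSucc, Pi.single_apply] using congrFun hg (Sum.inl (Sum.inl j))
  have hs0 : ∀ x ∈ Submodule.span K (Set.range s), qMinus k K (i a) (i c) x = 0 := by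
    intro x hx
    obtain ⟨g, rfl⟩ := (Submodule.mem_span_range_iff_exists_fun K).1 hx
    simp [s, v₀, Fin.sum_univ_castSucc, Cfsg.quadFormMinus]
    linear_combination (g (Fin.last k)) ^ 2 * hω
  obtain ⟨e, he⟩ := exists_qPlus_isom hnd hli hs0 (by simp; omega)
  let G := ↥(Cfsg.isometryGroup F (Cfsg.quadFormMinus k F a c))
  let ρ : G →* (((Fin k ⊕ Fin k) ⊕ Fin 2 → K) ≃ₗ[K] ((Fin k ⊕ Fin k) ⊕ Fin 2 → K)) :=
    ((glEquiv _ K).toMonoidHom.comp (Units.map i.mapMatrix.toMonoidHom)).comp (Subgroup.subtype _)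
  refine exists_orth_hom (coe_qPlus (k + 1) K) e he ρ ?_ ?_
  · intro g h hgh
    refine Subtype.ext (Units.ext (Matrix.ext fun x y => i.injective ?_))
    have h1 := congrArg
      (fun U : Matrix.GeneralLinearGroup ((Fin k ⊕ Fin k) ⊕ Fin 2) K =>
        (U : Matrix ((Fin k ⊕ Fin k) ⊕ Fin 2) ((Fin k ⊕ Fin k) ⊕ Fin 2) K) x y)
      ((glEquiv _ K).injective hgh)
    exact h1
  · intro g v
    set M := ((g : Matrix.GeneralLinearGroup ((Fin k ⊕ Fin k) ⊕ Fin 2) F) :
      Matrix ((Fin k ⊕ Fin k) ⊕ Fin 2) ((Fin k ⊕ Fin k) ⊕ Fin 2) F)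
    have hiQ : ∀ w : (Fin k ⊕ Fin k) ⊕ Fin 2 → F,
        qMinus k K (i a) (i c) (i ∘ w) = i (qMinus k F a c w) := fun w => by
      simp [Cfsg.quadFormMinus]
    have hgQ : ∀ w, qMinus k F a c (M.mulVec w) = qMinus k F a c w := fun w => by
      have h1 := g.2 w w
      simpa using h1
    have hρ : ∀ w : (Fin k ⊕ Fin k) ⊕ Fin 2 → F, ρ g (i ∘ w) = i ∘ M.mulVec w := fun w =>
      funext fun x => (RingHom.map_mulVec i M w x).symm
    have hsingle : ∀ j, (Pi.basisFun K ((Fin k ⊕ Fin k) ⊕ Fin 2)) j =
        i ∘ (Pi.single j 1 : (Fin k ⊕ Fin k) ⊕ Fin 2 → F) := fun j => by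
      funext x; simp [Pi.single_apply, apply_ite i]
    have key : (qMinus k K (i a) (i c)).comp (ρ g : ((Fin k ⊕ Fin k) ⊕ Fin 2 → K) →ₗ[K] _) =
        qMinus k K (i a) (i c) := by
      refine quadraticMap_ext_basis _ _ (Pi.basisFun K _) (fun j => ?_) fun j l _ => ?_
      · rw [QuadraticMap.comp_apply, hsingle, LinearEquiv.coe_coe, hρ, hiQ, hiQ, hgQ]
      · have hadd : ∀ u w : (Fin k ⊕ Fin k) ⊕ Fin 2 → F, (i ∘ u) + (i ∘ w) = i ∘ (u + w) :=
          fun u w => by funext x; simp
        simp only [QuadraticMap.polar, hsingle, hadd, QuadraticMap.comp_apply, LinearEquiv.coe_coe,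
          hρ, hiQ, hgQ]
    exact DFunLike.congr_fun key v

end Cfsg.Agent.Forms
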