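import Cfsg.Agent.Forms.SympOrder
import Cfsg.Agent.Forms.HermOrder
import Mathlib.LinearAlgebra.Matrix.GeneralLinearGroup.Card

/-!
# Counting totally isotropic planes
-/

set_option autoImplicit false

namespace Cfsg.Agent.Forms

open Module

variable {F V : Type*} [Field F] [AddCommGroup V] [Module F V]
  {σ : F →+* F} {B : V →ₛₗ[σ] V →ₗ[F] F}

/-- Totally isotropic planes. -/
abbrev IsoPlane (B : V →ₛₗ[σ] V →ₗ[F] F) : Type _ :=
  {W : Submodule F V // finrank F W = 2 ∧ ∀ u ∈ W, ∀ v ∈ W, B u v = 0}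

/-- The condition on a second vector of an isotropic plane through `u`. -/
abbrev IsoPartner (B : V →ₛₗ[σ] V →ₗ[F] F) (u : V) : Type _ :=
  {w : V // (B u w = 0 ∧ B w w = 0) ∧ w ∉ Submodule.span F {u}}

theorem isotropic_pair (hr : ∀ x y, B x y = 0 → B y x = 0) {u w : V} (hu : B u u = 0)
    (hw : B w w = 0) (huw : B u w = 0) :
    ∀ x ∈ Submodule.span F {u, w}, ∀ y ∈ Submodule.span F {u, w}, B x y = 0 := by
  intro x hx y hy
  obtain ⟨a, b, rfl⟩ := Submodule.mem_span_pair.1 hx
  obtain ⟨c, d, rfl⟩ := Submodule.mem_span_pair.1 hy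
  simp [LinearMap.map_smulₛₗ, hu, hw, huw, hr _ _ huw]

theorem finrank_span_pair {u w : V} (hu : u ≠ 0) (hw : w ∉ Submodule.span F {u}) :
    finrank F (Submodule.span F {u, w}) = 2 := by
  have h : LinearIndependent F ![u, w] := by
    rw [LinearIndependent.pair_iff' hu]
    exact fun a ha => hw (Submodule.mem_span_singleton.2 ⟨a, ha⟩)
  have := finrank_span_eq_card h
  rwa [Matrix.range_cons, Matrix.range_cons, Matrix.range_empty, Set.union_empty,
    Set.singleton_union, Fintype.card_fin] at this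

variable [Finite V] [FiniteDimensional F V]

/-- Partners of `u` against planes through `u`. -/
theorem card_partner {Q : ℕ} [Fintype F] (hF : Fintype.card F = Q)
    (hr : ∀ x y, B x y = 0 → B y x = 0) {u : V} (hu : u ≠ 0) (huu : B u u = 0) :
    Nat.card (IsoPartner B u) = Nat.card {W : IsoPlane B // u ∈ W.1} * (Q ^ 2 - Q) := by
  have : Fintype (IsoPlane B) := Fintype.ofFinite _
  classical
  let f : IsoPartner B u → {W : IsoPlane B // u ∈ W.1} := fun w =>
    ⟨⟨Submodule.span F {u, w.1}, finrank_span_pair hu w.2.2,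
      isotropic_pair hr huu w.2.1.2 w.2.1.1⟩, Submodule.subset_span (Set.mem_insert _ _)⟩
  rw [Nat.card_congr (Equiv.sigmaFiberEquiv f).symm, Nat.card_sigma,
    Finset.sum_congr rfl (g := fun _ => Q ^ 2 - Q), Finset.sum_const, Finset.card_univ,
    smul_eq_mul, ← Nat.card_eq_fintype_card]
  intro W _
  have hWs : Submodule.span F {u} ≤ W.1.1 := by simpa using W.2
  let e : {w : IsoPartner B u // f w = W} ≃ ((W.1.1 : Set V) \ (Submodule.span F {u} : Set V) : Set V) :=
    { toFun := fun w => ⟨w.1.1, by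
        have h : (f w.1).1.1 = W.1.1 := by rw [w.2]
        exact ⟨h ▸ Submodule.subset_span (Set.mem_insert_of_mem _ rfl), w.1.2.2⟩⟩
      invFun := fun w => ⟨⟨w.1, ⟨W.1.2.2 _ W.2 _ w.2.1, W.1.2.2 _ w.2.1 _ w.2.1⟩, w.2.2⟩, by
        refine Subtype.ext (Subtype.ext ?_)
        change Submodule.span F {u, w.1} = W.1.1
        refine Submodule.eq_of_le_of_finrank_le (Submodule.span_le.2 ?_) ?_
        · rintro x (rfl | rfl)
          · exact W.2
          · exact w.2.1
        · rw [finrank_span_pair hu w.2.2, W.1.2.1]⟩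
      left_inv := fun w => rfl
      right_inv := fun w => rfl }
  rw [Nat.card_congr e, Nat.card_coe_set_eq, Set.ncard_sdiff hWs]
  rw [← Nat.card_coe_set_eq, ← Nat.card_coe_set_eq]
  simp only [SetLike.coe_sort_coe]
  rw [natCard_eq_pow (V := W.1.1) hF, natCard_eq_pow (V := Submodule.span F {u}) hF, W.1.2.1,
    finrank_span_singleton hu, pow_one]

/-- Isotropic pairs against isotropic planes. -/
theorem card_pairs {Q : ℕ} [Fintype F] (hF : Fintype.card F = Q)
    (hr : ∀ x y, B x y = 0 → B y x = 0) :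
    Nat.card (Σ u : {u : V // u ≠ 0 ∧ B u u = 0}, IsoPartner B u.1) =
      Nat.card (IsoPlane B) * ((Q ^ 2 - 1) * (Q ^ 2 - Q)) := by
  have : Fintype (IsoPlane B) := Fintype.ofFinite _
  classical
  let e : (Σ u : {u : V // u ≠ 0 ∧ B u u = 0}, IsoPartner B u.1) ≃
      (Σ W : IsoPlane B, {s : Fin 2 → W.1 // LinearIndependent F s}) :=
    Equiv.ofBijective (fun p => ⟨⟨Submodule.span F {p.1.1, p.2.1}, finrank_span_pair p.1.2.1 p.2.2.2,
        isotropic_pair hr p.1.2.2 p.2.2.1.2 p.2.2.1.1⟩,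
        ⟨![⟨p.1.1, Submodule.subset_span (Set.mem_insert _ _)⟩,
          ⟨p.2.1, Submodule.subset_span (Set.mem_insert_of_mem _ rfl)⟩], by
          rw [LinearIndependent.pair_iff' (by simpa [Subtype.ext_iff] using p.1.2.1)]
          exact fun a ha => p.2.2.2
            (Submodule.mem_span_singleton.2 ⟨a, congrArg Subtype.val ha⟩)⟩⟩)
      ⟨fun p p' h => by
        obtain ⟨⟨u, hu⟩, w, hw⟩ := p
        obtain ⟨⟨u', hu'⟩, w', hw'⟩ := p'
        have h0 : u = u' := congrArg (fun x : Σ W : IsoPlane B,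
          {s : Fin 2 → W.1 // LinearIndependent F s} => (x.2.1 0 : V)) h
        have h1 : w = w' := congrArg (fun x : Σ W : IsoPlane B,
          {s : Fin 2 → W.1 // LinearIndependent F s} => (x.2.1 1 : V)) h
        subst h0 h1
        rfl,
      fun x => by
        have h0 : (x.2.1 0 : V) ≠ 0 := fun h => x.2.2.ne_zero 0 (Subtype.ext h)
        have h1 : (x.2.1 1 : V) ∉ Submodule.span F {(x.2.1 0 : V)} := by
          intro h
          obtain ⟨a, ha⟩ := Submodule.mem_span_singleton.1 h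
          have hs' : LinearIndependent F ![x.2.1 0, x.2.1 1] := by
            convert x.2.2 using 1; funext i; fin_cases i <;> rfl
          exact (LinearIndependent.pair_iff' (x.2.2.ne_zero 0)).1 hs' a (Subtype.ext ha)
        have key : ∀ x y : Σ W : IsoPlane B, {s : Fin 2 → W.1 // LinearIndependent F s},
            x.1.1 = y.1.1 → (x.2.1 0 : V) = y.2.1 0 → (x.2.1 1 : V) = y.2.1 1 → x = y := by
          rintro ⟨⟨W, hW⟩, s, hs⟩ ⟨⟨W', hW'⟩, t, ht⟩ hWW ha hb
          change W = W' at hWW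
          subst hWW
          congr 1
          refine Subtype.ext (funext fun i => Subtype.ext ?_)
          fin_cases i
          · exact ha
          · exact hb
        refine ⟨⟨⟨x.2.1 0, h0, x.1.2.2 _ (x.2.1 0).2 _ (x.2.1 0).2⟩,
          ⟨x.2.1 1, ⟨x.1.2.2 _ (x.2.1 0).2 _ (x.2.1 1).2,
            x.1.2.2 _ (x.2.1 1).2 _ (x.2.1 1).2⟩, h1⟩⟩, key _ _ ?_ rfl rfl⟩
        refine Submodule.eq_of_le_of_finrank_le (Submodule.span_le.2 ?_) ?_
        · rintro z (rfl | rfl)
          · exact (x.2.1 0).2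
          · exact (x.2.1 1).2
        · exact le_of_eq (x.1.2.1.trans (finrank_span_pair h0 h1).symm)⟩
  rw [Nat.card_congr e, Nat.card_sigma, Finset.sum_congr rfl
    (g := fun _ => (Q ^ 2 - 1) * (Q ^ 2 - Q)), Finset.sum_const, Finset.card_univ, smul_eq_mul,
    ← Nat.card_eq_fintype_card]
  intro W _
  rw [card_linearIndependent (by rw [W.2.1]), W.2.1, hF, Fin.prod_univ_two]
  simp

theorem card_planes_mul {Q K : ℕ} [Fintype F] (hF : Fintype.card F = Q)
    (hr : ∀ x y, B x y = 0 → B y x = 0)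
    (hK : ∀ u : V, u ≠ 0 → B u u = 0 → Nat.card (IsoPartner B u) = K) :
    Nat.card {u : V // u ≠ 0 ∧ B u u = 0} * K =
      Nat.card (IsoPlane B) * ((Q ^ 2 - 1) * (Q ^ 2 - Q)) := by
  have : Fintype {u : V // u ≠ 0 ∧ B u u = 0} := Fintype.ofFinite _
  rw [← card_pairs hF hr, Nat.card_sigma, Finset.sum_congr rfl (g := fun _ => K)
    (fun u _ => hK u.1 u.2.1 u.2.2), Finset.sum_const, Finset.card_univ, smul_eq_mul,
    ← Nat.card_eq_fintype_card]

end Cfsg.Agent.Forms
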