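import Cfsg.Agent.Forms.IsoLines

/-!
# Numbers of lines of the symplectic and unitary quadrangles
-/

set_option autoImplicit false

namespace Cfsg.Agent.Forms

open Module

variable {F V : Type*} [Field F] [AddCommGroup V] [Module F V] [Fintype F] [FiniteDimensional F V]

theorem card_diff_span {Q N : ℕ} (hF : Fintype.card F = Q) {u : V} (hu : u ≠ 0) {P : V → Prop}
    (hP : ∀ w ∈ Submodule.span F {u}, P w) (hN : Nat.card {w : V // P w} = N) :
    Nat.card {w : V // P w ∧ w ∉ Submodule.span F {u}} + Q = N := by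
  have : Finite V := Module.finite_of_finite F
  classical
  rw [← hN, show Q = Nat.card (Submodule.span F {u}) by
    rw [natCard_eq_pow hF, finrank_span_singleton hu, pow_one], ← Nat.card_sum]
  refine Nat.card_congr
    { toFun := Sum.elim (fun w => ⟨w.1, w.2.1⟩) (fun w => ⟨w.1, hP _ w.2⟩)
      invFun := fun w => if h : w.1 ∈ Submodule.span F {u} then Sum.inr ⟨w.1, h⟩
        else Sum.inl ⟨w.1, w.2, h⟩
      left_inv := ?_
      right_inv := ?_ }
  · rintro (⟨w, hw⟩ | ⟨w, hw⟩) <;> simp [hw]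
  · rintro ⟨w, hw⟩; dsimp only; split_ifs <;> rfl

theorem card_partner_symp {q : ℕ} (hF : Fintype.card F = q) {B : LinearMap.BilinForm F V}
    (hI : IsForm (RingHom.id F) B (fun _ => 0)) (hA : B.IsAlt) (hn : finrank F V = 4) {u : V}
    (hu : u ≠ 0) : Nat.card (IsoPartner B u) + q = q ^ 3 := by
  refine card_diff_span hF hu (fun w hw => ?_) ?_
  · obtain ⟨a, rfl⟩ := Submodule.mem_span_singleton.1 hw
    exact ⟨by simp [hA u], hA _⟩
  · have h1 := hI.finrank_perp (Submodule.span F {u})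
    rw [finrank_span_singleton hu, hn] at h1
    rw [← show finrank F (perp B (Submodule.span F {u})) = 3 by omega, ← natCard_eq_pow hF]
    exact Nat.card_congr (Equiv.subtypeEquivRight fun w =>
      ⟨fun h => mem_perp_span_singleton.2 h.1, fun h => ⟨mem_perp_span_singleton.1 h, hA w⟩⟩)

theorem IsHerm.card_iso_perp {σ : F →+* F} {B : V →ₛₗ[σ] V →ₗ[F] F} {q : ℕ}
    (h : IsHerm q σ B) {u : V} (hu : u ≠ 0) (huu : B u u = 0) :
    ∃ W : Submodule F V, finrank F W + 2 = finrank F V ∧ IsHerm q σ (resForm B W) ∧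
      Nat.card {w : V // B u w = 0 ∧ B w w = 0} =
        Fintype.card F * Nat.card {p : W // B (p : V) (p : V) = 0} := by
  obtain ⟨f, hf⟩ := h.form.exists_hypPair hu (by simpa using huu) (by simp)
  refine ⟨IsHypPair.co B u f, hf.finrank_co h.form,
    ⟨h.sigma_eq, fun x y => h.symm (x : V) y, hf.co_isForm h.form, h.ne_id⟩, ?_⟩
  rw [← Nat.card_eq_fintype_card, ← Nat.card_prod]
  symm
  refine Nat.card_congr (Equiv.ofBijective (fun x => ⟨x.1 • u + (x.2.1 : V), ?_, ?_⟩) ⟨?_, ?_⟩)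
  · simp [huu, (IsHypPair.mem_co.1 x.2.1.2).1]
  · simp [LinearMap.map_smulₛₗ, huu, (IsHypPair.mem_co.1 x.2.1.2).1,
      h.form.refl _ _ (IsHypPair.mem_co.1 x.2.1.2).1, x.2.2]
  · intro x y hxy
    obtain ⟨h1, -, h3⟩ := hf.coords_unique h.form (b := 0) (b' := 0) x.2.1.2 y.2.1.2
      (by simpa using congrArg Subtype.val hxy)
    exact Prod.ext h1 (Subtype.ext (Subtype.ext h3))
  · rintro ⟨w, hw1, hw2⟩
    obtain ⟨a, b, p, hp, rfl⟩ := hf.exists_coords h.form w
    have hb : b = 0 := by simpa [huu, (IsHypPair.mem_co.1 hp).1, hf.pairing] using hw1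
    subst hb
    refine ⟨(a, ⟨⟨p, hp⟩, ?_⟩), by simp⟩
    simpa [LinearMap.map_smulₛₗ, huu, (IsHypPair.mem_co.1 hp).1,
      h.form.refl _ _ (IsHypPair.mem_co.1 hp).1] using hw2

omit [Fintype F] in
theorem card_ne_zero_iso [Finite V] {σ : F →+* F} (B : V →ₛₗ[σ] V →ₗ[F] F) :
    Nat.card {u : V // u ≠ 0 ∧ B u u = 0} + 1 = Nat.card {u : V // B u u = 0} := by
  classical
  have : Fintype V := Fintype.ofFinite V
  simp only [Nat.card_eq_fintype_card, Fintype.card_subtype]
  rw [show (Finset.univ.filter fun u : V => u ≠ 0 ∧ B u u = 0) =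
    (Finset.univ.filter fun u : V => B u u = 0).erase 0 by ext; simp]
  exact Finset.card_erase_add_one (by simp)

/-- Lines of the symplectic quadrangle. -/
theorem card_symp_lines {q : ℕ} (hF : Fintype.card F = q) {B : LinearMap.BilinForm F V}
    (hI : IsForm (RingHom.id F) B (fun _ => 0)) (hA : B.IsAlt) (hn : finrank F V = 4) :
    Nat.card (IsoPlane B) = (q + 1) * (q ^ 2 + 1) ∧
      ∀ v : V, v ≠ 0 → Nat.card {W : IsoPlane B // v ∈ W.1} = q + 1 := by
  have : Finite V := Module.finite_of_finite F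
  have hq : 2 ≤ q := hF ▸ Fintype.one_lt_card
  have hK : ∀ u : V, u ≠ 0 → B u u = 0 → Nat.card (IsoPartner B u) = q ^ 3 - q := fun u hu _ => by
    have := card_partner_symp hF hI hA hn hu
    omega
  have hle : q ≤ q ^ 2 := Nat.le_self_pow two_ne_zero q
  have hle3 : q ≤ q ^ 3 := Nat.le_self_pow three_ne_zero q
  have hlt : q < q ^ 2 := by nlinarith
  constructor
  · have h := card_planes_mul hF hI.refl hK
    have hU : Nat.card {u : V // u ≠ 0 ∧ B u u = 0} = q ^ 4 - 1 := by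
      rw [← hn, ← card_ne_zero_vectors hF]
      exact Nat.card_congr (Equiv.subtypeEquivRight fun u => ⟨And.left, fun hu => ⟨hu, hA u⟩⟩)
    rw [hU] at h
    have hpos : 0 < (q ^ 2 - 1) * (q ^ 2 - q) := Nat.mul_pos (by omega) (by omega)
    refine Nat.eq_of_mul_eq_mul_right hpos (h.symm.trans ?_)
    have h4 : 1 ≤ q ^ 4 := Nat.one_le_pow _ _ (by omega)
    zify [h4, hle, hle3, show 1 ≤ q ^ 2 by omega]
    ring
  · intro v hv
    have h := card_partner hF hI.refl hv (hA v)
    rw [hK v hv (hA v)] at h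
    refine Nat.eq_of_mul_eq_mul_right (show 0 < q ^ 2 - q by omega) (h.symm.trans ?_)
    zify [hle, hle3]
    ring

/-- Lines of the unitary quadrangle in four dimensions. -/
theorem IsHerm.card_lines_four {σ : F →+* F} {B : V →ₛₗ[σ] V →ₗ[F] F} {q : ℕ}
    (h : IsHerm q σ B) (hF : Fintype.card F = q ^ 2) (hn : finrank F V = 4) :
    Nat.card (IsoPlane B) = (q + 1) * (q ^ 3 + 1) := by
  have : Finite V := Module.finite_of_finite F
  have hq : 2 ≤ q := two_le_q hF
  have hlev := ((h.card_levels hF).1 (by rw [hn]; decide)).2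
  rw [hn] at hlev
  have hU := card_ne_zero_iso B
  have hK : ∀ u : V, u ≠ 0 → B u u = 0 →
      Nat.card (IsoPartner B u) = q ^ 5 + q ^ 4 - q ^ 3 - q ^ 2 := by
    intro u hu huu
    obtain ⟨W, hW, hWh, hc⟩ := h.card_iso_perp hu huu
    have hWl := ((hWh.card_levels hF).1 (by rw [show finrank F W = 2 by omega]; decide)).2
    simp only [resForm_apply, show finrank F W = 2 by omega] at hWl
    have hd := card_diff_span hF hu (P := fun w => B u w = 0 ∧ B w w = 0) (fun w hw => by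
      obtain ⟨a, rfl⟩ := Submodule.mem_span_singleton.1 hw
      simp [LinearMap.map_smulₛₗ, huu]) hc
    rw [hF] at hd
    have h5 : q ^ 2 * Nat.card {p : W // B (p : V) (p : V) = 0} + q ^ 3 = q ^ 5 + q ^ 4 := by
      refine Nat.eq_of_mul_eq_mul_left (show 0 < q by omega) ?_
      linear_combination (q ^ 2) * hWl
    rw [show Nat.card (IsoPartner B u) = Nat.card {w : V // (B u w = 0 ∧ B w w = 0) ∧
      w ∉ Submodule.span F {u}} from rfl]
    omega
  have hmain := card_planes_mul hF h.form.refl hK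
  have hUval : Nat.card {u : V // u ≠ 0 ∧ B u u = 0} + 1 + q ^ 3 = q ^ 7 + q ^ 4 := by
    rw [hU]
    refine Nat.eq_of_mul_eq_mul_left (show 0 < q by omega) ?_
    linear_combination hlev
  have h3 : q ^ 2 + q ^ 3 ≤ q ^ 5 + q ^ 4 :=
    Nat.add_le_add (Nat.pow_le_pow_right (by omega) (by norm_num))
      (Nat.pow_le_pow_right (by omega) (by norm_num))
  have h2 : q ^ 2 < (q ^ 2) ^ 2 := by
    rw [← pow_mul]; exact Nat.pow_lt_pow_right (by omega) (by norm_num)
  have hpos : 0 < ((q ^ 2) ^ 2 - 1) * ((q ^ 2) ^ 2 - q ^ 2) :=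
    Nat.mul_pos (Nat.sub_pos_of_lt (lt_of_le_of_lt (Nat.one_le_pow _ _ (by omega)) h2))
      (Nat.sub_pos_of_lt h2)
  refine Nat.eq_of_mul_eq_mul_right hpos (hmain.symm.trans ?_)
  zify at hUval
  rw [Nat.sub_sub]
  zify [h2.le, show 1 ≤ (q ^ 2) ^ 2 from Nat.one_le_pow _ _ (by positivity), show q ^ 3 + q ^ 2 ≤ q ^ 5 + q ^ 4 by omega]
  linear_combination ((q : ℤ) ^ 5 + (q : ℤ) ^ 4 - ((q : ℤ) ^ 3 + (q : ℤ) ^ 2)) * hUval

/-- Lines of the unitary quadrangle in five dimensions. -/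
theorem IsHerm.card_lines_five {σ : F →+* F} {B : V →ₛₗ[σ] V →ₗ[F] F} {q : ℕ}
    (h : IsHerm q σ B) (hF : Fintype.card F = q ^ 2) (hn : finrank F V = 5) :
    Nat.card (IsoPlane B) = (q ^ 3 + 1) * (q ^ 5 + 1) := by
  have : Finite V := Module.finite_of_finite F
  have hq : 2 ≤ q := two_le_q hF
  have hlev := ((h.card_levels hF).2 (by rw [hn]; decide)).2
  rw [hn] at hlev
  have hU := card_ne_zero_iso B
  have hK : ∀ u : V, u ≠ 0 → B u u = 0 →
      Nat.card (IsoPartner B u) = q ^ 7 + q ^ 4 - q ^ 5 - q ^ 2 := by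
    intro u hu huu
    obtain ⟨W, hW, hWh, hc⟩ := h.card_iso_perp hu huu
    have hWl := ((hWh.card_levels hF).2 (by rw [show finrank F W = 3 by omega]; decide)).2
    simp only [resForm_apply, show finrank F W = 3 by omega] at hWl
    have hd := card_diff_span hF hu (P := fun w => B u w = 0 ∧ B w w = 0) (fun w hw => by
      obtain ⟨a, rfl⟩ := Submodule.mem_span_singleton.1 hw
      simp [LinearMap.map_smulₛₗ, huu]) hc
    rw [hF] at hd
    have h5 : q ^ 2 * Nat.card {p : W // B (p : V) (p : V) = 0} + q ^ 5 = q ^ 7 + q ^ 4 := by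
      refine Nat.eq_of_mul_eq_mul_left (show 0 < q by omega) ?_
      linear_combination (q ^ 2) * hWl
    rw [show Nat.card (IsoPartner B u) = Nat.card {w : V // (B u w = 0 ∧ B w w = 0) ∧
      w ∉ Submodule.span F {u}} from rfl]
    omega
  have hmain := card_planes_mul hF h.form.refl hK
  have hUval : Nat.card {u : V // u ≠ 0 ∧ B u u = 0} + 1 + q ^ 5 = q ^ 9 + q ^ 4 := by
    rw [hU]
    refine Nat.eq_of_mul_eq_mul_left (show 0 < q by omega) ?_
    linear_combination hlev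
  have h3 : q ^ 5 + q ^ 2 ≤ q ^ 7 + q ^ 4 :=
    Nat.add_le_add (Nat.pow_le_pow_right (by omega) (by norm_num))
      (Nat.pow_le_pow_right (by omega) (by norm_num))
  have h2 : q ^ 2 < (q ^ 2) ^ 2 := by
    rw [← pow_mul]; exact Nat.pow_lt_pow_right (by omega) (by norm_num)
  have hpos : 0 < ((q ^ 2) ^ 2 - 1) * ((q ^ 2) ^ 2 - q ^ 2) :=
    Nat.mul_pos (Nat.sub_pos_of_lt (lt_of_le_of_lt (Nat.one_le_pow _ _ (by omega)) h2))
      (Nat.sub_pos_of_lt h2)
  refine Nat.eq_of_mul_eq_mul_right hpos (hmain.symm.trans ?_)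
  zify at hUval
  rw [Nat.sub_sub]
  zify [h2.le, show 1 ≤ (q ^ 2) ^ 2 from Nat.one_le_pow _ _ (by positivity), h3]
  linear_combination ((q : ℤ) ^ 7 + (q : ℤ) ^ 4 - ((q : ℤ) ^ 5 + (q : ℤ) ^ 2)) * hUval

end Cfsg.Agent.Forms
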