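import Mathlib

/-!
The number of nilpotent endomorphisms of an `n`-space over a field with `q` elements is `q^(n(n-1))`
(Fine–Herstein), by counting pairs of a nilpotent endomorphism and a vector.
-/

set_option autoImplicit false

namespace Cfsg.Agent.Forms

open Module

variable {F : Type*} [Field F]

/-- The shift on `F^r`: `e_i ↦ e_(i+1)`, the last one to `0`. -/
noncomputable def shiftEnd (r : ℕ) : Module.End F (Fin r → F) :=
  (Pi.basisFun F (Fin r)).constr F fun i => if h : i.1 + 1 < r then Pi.single ⟨i.1 + 1, h⟩ 1 else 0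

theorem shiftEnd_single {r : ℕ} (i : Fin r) : shiftEnd (F := F) r (Pi.single i 1) =
    if h : i.1 + 1 < r then Pi.single ⟨i.1 + 1, h⟩ 1 else 0 := by
  rw [shiftEnd, ← Pi.basisFun_apply, Basis.constr_basis]

theorem isNilpotent_shiftEnd (r : ℕ) : IsNilpotent (shiftEnd (F := F) r) := by
  have h : ∀ k (i : Fin r), r ≤ i.1 + k → (shiftEnd (F := F) r ^ k) (Pi.single i 1) = 0 := by
    intro k
    induction k with
    | zero => intro i hi; omega
    | succ k ih =>
      intro i hi
      rw [pow_succ, Module.End.mul_apply, shiftEnd_single]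
      split
      · exact ih _ (by simp only; omega)
      · rw [map_zero]
  exact ⟨r, (Pi.basisFun F (Fin r)).ext fun i => by
    rw [Pi.basisFun_apply]; simpa using h r i (by omega)⟩

section Product

variable {A B : Type*} [AddCommGroup A] [Module F A] [AddCommGroup B] [Module F B]

/-- Nilpotent endomorphisms of `A × B` restricting to a given nilpotent `s` on `A`. -/
theorem card_nilpotent_extend (s : Module.End F A) (hs : IsNilpotent s) :
    Nat.card {T : Module.End F (A × B) // IsNilpotent T ∧ ∀ x, T (x, 0) = (s x, 0)} =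
      Nat.card (B →ₗ[F] A) * Nat.card {T : Module.End F B // IsNilpotent T} := by
  let mk : (B →ₗ[F] A) → Module.End F B → Module.End F (A × B) := fun S T =>
    (LinearMap.coprod s S).prod (T ∘ₗ LinearMap.snd F A B)
  have hmk : ∀ S T x y, mk S T (x, y) = (s x + S y, T y) := fun S T x y => rfl
  have hnil : ∀ S T, IsNilpotent T → IsNilpotent (mk S T) := by
    rintro S T ⟨b, hb⟩
    obtain ⟨a, ha⟩ := hs
    refine ⟨a + b, LinearMap.ext fun p => ?_⟩
    have h1 : ∀ k x y, ((mk S T ^ k) (x, y)).2 = (T ^ k) y := by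
      intro k
      induction k with
      | zero => intros; rfl
      | succ k ih => intro x y; rw [pow_succ, Module.End.mul_apply, hmk, ih, pow_succ, Module.End.mul_apply]
    have h2 : ∀ k x, (mk S T ^ k) (x, 0) = ((s ^ k) x, 0) := by
      intro k
      induction k with
      | zero => intro x; rfl
      | succ k ih =>
        intro x
        rw [pow_succ, Module.End.mul_apply, hmk, map_zero, map_zero, add_zero, ih, pow_succ,
          Module.End.mul_apply]
    obtain ⟨x, y⟩ := p
    have h3 : (mk S T ^ b) (x, y) = (((mk S T ^ b) (x, y)).1, 0) := by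
      refine Prod.ext rfl ?_
      rw [h1, hb]; rfl
    rw [pow_add, Module.End.mul_apply, h3, h2, ha]
    rfl
  rw [← Nat.card_prod]
  refine (Nat.card_eq_of_bijective (fun p : (B →ₗ[F] A) × {T : Module.End F B // IsNilpotent T} =>
    (⟨mk p.1 p.2.1, hnil _ _ p.2.2, fun x => by rw [hmk, map_zero, map_zero, add_zero]⟩ :
      {T : Module.End F (A × B) // IsNilpotent T ∧ ∀ x, T (x, 0) = (s x, 0)})) ⟨?_, ?_⟩).symm
  · rintro ⟨S, T, hT⟩ ⟨S', T', hT'⟩ h
    have h' : ∀ y, mk S T (0, y) = mk S' T' (0, y) := fun y => by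
      rw [show mk S T = mk S' T' from congrArg Subtype.val h]
    simp only [hmk, map_zero, zero_add, Prod.mk.injEq] at h'
    refine Prod.ext (LinearMap.ext fun y => (h' y).1) (Subtype.ext (LinearMap.ext fun y => (h' y).2))
  · rintro ⟨U, ⟨a, ha⟩, hUs⟩
    let T : Module.End F B := LinearMap.snd F A B ∘ₗ U ∘ₗ LinearMap.inr F A B
    have h1 : ∀ x y, U (x, y) = (s x + (U (0, y)).1, (U (0, y)).2) := by
      intro x y
      rw [show (x, y) = (x, (0 : B)) + ((0 : A), y) by simp, map_add, hUs]
      simp [Prod.ext_iff]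
    have h2 : ∀ k x y, ((U ^ k) (x, y)).2 = (T ^ k) y := by
      intro k
      induction k with
      | zero => intros; rfl
      | succ k ih =>
        intro x y
        rw [pow_succ, Module.End.mul_apply, h1, ih, pow_succ, Module.End.mul_apply]
        rfl
    refine ⟨(LinearMap.fst F A B ∘ₗ U ∘ₗ LinearMap.inr F A B,
      ⟨T, a, LinearMap.ext fun y => by rw [← h2 a 0 y, ha]; rfl⟩), Subtype.ext (LinearMap.ext fun p => ?_)⟩
    obtain ⟨x, y⟩ := p
    change mk _ _ (x, y) = U (x, y)
    rw [hmk, h1 x y]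
    rfl

end Product

section Count

variable {V : Type*} [AddCommGroup V] [Module F V]

/-- An independent tuple completes to a product decomposition. -/
theorem exists_equiv_of_tuple [FiniteDimensional F V] {r : ℕ} (u : Fin r → V)
    (hu : LinearIndependent F u) :
    ∃ e : V ≃ₗ[F] (Fin r → F) × (Fin (finrank F V - r) → F), ∀ i, e (u i) = (Pi.single i 1, 0) := by
  set W := Submodule.span F (Set.range u) with hW
  obtain ⟨C, hC⟩ := W.exists_isCompl
  have hWr : finrank F W = r := by rw [finrank_span_eq_card hu, Fintype.card_fin]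
  have hCr : finrank F C = finrank F V - r := by
    have := Submodule.finrank_add_eq_of_isCompl hC
    omega
  let bW : Basis (Fin r) F W := Basis.span hu
  let eC : C ≃ₗ[F] (Fin (finrank F V - r) → F) := LinearEquiv.ofFinrankEq _ _ (by rw [hCr]; simp)
  refine ⟨(Submodule.prodEquivOfIsCompl W C hC).symm.trans (bW.equivFun.prodCongr eC), fun i => ?_⟩
  have h1 : (Submodule.prodEquivOfIsCompl W C hC).symm (u i) = (bW i, 0) := by
    rw [LinearEquiv.symm_apply_eq]
    simp [bW, Module.Basis.span_apply hu i]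
  rw [LinearEquiv.trans_apply, h1, LinearEquiv.prodCongr_apply, map_zero]
  exact Prod.ext (funext fun j => by simp [Basis.equivFun_apply, Pi.single_apply, Finsupp.single_apply, eq_comm]) rfl

/-- Nilpotent endomorphisms shifting a given independent tuple. -/
theorem card_nilpotent_shift [FiniteDimensional F V] {r : ℕ} (u : Fin r → V)
    (hu : LinearIndependent F u) :
    Nat.card {T : Module.End F V //
        IsNilpotent T ∧ ∀ i : Fin r, T (u i) = if h : i.1 + 1 < r then u ⟨i.1 + 1, h⟩ else 0} =
      Nat.card ((Fin (finrank F V - r) → F) →ₗ[F] (Fin r → F)) *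
        Nat.card {T : Module.End F (Fin (finrank F V - r) → F) // IsNilpotent T} := by
  obtain ⟨e, he⟩ := exists_equiv_of_tuple u hu
  rw [← card_nilpotent_extend (shiftEnd r) (isNilpotent_shiftEnd r)]
  refine Nat.card_congr (e.conjRingEquiv.toEquiv.subtypeEquiv fun T => and_congr ?_ ?_)
  · exact (IsNilpotent.map_iff (f := e.conjRingEquiv) e.conjRingEquiv.injective).symm
  · constructor
    · intro h x
      have hlin : e.conjRingEquiv T ∘ₗ LinearMap.inl F _ (Fin (finrank F V - r) → F) =
          LinearMap.inl F _ _ ∘ₗ shiftEnd r := by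
        refine (Pi.basisFun F (Fin r)).ext fun i => ?_
        rw [Pi.basisFun_apply, LinearMap.comp_apply, LinearMap.comp_apply, LinearMap.inl_apply,
          LinearMap.inl_apply, shiftEnd_single, ← he i]
        change e (T (e.symm (e (u i)))) = _
        rw [e.symm_apply_apply, h i]
        split
        · rw [he]
        · rw [map_zero]; rfl
      exact LinearMap.congr_fun hlin x
    · intro h i
      refine e.injective ?_
      have h1 := h (Pi.single i 1)
      rw [← he i] at h1
      change e (T (e.symm (e (u i)))) = _ at h1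
      rw [e.symm_apply_apply, shiftEnd_single] at h1
      rw [h1]
      split
      · rw [he]
      · rw [map_zero]; rfl

end Count

theorem sum_falling_aux (q n : ℕ) (hq : 1 ≤ q) :
    ∀ j ≤ n, ∑ k ∈ Finset.range (j + 1),
      (∏ i ∈ Finset.range (n - k), (q ^ n - q ^ i)) * (q ^ (n - 1)) ^ k =
      (∏ i ∈ Finset.range (n - j), (q ^ n - q ^ i)) * q ^ (n * j) := by
  intro j
  induction j with
  | zero => intro _; simp
  | succ j ih =>
    intro hj
    rw [Finset.sum_range_succ, ih (by omega), show n - j = n - (j + 1) + 1 by omega,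
      Finset.prod_range_succ, ← pow_mul, mul_assoc, ← mul_add, Nat.sub_mul, ← pow_add, ← pow_add]
    have h1 : n - (j + 1) + n * j = (n - 1) * (j + 1) := by
      obtain ⟨m, rfl⟩ : ∃ m, n = m + 1 := ⟨n - 1, by omega⟩
      rw [Nat.add_sub_add_right, Nat.add_sub_cancel]
      have : j ≤ m := by omega
      obtain ⟨d, rfl⟩ := Nat.exists_eq_add_of_le this
      rw [Nat.add_sub_cancel_left]
      ring
    rw [h1, show n + n * j = n * (j + 1) by ring,
      Nat.sub_add_cancel (Nat.pow_le_pow_right hq (Nat.mul_le_mul_right _ (Nat.sub_le _ _)))]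

/-- Fine–Herstein: there are `q^(n(n-1))` nilpotent endomorphisms. -/
theorem card_nilpotent_end [Fintype F] : ∀ n : ℕ,
    Nat.card {T : Module.End F (Fin n → F) // IsNilpotent T} = Fintype.card F ^ (n * (n - 1)) := by
  intro n
  induction n using Nat.strong_induction_on with
  | _ n ih =>
  set q := Fintype.card F with hq
  rcases Nat.eq_zero_or_pos n with rfl | hn
  · haveI : Nonempty {T : Module.End F (Fin 0 → F) // IsNilpotent T} := ⟨⟨0, IsNilpotent.zero⟩⟩
    rw [Nat.card_eq_one_iff_unique.2 ⟨inferInstance, inferInstance⟩]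
    simp
  haveI : Finite (Module.End F (Fin n → F)) := Module.finite_of_finite F
  let X := Σ r : Fin (n + 1), Σ u : {u : Fin r.1 → (Fin n → F) // LinearIndependent F u},
    {T : Module.End F (Fin n → F) //
      IsNilpotent T ∧ ∀ i : Fin r.1, T (u.1 i) = if h : i.1 + 1 < r.1 then u.1 ⟨i.1 + 1, h⟩ else 0}
  let hd : X → (Fin n → F) := fun x => if h : 0 < x.1.1 then x.2.1.1 ⟨0, h⟩ else 0
  have hit : ∀ x : X, ∀ i (h : i < x.1.1), (x.2.2.1 ^ i) (hd x) = x.2.1.1 ⟨i, h⟩ := by
    intro x i
    induction i with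
    | zero => intro h; rw [pow_zero]; exact dif_pos h
    | succ i ihi =>
      intro h
      rw [pow_succ', Module.End.mul_apply, ihi (by omega), x.2.2.2.2, dif_pos h]
  have hlast : ∀ x : X, (x.2.2.1 ^ x.1.1) (hd x) = 0 := by
    intro x
    rcases Nat.eq_zero_or_pos x.1.1 with h | h
    · rw [show hd x = 0 from dif_neg (by omega), map_zero]
    · have h1 : (x.2.2.1 ^ (x.1.1 - 1 + 1)) (hd x) = 0 := by
        rw [pow_succ', Module.End.mul_apply, hit x _ (by omega), x.2.2.2.2,
          dif_neg (by simp only; omega)]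
      rwa [Nat.sub_add_cancel h] at h1
  let f : X → {T : Module.End F (Fin n → F) // IsNilpotent T} × (Fin n → F) :=
    fun x => (⟨x.2.2.1, x.2.2.2.1⟩, hd x)
  have hf : Function.Bijective f := by
    refine ⟨fun x y h => ?_, fun p => ?_⟩
    · obtain ⟨⟨r, hr⟩, ⟨u, hu⟩, ⟨T, hT⟩⟩ := x
      obtain ⟨⟨r', hr'⟩, ⟨u', hu'⟩, ⟨T', hT'⟩⟩ := y
      simp only [f, Prod.mk.injEq, Subtype.mk.injEq] at h
      obtain ⟨rfl, hh⟩ := h
      have key : ∀ a b : X, a.2.2.1 = b.2.2.1 → hd a = hd b → b.1.1 ≤ a.1.1 := by
        intro a b h1 h2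
        by_contra hc
        push Not at hc
        have h3 := hit b a.1.1 hc
        rw [← h1, ← h2, hlast a] at h3
        exact b.2.1.2.ne_zero _ h3.symm
      obtain rfl : r = r' := le_antisymm
        (key ⟨⟨r', hr'⟩, ⟨u', hu'⟩, ⟨T, hT'⟩⟩ ⟨⟨r, hr⟩, ⟨u, hu⟩, ⟨T, hT⟩⟩ rfl hh.symm)
        (key ⟨⟨r, hr⟩, ⟨u, hu⟩, ⟨T, hT⟩⟩ ⟨⟨r', hr'⟩, ⟨u', hu'⟩, ⟨T, hT'⟩⟩ rfl hh)
      obtain rfl : u = u' := funext fun i =>
        (hit ⟨⟨r, hr⟩, ⟨u, hu⟩, ⟨T, hT⟩⟩ i.1 i.2).symm.trans
          ((congrArg _ hh).trans (hit ⟨⟨r, hr'⟩, ⟨u', hu'⟩, ⟨T, hT'⟩⟩ i.1 i.2))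
      rfl
    · obtain ⟨⟨T, hT⟩, v⟩ := p
      classical
      have hex : ∃ k, (T ^ k) v = 0 := by
        obtain ⟨k, hk⟩ := hT
        exact ⟨k, by rw [hk]; rfl⟩
      set r := Nat.find hex with hr
      have hr0 : (T ^ r) v = 0 := Nat.find_spec hex
      have hmin : ∀ i < r, (T ^ i) v ≠ 0 := fun i hi => Nat.find_min hex hi
      have hli : LinearIndependent F fun i : Fin r => (T ^ i.1) v := by
        rw [Fintype.linearIndependent_iff]
        intro c hc
        by_contra hcne
        push Not at hcne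
        have hex' : ∃ i, ∃ h : i < r, c ⟨i, h⟩ ≠ 0 := by
          obtain ⟨i, hi⟩ := hcne
          exact ⟨i.1, i.2, hi⟩
        obtain ⟨hi, hci⟩ := Nat.find_spec hex'
        have h1 := congrArg (T ^ (r - 1 - Nat.find hex')) hc
        rw [map_sum, map_zero, Finset.sum_eq_single (⟨Nat.find hex', hi⟩ : Fin r)] at h1
        · rw [map_smul, ← Module.End.mul_apply, ← pow_add, smul_eq_zero] at h1
          exact h1.elim hci (hmin _ (by simp only; omega))
        · intro j _ hj
          rcases lt_or_gt_of_ne (Fin.val_ne_of_ne hj) with hlt | hgt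
          · have : c j = 0 := by
              by_contra hne
              exact Nat.find_min hex' hlt ⟨j.2, hne⟩
            simp [this]
          · rw [map_smul, ← Module.End.mul_apply, ← pow_add]
            have hle : r ≤ r - 1 - Nat.find hex' + j.1 := by simp only at hgt; omega
            rw [← Nat.sub_add_cancel hle, pow_add, Module.End.mul_apply, hr0, map_zero, smul_zero]
        · simp
      have hrn : r < n + 1 := by
        have := hli.fintype_card_le_finrank
        rw [Fintype.card_fin, Module.finrank_fin_fun] at this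
        omega
      refine ⟨⟨⟨r, hrn⟩, ⟨fun i => (T ^ i.1) v, hli⟩, ⟨T, hT, fun i => ?_⟩⟩, Prod.ext rfl ?_⟩
      · split
        · rw [← Module.End.mul_apply, ← pow_succ']
        · rename_i h
          rw [← Module.End.mul_apply, ← pow_succ', show i.1 + 1 = r from le_antisymm i.2 (not_lt.1 h)]
          exact hr0
      · change (if h : 0 < r then (T ^ 0) v else 0) = v
        split
        · rfl
        · rename_i h
          have : r = 0 := by omega
          rw [this] at hr0
          exact hr0.symm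
  have hcard : Nat.card {T : Module.End F (Fin n → F) // IsNilpotent T} * q ^ n =
      ∑ r : Fin (n + 1), (∏ i ∈ Finset.range r.1, (q ^ n - q ^ i)) * (q ^ ((n - r.1) * r.1) *
        Nat.card {T : Module.End F (Fin (n - r.1) → F) // IsNilpotent T}) := by
    have h1 := Nat.card_congr (Equiv.ofBijective f hf)
    rw [Nat.card_prod, Nat.card_fun, Nat.card_fin, Nat.card_eq_fintype_card (α := F)] at h1
    rw [← h1]
    haveI : ∀ r : Fin (n + 1), Fintype {u : Fin r.1 → (Fin n → F) // LinearIndependent F u} :=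
      fun r => Fintype.ofFinite _
    rw [Nat.card_sigma]
    refine Finset.sum_congr rfl fun r _ => ?_
    rw [Nat.card_sigma]
    have hu : ∀ u : {u : Fin r.1 → (Fin n → F) // LinearIndependent F u},
        Nat.card {T : Module.End F (Fin n → F) //
          IsNilpotent T ∧ ∀ i : Fin r.1, T (u.1 i) = if h : i.1 + 1 < r.1 then u.1 ⟨i.1 + 1, h⟩ else 0} =
        q ^ ((n - r.1) * r.1) *
          Nat.card {T : Module.End F (Fin (n - r.1) → F) // IsNilpotent T} := by
      intro u
      rw [card_nilpotent_shift u.1 u.2, Module.finrank_fin_fun, Module.natCard_eq_pow_finrank (K := F),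
        Module.finrank_linearMap, Module.finrank_fin_fun, Module.finrank_fin_fun,
        Nat.card_eq_fintype_card]
    rw [Finset.sum_congr rfl fun u _ => hu u, Finset.sum_const, smul_eq_mul, Finset.card_univ,
      ← Nat.card_eq_fintype_card,
      card_linearIndependent (K := F) (V := Fin n → F) (by rw [Module.finrank_fin_fun]; omega),
      Module.finrank_fin_fun, ← Fin.prod_univ_eq_prod_range]
  rw [Fin.sum_univ_succ] at hcard
  simp only [Fin.val_zero, Finset.range_zero, Finset.prod_empty, Nat.sub_zero, mul_zero, pow_zero,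
    one_mul, Fin.val_succ] at hcard
  have hrest : ∀ i : Fin n, Nat.card {T : Module.End F (Fin (n - (i.1 + 1)) → F) // IsNilpotent T} =
      q ^ ((n - (i.1 + 1)) * (n - (i.1 + 1) - 1)) := fun i => ih _ (by omega)
  simp only [hrest, ← pow_add] at hcard
  have hid := sum_falling_aux q n Fintype.card_pos n le_rfl
  rw [← Finset.sum_range_reflect, Finset.sum_range_succ', Nat.sub_self, Finset.prod_range_zero,
    one_mul] at hid
  simp only [Nat.add_sub_cancel, Nat.sub_zero, Nat.sub_self, Finset.prod_range_zero, one_mul] at hid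
  have hsum : ∑ i : Fin n, (∏ j ∈ Finset.range (i.1 + 1), (q ^ n - q ^ j)) *
        q ^ ((n - (i.1 + 1)) * (i.1 + 1) + (n - (i.1 + 1)) * (n - (i.1 + 1) - 1)) =
      ∑ k ∈ Finset.range n,
        (∏ j ∈ Finset.range (n - (n - (k + 1))), (q ^ n - q ^ j)) * (q ^ (n - 1)) ^ (n - (k + 1)) := by
    rw [← Fin.sum_univ_eq_sum_range]
    refine Finset.sum_congr rfl fun i _ => ?_
    have hi := i.2
    rw [show n - (n - (i.1 + 1)) = i.1 + 1 by omega, ← pow_mul, ← Nat.mul_add, mul_comm (n - 1)]
    rcases Nat.eq_zero_or_pos (n - (i.1 + 1)) with h | h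
    · rw [h]; simp
    · rw [show i.1 + 1 + (n - (i.1 + 1) - 1) = n - 1 by omega]
  rw [hsum] at hcard
  rw [← pow_mul] at hid
  have hqn : 1 < q ^ n := Nat.one_lt_pow (by omega) Fintype.one_lt_card
  have h3 : q ^ (n * n) = q ^ (n * (n - 1)) * q ^ n := by
    rw [← pow_add]; congr 1
    obtain ⟨m, rfl⟩ : ∃ m, n = m + 1 := ⟨n - 1, by omega⟩
    rw [Nat.add_sub_cancel]; ring
  rw [mul_comm (n - 1) n, h3] at hid
  change _ = Nat.card {T : Module.End F (Fin n → F) // IsNilpotent T} + _ at hcard
  generalize Nat.card {T : Module.End F (Fin n → F) // IsNilpotent T} = N at hcard ⊢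
  generalize q ^ (n * (n - 1)) = M at hid ⊢
  obtain ⟨c, hc⟩ : ∃ c, q ^ n = c + 2 := ⟨q ^ n - 2, by omega⟩
  rw [hc] at hcard hid
  have hA : N * (c + 1) = M * (c + 1) := by linarith
  exact Nat.eq_of_mul_eq_mul_right (by omega) hA

end Cfsg.Agent.Forms
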