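import Cfsg.Agent.Forms.OddSpinorTorus
import Cfsg.Agent.Forms.SympSpectrum

/-!
`PΩ_{2n+1}(q)` and `PSp_{2n}(q)`, `q` odd, `n ≥ 3`, differ in their element orders.
-/

set_option autoImplicit false

namespace Cfsg.Agent.Forms

open Module

variable {F : Type*} [Field F] [Fintype F] {q p : ℕ} [hp : Fact p.Prime] [CharP F p]

theorem psp_exists_mixed_order (hF : Fintype.card F = q) (h2 : (2 : F) ≠ 0) {n : ℕ} (hn : 3 ≤ n) :
    ∃ x : Cfsg.PSp n F, p * (q ^ (n - 1) + 1) ∣ orderOf x := by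
  classical
  obtain ⟨B, hA, hB, π, hπs, hπ⟩ := exists_psp_hom (F := F) n (by omega)
  obtain ⟨B₁, hA₁, hB₁⟩ := exists_altForm (F := F) (d := 1 + 1) (k := 1) rfl
  obtain ⟨B₂, hA₂, hB₂⟩ := exists_altForm (F := F) (d := (n - 1) + (n - 1)) (k := n - 1) rfl
  obtain ⟨u, hu, hu0, hu1⟩ := exists_regular_unipotent h2 (k := 1) (m := 1) rfl B₁ hA₁ hB₁
  obtain ⟨a, ha, haT⟩ := exists_torus_plus (h := n - 1) (by omega) B₂ hA₂ hB₂
  let β : LinearMap.BilinForm F ((Fin (1 + 1) → F) × (Fin ((n - 1) + (n - 1)) → F)) :=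
    B₁.compl₁₂ (LinearMap.fst F _ _) (LinearMap.fst F _ _) +
      B₂.compl₁₂ (LinearMap.snd F _ _) (LinearMap.snd F _ _)
  have hβ : ∀ x y, β x y = B₁ x.1 y.1 + B₂ x.2 y.2 := fun x y => rfl
  have hβA : β.IsAlt := fun x => by rw [hβ, hA₁, hA₂, add_zero]
  have hβn : ∀ x, (∀ y, β x y = 0) → x = 0 := fun x hx =>
    Prod.ext (hB₁.1 _ fun y => by simpa [hβ] using hx (y, 0))
      (hB₂.1 _ fun y => by simpa [hβ] using hx (0, y))
  obtain ⟨e, he⟩ := exists_isometryEquiv (n := n + n) (by simp; omega) β hβA hβn B hA hB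
  let g₀ := (e.symm.trans (u.prodCongr a)).trans e
  have hg₀ : ∀ x y, B (g₀ x) (g₀ y) = B x y := fun x y => by
    obtain ⟨x, rfl⟩ := e.surjective x
    obtain ⟨y, rfl⟩ := e.surjective y
    simp [g₀, he, hβ, hu, ha]
  let g : altGroup B := ⟨g₀, fun x y => hg₀ x y, fun _ => rfl⟩
  have hpow : ∀ (i : ℕ) x, ((g ^ i : altGroup B) : (Fin (n + n) → F) ≃ₗ[F] (Fin (n + n) → F)) (e x) =
      e (((u : Module.End F (Fin (1 + 1) → F)) ^ i) x.1, ((a : Module.End F _) ^ i) x.2) := by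
    intro i
    induction i with
    | zero => intro x; simp
    | succ i ih =>
      intro x
      rw [pow_succ', alt_mul_apply, ih, pow_succ', pow_succ']
      simp [g, g₀]
  refine ⟨π g, ?_⟩
  set j := orderOf (π g)
  obtain ⟨c, hc⟩ := (hπ (g ^ j)).1 (by rw [map_pow, pow_orderOf_eq_one])
  have : CharP (Module.End F (Fin (1 + 1) → F)) p :=
    charP_of_injective_algebraMap (algebraMap F _).injective p
  have hup : (u : Module.End F (Fin (1 + 1) → F)) ^ p = 1 := by
    have h := pow_eq_zero_of_le hp.out.two_le hu0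
    rw [sub_pow_char_of_commute p (Commute.one_right _), one_pow] at h
    exact sub_eq_zero.1 h
  have hu' : (u : Module.End F (Fin (1 + 1) → F)) ^ j = algebraMap F _ c := LinearMap.ext fun v => by
    have h := hc (e (v, 0))
    rw [hpow, ← map_smul] at h
    rw [Module.algebraMap_end_apply]
    exact (Prod.ext_iff.1 (e.injective h)).1
  have hc1 : c = 1 := by
    refine frobenius_inj F p ?_
    have h := congrArg (fun f : Module.End F (Fin (1 + 1) → F) => f ^ p) hu'
    simp only [← map_pow] at h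
    rw [← pow_mul, mul_comm, pow_mul, hup, one_pow,
      ← map_one (algebraMap F (Module.End F (Fin (1 + 1) → F)))] at h
    rw [frobenius_def, frobenius_def, one_pow]
    exact ((algebraMap F (Module.End F (Fin (1 + 1) → F))).injective h).symm
  have hpj : p ∣ j := by
    have h := clog_dvd_of_pow_eq_one hu0 hu1 (hu'.trans (by rw [hc1, map_one]))
    rwa [show Nat.clog p (1 + 1) = 1 from Nat.clog_eq_one le_rfl hp.out.two_le, pow_one] at h
  have hTj : q ^ (n - 1) + 1 ∣ j := by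
    rw [← hF, ← haT]
    refine LinearMap.ext fun v => ?_
    have h := hc (e (0, v))
    rw [hpow, hc1, one_smul] at h
    exact (Prod.ext_iff.1 (e.injective h)).2
  refine Nat.Coprime.mul_dvd_of_dvd_of_dvd (hp.out.coprime_iff_not_dvd.2 fun h => ?_) hpj hTj
  obtain ⟨k, hk, hk'⟩ := FiniteField.card F p
  rw [hF] at hk'
  exact hp.out.not_dvd_one ((Nat.dvd_add_right ((hk' ▸ dvd_pow_self p k.ne_zero).trans
    (dvd_pow_self q (by omega)))).1 h)

theorem pomega_odd_no_mixed_order (hF : Fintype.card F = q) (h2 : (2 : F) ≠ 0) {n : ℕ} (hn : 3 ≤ n)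
    (x : Cfsg.POmega F (Cfsg.quadFormOdd n F)) : ¬ p * (q ^ (n - 1) + 1) ∣ orderOf x := by
  intro hd
  obtain ⟨y, rfl⟩ := QuotientGroup.mk_surjective x
  have hdy : p * (q ^ (n - 1) + 1) ∣ orderOf (y : Cfsg.isometryGroup F (Cfsg.quadFormOdd n F)) := by
    rw [Subgroup.orderOf_coe]
    exact hd.trans (orderOf_map_dvd (QuotientGroup.mk' _) y)
  have hmem : (y : Cfsg.isometryGroup F (Cfsg.quadFormOdd n F)) ∈ Cfsg.Omega F (Cfsg.quadFormOdd n F) := y.2
  generalize (y : Cfsg.isometryGroup F (Cfsg.quadFormOdd n F)) = z at hdy hmem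
  clear hd y
  revert z
  rw [← coe_qOdd n F]
  intro z hd hmem
  set T := p * (q ^ (n - 1) + 1)
  set w := z ^ (orderOf z / T)
  have hw : orderOf w = T := orderOf_pow_orderOf_div (orderOf_pos z).ne' hd
  have hdim : finrank F (Unit ⊕ (Fin n ⊕ Fin n) → F) = 2 * n + 1 := by
    simp; omega
  have hQ := qOdd_nondegenerate (F := F) (m := n) h2
  have hc := (mem_omega_iff (qOdd n F) w).1 (Subgroup.pow_mem _ hmem _)
  obtain ⟨hd1, hs1⟩ := (mem_commutator_iff h2 hQ (by omega)).1 hc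
  exact no_torus_commute (p := p) hF h2 hQ hn hdim (isometryEquiv (qOdd n F) w) hd1 hs1
    (((isometryEquiv (qOdd n F)).orderOf_eq w).trans hw)

end Cfsg.Agent.Forms
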