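import Cfsg.Agent.Forms.Spinor
import Cfsg.Agent.Forms.OrthBridge
import Cfsg.Agent.Forms.OrthCard
import Cfsg.Agent.FGS4.Zsigmondy.Main
import Mathlib.RingTheory.Norm.Basic
import Mathlib.FieldTheory.Finite.Extension

/-!
In `Ω` of an odd-dimensional space of dimension `2n + 1` no element of order `q^(n-1) + 1` commutes
with a non-trivial `p`-element: the spinor norm of a generator of the anisotropic torus is non-trivial.
-/

set_option autoImplicit false

namespace Cfsg.Agent.Forms

open Module Polynomial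

theorem sign_semiregular {α : Type*} [Fintype α] [DecidableEq α] (σ : Equiv.Perm α) {T : ℕ}
    (h : ∀ x, σ x ≠ x → ∀ i : ℕ, (σ ^ i) x = x ↔ T ∣ i) :
    Equiv.Perm.sign σ = (-1) ^ (σ.support.card + σ.support.card / T) := by
  have hall : ∀ c ∈ σ.cycleType, c = T := by
    intro c hc
    rw [Equiv.Perm.cycleType_def, Multiset.mem_map] at hc
    obtain ⟨τ, hτ, rfl⟩ := hc
    obtain ⟨hcyc, heq⟩ := Equiv.Perm.mem_cycleFactorsFinset_iff.1 hτ
    obtain ⟨x, hx⟩ := hcyc.nonempty_support
    have hxσ : σ x ≠ x := by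
      rw [← heq x hx]
      exact Equiv.Perm.mem_support.1 hx
    have hτe : τ = σ.cycleOf x := Equiv.Perm.cycle_is_cycleOf hx hτ
    have hiff : ∀ i : ℕ, τ ^ i = 1 ↔ T ∣ i := fun i => by
      rw [hcyc.pow_eq_one_iff' (Equiv.Perm.mem_support.1 hx), hτe, Equiv.Perm.cycleOf_pow_apply_self]
      exact h x hxσ i
    show τ.support.card = T
    rw [← hcyc.orderOf]
    exact Nat.dvd_antisymm (orderOf_dvd_of_pow_eq_one ((hiff T).2 dvd_rfl))
      ((hiff _).1 (pow_orderOf_eq_one τ))
  rcases Nat.eq_zero_or_pos T with rfl | hT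
  · have he : σ.cycleType = 0 := Multiset.eq_zero_of_forall_notMem fun c hc => by
      have := Equiv.Perm.two_le_of_mem_cycleType hc
      rw [hall c hc] at this
      omega
    rw [Equiv.Perm.cycleType_eq_zero] at he
    subst he
    simp
  · rw [Equiv.Perm.sign_of_cycleType, Multiset.eq_replicate_card.2 hall, Multiset.sum_replicate,
      Multiset.card_replicate, ← Equiv.Perm.sum_cycleType σ]
    conv_rhs => rw [Multiset.eq_replicate_card.2 hall, Multiset.sum_replicate]
    rw [smul_eq_mul, Nat.mul_div_cancel _ hT]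

theorem commute_of_aeval {F A : Type*} [CommRing F] [Ring A] [Algebra F A] {a b : A} (h : Commute a b)
    (P : F[X]) : Commute (Polynomial.aeval a P) b :=
  Polynomial.induction_on P (fun c => by rw [aeval_C]; exact Algebra.commute_algebraMap_left c b)
    (fun p r hp hr => by rw [map_add]; exact hp.add_left hr)
    (fun i c hi => by rw [pow_succ, ← mul_assoc, map_mul, aeval_X]; exact hi.mul_left h)

section Fields

variable {F K : Type*} [Field F] [Fintype F] [Field K] [Algebra F K] [Finite K]

/-- In `GF(q^2m)`, the fibres of a linear functional composed with the norm to `GF(q^m)`. -/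
theorem card_norm_fibre [DecidableEq F] {q m : ℕ} (hF : Fintype.card F = q) (hm : 1 ≤ m)
    (hK : finrank F K = 2 * m) (f : K →ₗ[F] F)
    (hf : ∃ a : K, a ^ q ^ m = a ∧ f a ≠ 0) (γ : F) :
    Nat.card {k : K // k ≠ 0 ∧ f (k ^ (q ^ m + 1)) = γ} =
      (q ^ m + 1) * (q ^ (m - 1) - if γ = 0 then 1 else 0) := by
  classical
  have := Fintype.ofFinite K
  have hq : 1 < q := hF ▸ Fintype.one_lt_card
  have hcardK : Fintype.card K = q ^ m * q ^ m := by
    rw [Module.card_eq_pow_finrank (K := F), hK, hF, two_mul, pow_add]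
  set Q := q ^ m with hQ
  have hQ1 : 1 < Q := Nat.one_lt_pow (by omega) hq
  -- the fixed field as an `F`-subspace
  let φ : K →ₐ[F] K := (FiniteField.frobeniusAlgHom F K) ^ m
  have hφ : ∀ x, φ x = x ^ Q := by
    intro x
    simp only [φ, AlgHom.coe_pow, FiniteField.coe_frobeniusAlgHom, pow_iterate, hQ, hF]
  let E : Submodule F K := LinearMap.eqLocus φ.toLinearMap LinearMap.id
  have hE : ∀ x, x ∈ E ↔ x ^ Q = x := fun x => by
    change φ x = x ↔ _
    rw [hφ]
  -- the norm map on units
  let N : Kˣ →* Kˣ := powMonoidHom (Q + 1)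
  have hcu : Nat.card Kˣ = (Q + 1) * (Q - 1) := by
    rw [Nat.card_eq_fintype_card, Fintype.card_units, hcardK, ← Nat.sq_sub_sq, sq, one_pow]
  have hker : Nat.card N.ker = Q + 1 := by
    rw [IsCyclic.card_powMonoidHom_ker, hcu, Nat.gcd_mul_right_left]
  have hrange : Nat.card N.range = Q - 1 := by
    have h := Subgroup.card_eq_card_quotient_mul_card_subgroup N.ker
    rw [hcu, hker, Nat.card_congr (QuotientGroup.quotientKerEquivRange N).toEquiv, mul_comm] at h
    exact Nat.eq_of_mul_eq_mul_right (Nat.succ_pos Q) h.symm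
  have hmem : ∀ x : Kˣ, x ∈ N.range ↔ ((x : K) ^ Q = x) := by
    intro x
    have hle : ∀ x ∈ N.range, x ^ (Q - 1) = 1 := fun x hx => by
      rw [← hrange, ← orderOf_dvd_iff_pow_eq_one]
      exact Subgroup.orderOf_dvd_natCard _ hx
    constructor
    · intro hx
      rw [← Units.val_pow_eq_pow_val, show Q = Q - 1 + 1 by omega, pow_succ, hle x hx, one_mul]
    · intro hx
      have h1 : x ^ (Q - 1) = 1 := by
        refine mul_right_cancel (b := x) ?_
        rw [← pow_succ, one_mul, Nat.sub_add_cancel hQ1.le]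
        exact Units.ext (by rw [Units.val_pow_eq_pow_val, hx])
      have hc := IsCyclic.card_powMonoidHom_ker Kˣ (Q - 1)
      rw [hcu, Nat.gcd_mul_left_left] at hc
      have he : N.range = (powMonoidHom (Q - 1) : Kˣ →* Kˣ).ker :=
        Subgroup.eq_of_le_of_card_ge (fun y hy => hle y hy) (by rw [hc, hrange])
      rw [he]
      exact h1
  -- the fibre
  let g : E →ₗ[F] F := f.comp E.subtype
  have hsurj : Function.Surjective g := by
    obtain ⟨a, haQ, ha⟩ := hf
    intro c
    exact ⟨⟨(c / f a) • a, E.smul_mem _ ((hE a).2 haQ)⟩, by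
      simp [g, div_mul_cancel₀ _ ha]⟩
  have hEcard : Nat.card E = Q := by
    let e : Option N.range → E := fun o => match o with
      | none => 0
      | some x => ⟨((x : Kˣ) : K), (hE _).2 ((hmem _).1 x.2)⟩
    have he : Function.Bijective e := by
      refine ⟨?_, fun ⟨x, hx⟩ => ?_⟩
      · rintro (_ | a) (_ | b) h
        · rfl
        · exact absurd (congrArg Subtype.val h).symm (b : Kˣ).ne_zero
        · exact absurd (congrArg Subtype.val h) (a : Kˣ).ne_zero
        · exact congrArg some (Subtype.ext (Units.ext (congrArg (fun z : E => (z : K)) h)))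
      · by_cases h : x = 0
        · exact ⟨none, Subtype.ext h.symm⟩
        · exact ⟨some ⟨Units.mk0 x h, (hmem _).2 (by simpa using (hE x).1 hx)⟩, Subtype.ext rfl⟩
    rw [← Nat.card_eq_of_bijective e he, Finite.card_option, hrange, Nat.sub_add_cancel hQ1.le]
  have hfib : Nat.card {e : E // g e = γ} = q ^ (m - 1) := by
    have hk : ∀ c, Nat.card {e : E // g e = c} = Nat.card (LinearMap.ker g) := fun c => by
      obtain ⟨e₀, he₀⟩ := hsurj c
      exact Nat.card_congr ((Equiv.subRight e₀).subtypeEquiv fun e => by simp [he₀, sub_eq_zero])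
    have htot : Nat.card E = Fintype.card F * Nat.card (LinearMap.ker g) := by
      rw [Nat.card_congr (Equiv.sigmaFiberEquiv g).symm, Nat.card_sigma, Finset.sum_congr rfl fun c _ => hk c,
        Finset.sum_const, Finset.card_univ, smul_eq_mul]
    rw [hk]
    rw [hEcard, hF, hQ, show q ^ m = q * q ^ (m - 1) by rw [← pow_succ', Nat.sub_add_cancel hm]] at htot
    exact (Nat.eq_of_mul_eq_mul_left (by omega) htot).symm
  let T := {e : E // g e = γ ∧ e ≠ 0}
  have hT : Nat.card T = q ^ (m - 1) - if γ = 0 then 1 else 0 := by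
    rw [← hfib]
    split_ifs with h
    · subst h
      have e : {e : E // g e = 0} ≃ Option T :=
        { toFun := fun x => if hx : x.1 = 0 then none else some ⟨x.1, x.2, hx⟩
          invFun := fun o => match o with
            | none => ⟨0, map_zero g⟩
            | some x => ⟨x.1, x.2.1⟩
          left_inv := fun x => by
            by_cases hx : x.1 = 0
            · simp only [dif_pos hx]
              exact Subtype.ext hx.symm
            · simp only [dif_neg hx]
          right_inv := fun o => by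
            rcases o with _ | x
            · simp
            · simp [x.2.2] }
      rw [Nat.card_congr e, Finite.card_option, Nat.add_sub_cancel]
    · rw [Nat.sub_zero]
      exact Nat.card_congr (Equiv.subtypeEquivRight fun e =>
        ⟨fun h' => h'.1, fun h' => ⟨h', fun h0 => h (by rw [← h', h0, map_zero])⟩⟩)
  let G : {k : K // k ≠ 0 ∧ f (k ^ (Q + 1)) = γ} → T := fun k =>
    ⟨⟨k.1 ^ (Q + 1), (hE _).2 ((hmem (N (Units.mk0 k.1 k.2.1))).1 ⟨_, rfl⟩)⟩, k.2.2, fun h =>
      k.2.1 (eq_zero_of_pow_eq_zero (congrArg Subtype.val h))⟩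
  have hG : ∀ t : T, Nat.card {k // G k = t} = Q + 1 := by
    rintro ⟨⟨x, hxE⟩, hx, hx0⟩
    have hxne : x ≠ 0 := fun h => hx0 (Subtype.ext h)
    obtain ⟨k₀, hk₀⟩ := (hmem (Units.mk0 x hxne)).2 ((hE x).1 hxE)
    have hk0' : (k₀ : K) ^ (Q + 1) = x := congrArg Units.val hk₀
    have hG' : ∀ (y : K) (hy : y ≠ 0 ∧ f (y ^ (Q + 1)) = γ),
        G ⟨y, hy⟩ = ⟨⟨x, hxE⟩, hx, hx0⟩ ↔ y ^ (Q + 1) = x := fun y hy =>
      ⟨fun h => congrArg (fun t : T => ((t.1 : E) : K)) h, fun h => Subtype.ext (Subtype.ext h)⟩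
    refine Eq.trans (Nat.card_congr (β := N.ker)
      { toFun := fun k => ⟨Units.mk0 k.1.1 k.1.2.1 * k₀⁻¹, by
          have hk : N (Units.mk0 k.1.1 k.1.2.1) = N k₀ :=
            Units.ext (((hG' _ _).1 k.2).trans hk0'.symm)
          rw [MonoidHom.mem_ker, map_mul, map_inv, hk, mul_inv_cancel]⟩
        invFun := fun a => ⟨⟨((a.1 * k₀ : Kˣ) : K), Units.ne_zero _, by
            have ha : (a.1 : K) ^ (Q + 1) = 1 := congrArg Units.val a.2
            rw [Units.val_mul, mul_pow, ha, one_mul, hk0']
            exact hx⟩, (hG' _ _).2 (by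
            have ha : (a.1 : K) ^ (Q + 1) = 1 := congrArg Units.val a.2
            rw [Units.val_mul, mul_pow, ha, one_mul, hk0'])⟩
        left_inv := fun k => Subtype.ext (Subtype.ext (by simp))
        right_inv := fun a => Subtype.ext (Units.ext (by simp)) }) hker
  have := Fintype.ofFinite T
  rw [Nat.card_congr (Equiv.sigmaFiberEquiv G).symm, Nat.card_sigma, Finset.sum_congr rfl fun t _ => hG t,
    Finset.sum_const, Finset.card_univ, smul_eq_mul, ← Nat.card_eq_fintype_card, hT, mul_comm]

end Fields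

section Main

variable {F V : Type*} [Field F] [Fintype F] [AddCommGroup V] [Module F V] [FiniteDimensional F V]
  [Finite V] {Q : QuadraticForm F V}

/-- A primitive prime divisor of `q^(2m) - 1`. -/
theorem exists_primitive_prime_even {q m : ℕ} (hq : 3 ≤ q) (hm : 2 ≤ m) :
    ∃ r : ℕ, r.Prime ∧ r ∣ q ^ m + 1 ∧ ∀ i, 1 ≤ i → i < 2 * m → ¬ r ∣ q ^ i - 1 := by
  have key : ∀ r : ℕ, r.Prime → r ∣ q ^ (2 * m) - 1 → (∀ i, 1 ≤ i → i < 2 * m → ¬ r ∣ q ^ i - 1) →
      r.Prime ∧ r ∣ q ^ m + 1 ∧ ∀ i, 1 ≤ i → i < 2 * m → ¬ r ∣ q ^ i - 1 := by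
    intro r hr hd hprim
    refine ⟨hr, ?_, hprim⟩
    have he : q ^ (2 * m) - 1 = (q ^ m + 1) * (q ^ m - 1) := by
      rw [← Nat.sq_sub_sq, one_pow, ← pow_mul, mul_comm m 2]
    rw [he] at hd
    exact ((Nat.Prime.dvd_mul hr).1 hd).resolve_right (hprim m (by omega) (by omega))
  by_cases hx : (q, 2 * m) ∈ FGS4.Zsigmondy.exceptions
  · have hcases : (q = 3 ∧ m = 2) ∨ (q = 3 ∧ m = 3) ∨ (q = 5 ∧ m = 3) ∨ (q = 4 ∧ m = 3) := by
      simp [FGS4.Zsigmondy.exceptions] at hx
      omega
    rcases hcases with ⟨rfl, rfl⟩ | ⟨rfl, rfl⟩ | ⟨rfl, rfl⟩ | ⟨rfl, rfl⟩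
    · exact ⟨5, key 5 (by norm_num) (by decide) (by decide)⟩
    · exact ⟨7, key 7 (by norm_num) (by decide) (by decide)⟩
    · exact ⟨7, key 7 (by norm_num) (by decide) (by decide)⟩
    · exact ⟨13, key 13 (by norm_num) (by decide) (by decide)⟩
  obtain ⟨k, hk, hcop, hk1⟩ := FGS4.Zsigmondy.exists_primitive_part (by omega) (by omega) hx
  obtain ⟨r, hr, hrk⟩ := Nat.exists_prime_and_dvd (show k ≠ 1 by omega)
  exact ⟨r, key r hr (hrk.trans hk) fun i hi hi' h => hr.not_dvd_one (by
    rw [← (hcop i hi hi').gcd_eq_one]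
    exact Nat.dvd_gcd hrk h)⟩

set_option maxHeartbeats 1600000 in
theorem no_torus_commute {q p n : ℕ} [Fact p.Prime] [CharP F p] (hF : Fintype.card F = q)
    (h2 : (2 : F) ≠ 0) (hQ : (QuadraticMap.polarBilin Q).Nondegenerate) (hn : 3 ≤ n)
    (hV : finrank F V = 2 * n + 1) (g : orthGroup Q) (hdet : orthDet Q g = 1)
    (hsp : spinor Q h2 g = 1) (hord : orderOf g = p * (q ^ (n - 1) + 1)) : False := by
  classical
  have hp : p.Prime := Fact.out
  obtain ⟨m, rfl⟩ : ∃ m, n = m + 1 := ⟨n - 1, by omega⟩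
  rw [Nat.add_sub_cancel] at hord
  set T := q ^ m + 1 with hT
  have hqodd : q % 2 = 1 := by
    have h := card_field_parity (F := F)
    rw [hF] at h
    rcases Nat.mod_two_eq_zero_or_one q with h' | h'
    · exact absurd (h.2 h') h2
    · exact h'
  have hq3 : 3 ≤ q := by
    have := hF ▸ Fintype.one_lt_card (α := F)
    omega
  have hpq : p ∣ q := by
    obtain ⟨k, hk, hk'⟩ := FiniteField.card F p
    rw [← hF, hk']
    exact dvd_pow_self p k.ne_zero
  have hTp : ¬ p ∣ T := fun h =>
    hp.not_dvd_one ((Nat.dvd_add_right (hpq.trans (dvd_pow_self q (by omega)))).1 h)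
  haveI : CharP (Module.End F V) p :=
    haveI : Nontrivial V := Module.nontrivial_of_finrank_pos (R := F) (by omega)
    charP_of_injective_algebraMap (algebraMap F (Module.End F V)).injective p
  set u : orthGroup Q := g ^ T with hu
  set s : orthGroup Q := g ^ p with hs
  let M : orthGroup Q →* Module.End F V :=
    { toFun := fun x => ((x : V ≃ₗ[F] V) : Module.End F V)
      map_one' := rfl
      map_mul' := fun a b => rfl }
  have hMinj : Function.Injective M := fun a b h =>
    Subtype.ext (LinearEquiv.ext fun v => LinearMap.congr_fun h v)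
  have hbil : ∀ (x : orthGroup Q) v w, QuadraticMap.polar Q (M x v) (M x w) = QuadraticMap.polar Q v w :=
    fun x v w => x.2.1 v w
  have hQinv : ∀ (x : orthGroup Q) v, Q (M x v) = Q v := fun x v => x.2.2 v
  have hu1 : u ≠ 1 := by
    intro h
    have h1 := Nat.le_of_dvd (by omega) (orderOf_dvd_of_pow_eq_one h)
    rw [hord] at h1
    exact absurd h1 (not_le.2 (lt_mul_of_one_lt_left (by omega) hp.one_lt))
  have hup : M u ^ p = 1 := by
    rw [← map_pow, ← pow_mul, mul_comm, ← hord, pow_orderOf_eq_one, map_one]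
  have hsT : M s ^ T = 1 := by
    rw [← map_pow, ← pow_mul, ← hord, pow_orderOf_eq_one, map_one]
  have hsord : ∀ i, s ^ i = 1 ↔ T ∣ i := fun i => by
    rw [hs, ← pow_mul, ← orderOf_dvd_iff_pow_eq_one, hord]
    exact Nat.mul_dvd_mul_iff_left hp.pos
  have hsdet : orthDet Q s = 1 := by rw [hs, map_pow, hdet, one_pow]
  have hssp : spinor Q h2 s = 1 := by rw [hs, map_pow, hsp, one_pow]
  have hTF : (T : F) ≠ 0 := by rwa [Ne, CharP.cast_eq_zero_iff F p]
  -- an element of primitive prime order
  obtain ⟨r, hr, hrT, hrprim⟩ := exists_primitive_prime_even (q := q) (m := m) hq3 (by omega)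
  haveI := Fact.mk hr
  set t : orthGroup Q := s ^ (T / r) with ht
  have ht1 : t ≠ 1 := fun h => by
    have h1 := Nat.le_of_dvd (Nat.div_pos (Nat.le_of_dvd (by omega) hrT) hr.pos) ((hsord _).1 h)
    exact absurd h1 (not_le.2 (Nat.div_lt_self (by omega) hr.one_lt))
  have htr : M t ^ r = 1 := by
    rw [← map_pow, ht, ← pow_mul, Nat.div_mul_cancel hrT, (hsord T).2 dvd_rfl, map_one]
  have hmu : minpoly F (M t) ∣ X ^ r - 1 := minpoly.dvd F _ (by simp [htr])
  have hsepr : (X ^ r - 1 : F[X]).Separable := by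
    have := Polynomial.separable_X_pow_sub_C (1 : F) (n := r) (fun h => hTF (by
      obtain ⟨c, hc⟩ : r ∣ T := hrT
      rw [hc, Nat.cast_mul, h, zero_mul])) one_ne_zero
    simpa using this
  -- its irreducible factor
  obtain ⟨f, hfirr, hfmon, hfd, hf1⟩ : ∃ f : F[X], Irreducible f ∧ f.Monic ∧ f ∣ minpoly F (M t) ∧
      ¬ f ∣ X - 1 := by
    set R := minpoly F (M t) with hR
    have hne : ¬ R ∣ X - 1 := fun h => ht1 (hMinj (by
      obtain ⟨c, hc⟩ := h
      have := congrArg (Polynomial.aeval (M t)) hc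
      simp [hR, minpoly.aeval] at this
      rw [map_one]
      exact sub_eq_zero.1 this))
    have hR0 : R.Monic := minpoly.monic (Algebra.IsIntegral.isIntegral _)
    by_contra hcon
    push Not at hcon
    obtain ⟨a, ha⟩ : ∃ a, R = (X - 1) * a ∨ (R = a ∧ ¬ (X - 1 : F[X]) ∣ R) := by
      by_cases h : (X - 1 : F[X]) ∣ R
      · obtain ⟨a, ha⟩ := h; exact ⟨a, Or.inl ha⟩
      · exact ⟨R, Or.inr ⟨rfl, h⟩⟩
    have hau : IsUnit a := by
      by_contra hau
      obtain ⟨f, hfm, hfi, hfa⟩ := Polynomial.exists_monic_irreducible_factor a hau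
      have hfR : f ∣ R := by
        rcases ha with h | ⟨h, -⟩
        · rw [h]; exact hfa.mul_left _
        · rwa [h]
      have hfX := hcon f hfi hfm hfR
      have hXi : Irreducible (X - 1 : F[X]) := by simpa using Polynomial.irreducible_X_sub_C (1 : F)
      have heq := hfi.associated_of_dvd hXi hfX
      rcases ha with h | ⟨h, hnd⟩
      · have hsq : (X - 1) * (X - 1) ∣ (X ^ r - 1 : F[X]) := by
          refine dvd_trans ?_ hmu
          rw [h]
          exact mul_dvd_mul_left _ (heq.dvd'.trans hfa)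
        exact hXi.not_isUnit (hsepr.squarefree _ hsq)
      · exact hnd (h ▸ heq.dvd'.trans hfa)
    refine hne ?_
    rcases ha with h | ⟨h, -⟩
    · rw [h]; exact hau.mul_right_dvd.2 dvd_rfl
    · rw [h]; exact hau.dvd
  haveI : Fact (Irreducible f) := ⟨hfirr⟩
  set K := AdjoinRoot f
  set pb := AdjoinRoot.powerBasis hfirr.ne_zero
  haveI : Module.Finite F K := pb.finite
  haveI : Finite K := Module.finite_of_finite F
  have hdim : finrank F K = f.natDegree := by rw [pb.finrank, AdjoinRoot.powerBasis_dim]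
  set lam : K := AdjoinRoot.root f
  have hlam : lam ^ r = 1 := by
    obtain ⟨c, hc⟩ := hfd.trans hmu
    have := congrArg (Polynomial.aeval lam) hc
    rw [map_mul, show Polynomial.aeval lam f = 0 from (AdjoinRoot.aeval_eq f).trans AdjoinRoot.mk_self,
      zero_mul, map_sub, map_pow, aeval_X, map_one, sub_eq_zero] at this
    exact this
  have hlam1 : lam ≠ 1 := fun h => hf1 (by
    rw [← AdjoinRoot.mk_eq_zero, map_sub, map_one, AdjoinRoot.mk_X]
    exact sub_eq_zero.2 h)
  have hordlam : orderOf lam = r := orderOf_eq_prime hlam hlam1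
  -- the kernel
  set W : Submodule F V := LinearMap.ker (Polynomial.aeval (M t) f)
  have hWne : W ≠ ⊥ := by
    intro hW
    obtain ⟨h, hh⟩ := hfd
    have h0 := minpoly.aeval F (M t)
    rw [hh, map_mul] at h0
    have hh0 : Polynomial.aeval (M t) h = 0 := LinearMap.ext fun v => by
      have := LinearMap.congr_fun h0 v
      rw [Module.End.mul_apply, LinearMap.zero_apply] at this
      exact LinearMap.ker_eq_bot.1 hW (this.trans (map_zero _).symm)
    have hmn := minpoly.monic (Algebra.IsIntegral.isIntegral (R := F) (M t))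
    have h1 := Polynomial.natDegree_le_of_dvd (minpoly.dvd F _ hh0)
      (fun h0 => hmn.ne_zero (by rw [hh, h0, mul_zero]))
    rw [hh, Polynomial.natDegree_mul hfirr.ne_zero (fun h0 => hmn.ne_zero (by rw [hh, h0, mul_zero]))] at h1
    have := hfirr.natDegree_pos
    omega
  -- polynomials in `t` acting on the kernel
  have hKW : ∀ a b : F[X], AdjoinRoot.mk f a = AdjoinRoot.mk f b → ∀ w ∈ W,
      Polynomial.aeval (M t) a w = Polynomial.aeval (M t) b w := by
    intro a b hab w hw
    obtain ⟨c, hc⟩ := AdjoinRoot.mk_eq_mk.1 hab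
    have := congrArg (fun P => Polynomial.aeval (M t) P w) hc
    simp only [map_sub, map_mul, LinearMap.sub_apply] at this
    rw [(Commute.map (Commute.all f c) (Polynomial.aeval (M t))).eq, Module.End.mul_apply,
      LinearMap.mem_ker.1 hw, map_zero, sub_eq_zero] at this
    exact this
  choose rep hrep using AdjoinRoot.mk_surjective (g := f)
  let act : K → V → V := fun k w => Polynomial.aeval (M t) (rep k) w
  have hact : ∀ a w, w ∈ W → act (AdjoinRoot.mk f a) w = Polynomial.aeval (M t) a w := fun a w hw =>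
    hKW _ _ (hrep _) w hw
  have hactW : ∀ k w, w ∈ W → act k w ∈ W := fun k w hw => by
    rw [LinearMap.mem_ker, ← Module.End.mul_apply,
      (Commute.map (Commute.all f (rep k)) (Polynomial.aeval (M t))).eq, Module.End.mul_apply,
      LinearMap.mem_ker.1 hw, map_zero]
  have act_mul : ∀ a b w, w ∈ W → act (a * b) w = act a (act b w) := fun a b w hw => by
    rw [← hrep a, ← hrep b, ← map_mul, hact _ w hw, map_mul, Module.End.mul_apply, hact _ _ hw,
      hact _ _ (by rw [← hact _ w hw]; exact hactW _ _ hw)]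
  have act_add : ∀ a b w, w ∈ W → act (a + b) w = act a w + act b w := fun a b w hw => by
    rw [← hrep a, ← hrep b, ← map_add, hact _ w hw, map_add, LinearMap.add_apply, hact _ _ hw, hact _ _ hw]
  have act_smul : ∀ (c : F) a w, w ∈ W → act (c • a) w = c • act a w := fun c a w hw => by
    rw [← hrep a, AdjoinRoot.smul_mk, hact _ w hw, map_smul, LinearMap.smul_apply, hact _ _ hw]
  have act_one : ∀ w ∈ W, act 1 w = w := fun w hw => by
    rw [← map_one (AdjoinRoot.mk f), hact _ w hw, map_one, Module.End.one_apply]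
  have act_lam : ∀ w ∈ W, act lam w = M t w := fun w hw => by
    show act (AdjoinRoot.mk f X) w = _
    rw [hact _ w hw, aeval_X]
  have act_inj : ∀ a w, w ∈ W → w ≠ 0 → act a w = 0 → a = 0 := fun a w hw hw0 h => by
    by_contra ha
    have := act_one w hw
    rw [← inv_mul_cancel₀ ha, act_mul _ _ w hw, h] at this
    exact hw0 (this.symm.trans (map_zero _))
  obtain ⟨w₀, hw₀, hw₀0⟩ := (Submodule.ne_bot_iff _).1 hWne
  let L : K →ₗ[F] W :=
    { toFun := fun k => ⟨act k w₀, hactW k w₀ hw₀⟩
      map_add' := fun a b => Subtype.ext (act_add a b w₀ hw₀)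
      map_smul' := fun c a => Subtype.ext (act_smul c a w₀ hw₀) }
  have hLinj : Function.Injective L := (injective_iff_map_eq_zero L).2 fun a ha =>
    act_inj a w₀ hw₀ hw₀0 (congrArg Subtype.val ha)
  -- the degree
  have hKd : finrank F K ≤ 2 * (m + 1) + 1 :=
    hV ▸ (LinearMap.finrank_le_finrank_of_injective hLinj).trans (Submodule.finrank_le W)
  have he : f.natDegree = 2 * m := by
    have := Fintype.ofFinite K
    have hrd : r ∣ q ^ f.natDegree - 1 := by
      have h0 : lam ≠ 0 := fun h => by rw [h, zero_pow hr.ne_zero] at hlam; exact zero_ne_one hlam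
      have h1 := FiniteField.pow_card_sub_one_eq_one lam h0
      rw [Module.card_eq_pow_finrank (K := F), hdim, hF] at h1
      exact hordlam ▸ orderOf_dvd_of_pow_eq_one h1
    have hge : 2 * m ≤ f.natDegree := by
      by_contra h
      exact hrprim _ hfirr.natDegree_pos (by omega) hrd
    have h2m : r ∣ q ^ (2 * m) - 1 := by
      rw [show q ^ (2 * m) - 1 = T * (q ^ m - 1) by
        rw [hT, ← Nat.sq_sub_sq, one_pow, ← pow_mul, mul_comm m 2]]
      exact hrT.mul_right _
    have hg : r ∣ q ^ Nat.gcd f.natDegree (2 * m) - 1 := by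
      rw [← Nat.pow_sub_one_gcd_pow_sub_one]
      exact Nat.dvd_gcd hrd h2m
    rw [hdim] at hKd
    rcases Nat.lt_or_ge (Nat.gcd f.natDegree (2 * m)) (2 * m) with hlt | hge'
    · exact absurd hg (hrprim _ (Nat.gcd_pos_of_pos_right _ (by omega)) hlt)
    · have heq := le_antisymm (Nat.le_of_dvd (by omega) (Nat.gcd_dvd_right _ _)) hge'
      obtain ⟨c, hc⟩ : 2 * m ∣ f.natDegree := heq ▸ Nat.gcd_dvd_left _ _
      rcases c with _ | _ | c
      · omega
      · omega
      · have : 4 * m ≤ f.natDegree := by rw [hc]; nlinarith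
        omega
  have hLsurj : Function.Surjective L := by
    by_contra hns
    rw [Function.Surjective] at hns
    push Not at hns
    obtain ⟨w₁, hw₁⟩ := hns
    let L₂ : K × K →ₗ[F] W :=
      { toFun := fun ab => L ab.1 + ⟨act ab.2 w₁, hactW _ _ w₁.2⟩
        map_add' := fun a b => Subtype.ext (by
          show act (a.1 + b.1) w₀ + act (a.2 + b.2) w₁ = _
          rw [act_add _ _ _ hw₀, act_add _ _ _ w₁.2]
          show _ = (act a.1 w₀ + act a.2 w₁) + (act b.1 w₀ + act b.2 w₁)
          abel)
        map_smul' := fun c a => Subtype.ext (by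
          show act (c • a.1) w₀ + act (c • a.2) w₁ = c • (act a.1 w₀ + act a.2 w₁)
          rw [act_smul _ _ _ hw₀, act_smul _ _ _ w₁.2, smul_add]) }
    have hL₂ : Function.Injective L₂ := (injective_iff_map_eq_zero L₂).2 fun ⟨a, b⟩ hab => by
      have hab' : act a w₀ + act b w₁ = 0 := congrArg Subtype.val hab
      by_cases hb : b = 0
      · subst hb
        have h0 : act 0 (w₁ : V) = 0 := by
          rw [show (0 : K) = (0 : F) • (0 : K) by rw [zero_smul], act_smul _ _ _ w₁.2, zero_smul]
        rw [h0, add_zero] at hab'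
        rw [act_inj a w₀ hw₀ hw₀0 hab']
        rfl
      · refine absurd (Subtype.ext ?_) (hw₁ (-(b⁻¹ * a)))
        show act (-(b⁻¹ * a)) w₀ = (w₁ : V)
        rw [show -(b⁻¹ * a) = (-1 : F) • (b⁻¹ * a) by rw [neg_one_smul], act_smul _ _ _ hw₀, act_mul _ _ _ hw₀,
          neg_one_smul, eq_neg_of_add_eq_zero_left hab']
        rw [show -(act b⁻¹ (-(act b (w₁ : V)))) = act b⁻¹ (act b w₁) by simp [act],
          ← act_mul _ _ _ w₁.2, inv_mul_cancel₀ hb, act_one _ w₁.2]
    have := (LinearMap.finrank_le_finrank_of_injective hL₂).trans (Submodule.finrank_le W)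
    rw [Module.finrank_prod, hdim, he, hV] at this
    omega
  have hWdim : finrank F W = 2 * m := by
    rw [← (LinearEquiv.ofBijective L ⟨hLinj, hLsurj⟩).finrank_eq, hdim, he]
  -- commuting elements act by scalars of the field
  have hMs : Commute (M t) (M s) := (Commute.pow_self s (T / r)).map M
  have hMu : Commute (M t) (M u) := ((Commute.pow_pow (Commute.refl g) p T).pow_left (T / r)).map M
  have hcent : ∀ x : orthGroup Q, Commute (M t) (M x) →
      (∀ w ∈ W, M x w ∈ W) ∧ ∃ a : K, ∀ w ∈ W, M x w = act a w := by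
    intro x hx
    have hc : ∀ P : F[X], Commute (Polynomial.aeval (M t) P) (M x) := fun P =>
      (commute_of_aeval hx P)
    have hmemW : ∀ w ∈ W, M x w ∈ W := fun w hw => by
      rw [LinearMap.mem_ker, ← Module.End.mul_apply, (hc f).eq, Module.End.mul_apply,
        LinearMap.mem_ker.1 hw, map_zero]
    obtain ⟨a, ha⟩ := hLsurj ⟨M x w₀, hmemW _ hw₀⟩
    refine ⟨hmemW, a, fun w hw => ?_⟩
    obtain ⟨b, hb⟩ := hLsurj ⟨w, hw⟩
    have hb' : act b w₀ = w := congrArg Subtype.val hb
    have ha' : act a w₀ = M x w₀ := congrArg Subtype.val ha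
    rw [← hb', ← act_mul _ _ _ hw₀, mul_comm, act_mul _ _ _ hw₀, ha']
    show M x (Polynomial.aeval (M t) (rep b) w₀) = Polynomial.aeval (M t) (rep b) (M x w₀)
    rw [← Module.End.mul_apply, ← (hc (rep b)).eq, Module.End.mul_apply]
  obtain ⟨hsW, mu, hmu'⟩ := hcent s hMs
  obtain ⟨huW, nu, hnu⟩ := hcent u hMu
  obtain ⟨htW, -⟩ := hcent t (Commute.refl _)
  haveI : CharP K p := charP_of_injective_algebraMap (algebraMap F K).injective p
  have hpowact : ∀ (x : orthGroup Q) (a : K), (∀ w ∈ W, M x w = act a w) →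
      ∀ (i : ℕ) w, w ∈ W → (M x ^ i) w = act (a ^ i) w := by
    intro x a hx i
    induction i with
    | zero => intro w hw; rw [pow_zero, pow_zero, Module.End.one_apply, act_one w hw]
    | succ i ih =>
      intro w hw
      rw [pow_succ, Module.End.mul_apply, hx w hw, ih _ (hactW _ _ hw), ← act_mul _ _ _ hw, ← pow_succ]
  have hact1 : ∀ a, (∀ w ∈ W, act a w = w) → a = 1 := fun a ha => hLinj (Subtype.ext (by
    show act a w₀ = act 1 w₀
    rw [ha _ hw₀, act_one _ hw₀]))
  have hnu1 : nu = 1 := by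
    refine frobenius_inj K p ?_
    rw [frobenius_def, frobenius_def, one_pow]
    exact hact1 _ fun w hw => by rw [← hpowact u nu hnu p w hw, hup, Module.End.one_apply]
  have hmuT : mu ^ T = 1 :=
    hact1 _ fun w hw => by rw [← hpowact s mu hmu' T w hw, hsT, Module.End.one_apply]
  -- the adjoint
  set B := QuadraticMap.polarBilin Q with hB
  have hBsymm : ∀ v w, B v w = B w v := fun v w => QuadraticMap.polar_comm Q v w
  have hadj : ∀ (a : K) v w, v ∈ W → w ∈ W → B (act a v) w = B v (act (a ^ q ^ m) w) := by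
    intro a v w hv hw
    have hlamQ : lam ^ q ^ m = lam⁻¹ := by
      refine eq_inv_of_mul_eq_one_left ?_
      rw [← pow_succ]
      obtain ⟨c, hc⟩ : r ∣ T := hrT
      rw [show q ^ m + 1 = r * c from hc, pow_mul, hlam, one_pow]
    have hlam0 : lam ≠ 0 := fun h => by rw [h, zero_pow hr.ne_zero] at hlam; exact zero_ne_one hlam
    have base : ∀ v w, v ∈ W → w ∈ W → B (M t v) w = B v (act (lam ^ q ^ m) w) := by
      intro v w hv hw
      rw [hlamQ]
      conv_lhs => rw [← act_one w hw, ← mul_inv_cancel₀ hlam0, act_mul _ _ _ hw,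
        act_lam _ (hactW _ _ hw)]
      exact hbil t v _
    obtain ⟨P, rfl⟩ := AdjoinRoot.mk_surjective a
    have hfrob : ∀ c : F, c ^ q ^ m = c := fun c => hF ▸ FiniteField.pow_card_pow m c
    have hqk : ∃ k, q ^ m = p ^ k := by
      obtain ⟨k, hk, hk'⟩ := FiniteField.card F p
      exact ⟨k * m, by rw [← hF, hk', ← pow_mul]⟩
    obtain ⟨k, hk⟩ := hqk
    induction P using Polynomial.induction_on generalizing v w with
    | C c =>
      rw [← map_pow, ← map_pow C, hfrob, hact _ _ hv, hact _ _ hw, aeval_C, Module.algebraMap_end_apply,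
        Module.algebraMap_end_apply, map_smul, LinearMap.smul_apply, map_smul]
    | add P R hP hR =>
      rw [map_add, hk, add_pow_char_pow _ _ p k, ← hk, act_add _ _ _ hv, act_add _ _ _ hw, map_add,
        LinearMap.add_apply, map_add, hP _ _ hv hw, hR _ _ hv hw]
    | monomial i c hP =>
      rw [pow_succ, ← mul_assoc, map_mul, AdjoinRoot.mk_X, mul_pow, act_mul _ _ _ hv,
        hP _ _ (hactW _ _ hv) hw, act_lam _ hv, base _ _ hv (hactW _ _ hw), ← act_mul _ _ _ hw]
      exact congrArg (fun z => B v (act z w)) (mul_comm _ _)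
  -- the complement
  set W' : Submodule F V := LinearMap.BilinForm.orthogonal B W
  have hmemW' : ∀ x, x ∈ W' ↔ ∀ w ∈ W, B w x = 0 := fun x => Iff.rfl
  have hrefl : B.IsRefl := fun v w h => by rw [hBsymm]; exact h
  have hW'dim : finrank F W' = 3 := by
    have := LinearMap.BilinForm.finrank_orthogonal hQ W
    rw [this, hV, hWdim]
    omega
  have hdisj : ∀ x ∈ W, x ∈ W' → x = 0 := by
    intro x hx hx'
    by_contra hx0
    have hall : W ≤ W' := by
      intro y hy w hw
      obtain ⟨a, ha⟩ : ∃ a, act a x = y := by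
        obtain ⟨a, ha⟩ := hLsurj ⟨x, hx⟩
        obtain ⟨b, hb⟩ := hLsurj ⟨y, hy⟩
        have ha' : act a w₀ = x := congrArg Subtype.val ha
        have hb' : act b w₀ = y := congrArg Subtype.val hb
        have ha0 : a ≠ 0 := fun h => hx0 (by
          rw [← ha', h, show (0 : K) = (0 : F) • (0 : K) by rw [zero_smul], act_smul _ _ _ hw₀, zero_smul])
        refine ⟨b * a⁻¹, ?_⟩
        rw [← ha', ← act_mul _ _ _ hw₀, mul_assoc, inv_mul_cancel₀ ha0, mul_one, hb']
      show B w y = 0
      rw [hBsymm, ← ha, hadj _ _ _ hx hw, hBsymm]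
      exact hx' _ (hactW _ _ hw)
    have := Submodule.finrank_mono hall
    omega
  have hinf : W ⊓ W' = ⊥ := (Submodule.eq_bot_iff _).2 fun x hx => hdisj x hx.1 hx.2
  have hcompl : IsCompl W W' :=
    (Submodule.isCompl_iff_disjoint W W' (by rw [hWdim, hW'dim, hV]; omega)).2 (disjoint_iff.2 hinf)
  have hinvW' : ∀ x : orthGroup Q, (∀ w ∈ W, M x w ∈ W) → ∀ v ∈ W', M x v ∈ W' := by
    intro x hx v hv w hw
    let R : W →ₗ[F] W := (M x).restrict hx
    have hR : Function.Injective R := fun a b h => Subtype.ext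
      ((x : V ≃ₗ[F] V).injective (congrArg Subtype.val h))
    obtain ⟨w', hw'⟩ := LinearMap.injective_iff_surjective.1 hR ⟨w, hw⟩
    have hw'' : M x w' = w := congrArg Subtype.val hw'
    show B w (M x v) = 0
    rw [← hw'']
    exact (hbil x _ _).trans (hv _ w'.2)
  have hdec : ∀ v, ∃ w ∈ W, ∃ w' ∈ W', v = w + w' := fun v => by
    obtain ⟨w, hw, w', hw', h⟩ := Submodule.mem_sup.1
      ((hcompl.sup_eq_top).symm ▸ Submodule.mem_top : v ∈ W ⊔ W')
    exact ⟨w, hw, w', hw', h.symm⟩
  -- the action on the complement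
  let N : Module.End F W' := (M u - 1).restrict (fun v hv => W'.sub_mem (hinvW' u huW v hv) hv)
  let S : Module.End F W' := (M s).restrict (hinvW' s hsW)
  have hNv : ∀ v : W', (N v : V) = M u v - v := fun v => rfl
  have hSv : ∀ v : W', (S v : V) = M s v := fun v => rfl
  have hN0 : N ≠ 0 := by
    intro h
    refine hu1 (hMinj (LinearMap.ext fun v => ?_))
    obtain ⟨w, hw, w', hw', rfl⟩ := hdec v
    rw [map_one, Module.End.one_apply, map_add, hnu w hw, hnu1, act_one w hw]
    have := congrArg (fun f : Module.End F W' => (f ⟨w', hw'⟩ : V)) h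
    simp only [hNv, LinearMap.zero_apply, ZeroMemClass.coe_zero] at this
    rw [sub_eq_zero.1 this]
  have hSN : Commute S N := by
    refine LinearMap.ext fun v => Subtype.ext ?_
    have hc : M s * M u = M u * M s := by
      rw [← map_mul, ← map_mul, (Commute.pow_pow (Commute.refl g) p T).eq]
    show M s ((N v : V)) = M u (S v : V) - (S v : V)
    rw [hNv, hSv, map_sub, ← Module.End.mul_apply, hc, Module.End.mul_apply]
  have hNp : N ^ p = 0 := by
    have hp' : (M u - 1) ^ p = 0 := by
      rw [sub_pow_char_of_commute p (Commute.one_right _), hup, one_pow, sub_self]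
    have key : ∀ (i : ℕ) (v : W'), ((N ^ i) v : V) = ((M u - 1) ^ i) v := by
      intro i
      induction i with
      | zero => intro v; rfl
      | succ i ih => intro v; rw [pow_succ, pow_succ, Module.End.mul_apply, Module.End.mul_apply, ih]; rfl
    exact LinearMap.ext fun v => Subtype.ext (by rw [key, hp']; rfl)
  let B' : W' → W' → F := fun v w => B (v : V) (w : V)
  have hskew : ∀ v w, B' (N v) w + B' v (N w) + B' (N v) (N w) = 0 := by
    intro v w
    have := hbil u (v : V) (w : V)
    change B (M u v) (M u w) = B (v : V) w at this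
    show B (N v : V) (w : V) + B (v : V) (N w : V) + B (N v : V) (N w : V) = 0
    rw [hNv, hNv]
    simp only [map_sub, LinearMap.sub_apply, this]
    ring
  have hB'nd : ∀ v, (∀ w, B' v w = 0) → v = 0 := by
    intro v hv
    refine Subtype.ext (hQ.1 _ fun x => ?_)
    obtain ⟨w, hw, w', hw', rfl⟩ := hdec x
    rw [map_add, hBsymm, v.2 w hw, zero_add]
    exact hv ⟨w', hw'⟩
  have hN2 : N * N ≠ 0 := by
    intro h
    have hzero : ∀ v w, B' (N v) (N w) = 0 := fun v w => by
      have h1 := hskew (N v) w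
      have hNN : N (N v) = 0 := LinearMap.congr_fun h v
      rw [hNN] at h1
      simpa [B'] using h1
    have hantisym : ∀ v, B' (N v) v = 0 := fun v => by
      have h1 := hskew v v
      rw [hzero, add_zero, show B' v (N v) = B' (N v) v from hBsymm _ _, ← two_mul] at h1
      exact (mul_eq_zero.1 h1).resolve_left h2
    have hrank : finrank F (LinearMap.range N) ≤ 1 := by
      have hle : LinearMap.range N ≤ LinearMap.ker N := by
        rintro _ ⟨v, rfl⟩
        exact LinearMap.congr_fun h v
      have h1 := Submodule.finrank_mono hle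
      have h2' := LinearMap.finrank_range_add_finrank_ker N
      omega
    obtain ⟨v₁, hv₁⟩ : ∃ v, N v ≠ 0 := by
      by_contra hc
      push Not at hc
      exact hN0 (LinearMap.ext hc)
    have hspan : ∀ v, ∃ c : F, N v = c • N v₁ := fun v => by
      have hr1 : finrank F (LinearMap.range N) = 1 := le_antisymm hrank (Nat.one_le_iff_ne_zero.2 fun h0 =>
        hv₁ (by
          have := Submodule.finrank_eq_zero.1 h0
          exact (Submodule.eq_bot_iff _).1 this _ ⟨v₁, rfl⟩))
      obtain ⟨c, hc⟩ := (finrank_eq_one_iff_of_nonzero' (⟨N v₁, ⟨v₁, rfl⟩⟩ : LinearMap.range N)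
        (fun h => hv₁ (congrArg Subtype.val h))).1 hr1 ⟨N v, ⟨v, rfl⟩⟩
      exact ⟨c, (congrArg Subtype.val hc).symm⟩
    refine hv₁ (hB'nd _ fun v => ?_)
    obtain ⟨c, hc⟩ := hspan v
    by_cases hc0 : c = 0
    · have h1 := hskew v₁ v
      rw [hc, hc0, zero_smul] at h1
      simpa [B'] using h1
    · have h1 := hantisym v
      rw [hc] at h1
      simpa [B', hc0] using h1
  have hN3 : N * N * N = 0 := by
    have hd : minpoly F N ∣ X ^ p := minpoly.dvd F _ (by simp [hNp])
    obtain ⟨i, -, hi⟩ := (dvd_prime_pow Polynomial.prime_X _).1 hd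
    have he' : minpoly F N = X ^ i := Polynomial.eq_of_monic_of_associated
      (minpoly.monic (Algebra.IsIntegral.isIntegral _)) (monic_X_pow i) hi
    have hi3 : i ≤ 3 := by
      have h1 := Polynomial.natDegree_le_of_dvd (LinearMap.minpoly_dvd_charpoly N)
        N.charpoly_monic.ne_zero
      rwa [he', Polynomial.natDegree_X_pow, LinearMap.charpoly_natDegree, hW'dim] at h1
    have := minpoly.aeval F N
    rw [he', map_pow, aeval_X] at this
    rw [← pow_eq_zero_of_le hi3 this]
    simp [pow_succ]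
  obtain ⟨v₀, hv₀⟩ : ∃ v, N (N v) ≠ 0 := by
    by_contra hc
    push Not at hc
    exact hN2 (LinearMap.ext hc)
  have hN3' : ∀ v, N (N (N v)) = 0 := fun v => LinearMap.congr_fun hN3 v
  have hli : LinearIndependent F ![v₀, N v₀, N (N v₀)] := by
    rw [Fintype.linearIndependent_iff]
    intro c hc
    rw [Fin.sum_univ_three] at hc
    simp at hc
    have hc0 : c 0 = 0 := by
      have := congrArg (fun x => N (N x)) hc
      simp [map_add, map_smul, hN3'] at this
      exact this.resolve_right hv₀
    rw [hc0, zero_smul, zero_add] at hc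
    have hc1 : c 1 = 0 := by
      have := congrArg (fun x => N x) hc
      simp [map_add, map_smul, hN3'] at this
      exact this.resolve_right hv₀
    rw [hc1, zero_smul, zero_add] at hc
    intro i
    fin_cases i
    exacts [hc0, hc1, (smul_eq_zero.1 hc).resolve_right hv₀]
  let b := basisOfLinearIndependentOfCardEqFinrank hli (by simp [hW'dim])
  obtain ⟨a, c₁, c₂, hSa⟩ : ∃ a c₁ c₂ : F, S = a • 1 + c₁ • N + c₂ • (N * N) := by
    obtain ⟨x₀, x₁, x₂, hS0⟩ : ∃ x₀ x₁ x₂ : F, S v₀ = x₀ • v₀ + x₁ • N v₀ + x₂ • N (N v₀) := by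
      refine ⟨b.repr (S v₀) 0, b.repr (S v₀) 1, b.repr (S v₀) 2, ?_⟩
      conv_lhs => rw [← b.sum_repr (S v₀), Fin.sum_univ_three]
      simp [b]
    refine ⟨x₀, x₁, x₂, ?_⟩
    have hcm : ∀ v, S (N v) = N (S v) := fun v => LinearMap.congr_fun hSN v
    refine b.ext fun i => ?_
    fin_cases i <;> simp [b, hcm, hS0, map_add, map_smul, hN3']
  have hSa' : S = a • 1 := by
    set R := c₁ • N + c₂ • (N * N) with hRdef
    have hS' : S = a • 1 + R := by rw [hSa, add_assoc]
    have hRnil : IsNilpotent R := by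
      have hc : Commute (c₁ • N) (c₂ • (N * N)) :=
        (((Commute.refl N).mul_right (Commute.refl N)).smul_left c₁).smul_right c₂
      exact hc.isNilpotent_add (IsNilpotent.smul ⟨p, hNp⟩ c₁)
        (IsNilpotent.smul ((Commute.refl N).isNilpotent_mul_right ⟨p, hNp⟩) c₂)
    have hST : S ^ T = 1 := by
      have key : ∀ (i : ℕ) (v : W'), ((S ^ i) v : V) = (M s ^ i) v := by
        intro i
        induction i with
        | zero => intro v; rfl
        | succ i ih => intro v; rw [pow_succ, pow_succ, Module.End.mul_apply, Module.End.mul_apply, ih]; rfl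
      exact LinearMap.ext fun v => Subtype.ext (by rw [key, hsT]; rfl)
    obtain ⟨k, hk⟩ := hRnil
    have hmin : minpoly F S ∣ X ^ T - 1 := minpoly.dvd F _ (by simp [hST])
    have hsepT : (X ^ T - 1 : F[X]).Separable := by
      simpa using Polynomial.separable_X_pow_sub_C (1 : F) hTF one_ne_zero
    have hsf : Squarefree (minpoly F S) := (hsepT.squarefree).squarefree_of_dvd hmin
    have hmin2 : minpoly F S ∣ (X - C a) ^ k := minpoly.dvd F _ (by
      rw [map_pow, map_sub, aeval_X, aeval_C, hS', Algebra.algebraMap_eq_smul_one, add_sub_cancel_left, hk])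
    have := minpoly.dvd_iff.1 ((hsf.isRadical k (X - C a)) hmin2)
    rw [map_sub, aeval_X, aeval_C, sub_eq_zero, Algebra.algebraMap_eq_smul_one] at this
    exact this
  have hsW' : ∀ v ∈ W', M s v = a • v := fun v hv => by
    have := congrArg (fun f : Module.End F W' => (f ⟨v, hv⟩ : V)) hSa'
    simpa [hSv] using this
  have ha2 : a * a = 1 := by
    obtain ⟨v, hv, w, hw, hvw⟩ : ∃ v ∈ W', ∃ w ∈ W', B v w ≠ 0 := by
      by_contra hc
      push Not at hc
      have : W' = ⊥ := (Submodule.eq_bot_iff _).2 fun v hv =>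
        congrArg Subtype.val (hB'nd ⟨v, hv⟩ fun w => hc v hv w w.2)
      rw [this, finrank_bot] at hW'dim
      omega
    have h := hbil s v w
    rw [hsW' v hv, hsW' w hw] at h
    change B (a • v) (a • w) = B v w at h
    simp only [map_smul, LinearMap.smul_apply, smul_eq_mul] at h
    exact mul_right_cancel₀ hvw (by linear_combination h)
  -- the determinant
  have ha : a = 1 := by
    have h := congrArg Units.val hsdet
    rw [orthDet_val, Units.val_one] at h
    let φ : (W × W') ≃ₗ[F] V := Submodule.prodEquivOfIsCompl W W' hcompl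
    let MW : Module.End F W := (M s).restrict hsW
    have hprod : M s = φ.conj (MW.prodMap S) := by
      refine LinearMap.ext fun v => ?_
      obtain ⟨⟨x, y⟩, rfl⟩ := φ.surjective v
      simp [φ, LinearEquiv.conj_apply, MW, S]
    have hLe : MW = (LinearEquiv.ofBijective L ⟨hLinj, hLsurj⟩).conj (LinearMap.mulLeft F mu) := by
      refine LinearMap.ext fun w => ?_
      obtain ⟨k, rfl⟩ := (LinearEquiv.ofBijective L ⟨hLinj, hLsurj⟩).surjective w
      rw [LinearEquiv.conj_apply_apply, LinearEquiv.symm_apply_apply]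
      refine Subtype.ext ?_
      show M s (act k w₀) = act (mu * k) w₀
      rw [hmu' _ (hactW _ _ hw₀), act_mul _ _ _ hw₀]
    have hdW : LinearMap.det MW = 1 := by
      rw [hLe, LinearEquiv.conj_apply, LinearMap.comp_assoc, LinearMap.det_conj]
      change LinearMap.det (LinearMap.mulLeft F mu) = 1
      rw [show LinearMap.mulLeft F mu = Algebra.lmul F K mu from rfl, ← Algebra.norm_apply]
      refine (algebraMap F K).injective ?_
      rw [FiniteField.algebraMap_norm_eq_pow, map_one]
      have := Fintype.ofFinite K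
      rw [Nat.card_eq_fintype_card, Nat.card_eq_fintype_card, Module.card_eq_pow_finrank (K := F) (V := K),
        hdim, he, hF]
      obtain ⟨c, hc⟩ : q - 1 ∣ q ^ m - 1 := Nat.sub_one_dvd_pow_sub_one q m
      rw [show q ^ (2 * m) - 1 = (T * c) * (q - 1) by
        rw [mul_assoc, mul_comm c, ← hc, hT, ← Nat.sq_sub_sq, one_pow, ← pow_mul, mul_comm m 2],
        Nat.mul_div_cancel _ (by omega), pow_mul, hmuT, one_pow]
    change LinearMap.det (M s) = 1 at h
    rw [hprod, LinearEquiv.conj_apply, LinearMap.comp_assoc, LinearMap.det_conj, LinearMap.det_prodMap, hdW, hSa',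
      LinearMap.det_smul, map_one, one_mul, mul_one, hW'dim] at h
    rcases mul_self_eq_one_iff.1 ha2 with h' | h'
    · exact h'
    · rw [h'] at h ⊢
      linear_combination h
  subst ha
  have hsW'1 : ∀ v ∈ W', M s v = v := fun v hv => by rw [hsW' v hv, one_smul]
  have hmuord : ∀ i, mu ^ i = 1 ↔ T ∣ i := fun i => by
    refine ⟨fun h => (hsord i).1 (hMinj ?_), fun ⟨c, hc⟩ => by rw [hc, pow_mul, hmuT, one_pow]⟩
    rw [map_pow, map_one]
    refine LinearMap.ext fun v => ?_
    obtain ⟨w, hw, w', hw', rfl⟩ := hdec v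
    rw [map_add, hpowact s mu hmu' i w hw, h, act_one w hw, Module.End.one_apply]
    congr 1
    clear h
    induction i with
    | zero => rfl
    | succ i ih => rw [pow_succ, Module.End.mul_apply, hsW'1 w' hw', ih]
  -- the permutation on a level set
  have := Fintype.ofFinite V
  set α := nonsquare (F := F) h2
  have hα : α ≠ 0 := nonsquare_ne_zero h2
  haveI : Fintype {x : V // Q x = α} := Fintype.ofFinite _
  set σ := levelPerm Q α s with hσ
  have hσpow : ∀ (i : ℕ) (x : {x : V // Q x = α}), (((σ ^ i) x) : V) = (M s ^ i) (x : V) := by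
    intro i x
    rw [hσ, ← map_pow, ← map_pow]
    rfl
  let π : V →ₗ[F] W := W.projectionOnto W' hcompl
  let π' : V →ₗ[F] W' := W'.projectionOnto W hcompl.symm
  have hππ : ∀ v, (π v : V) + (π' v : V) = v := fun v => by
    obtain ⟨w, hw, w', hw', rfl⟩ := hdec v
    simp only [π, π', map_add, Submodule.projectionOnto_apply_of_mem_left hcompl hw,
      Submodule.projectionOnto_apply_of_mem_right hcompl hw',
      Submodule.projectionOnto_apply_of_mem_left hcompl.symm hw',
      Submodule.projectionOnto_apply_of_mem_right hcompl.symm hw, add_zero, zero_add]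
  have hfix : ∀ (i : ℕ) (v : V), (M s ^ i) v = v ↔ act (mu ^ i) (π v) = π v := by
    intro i v
    have hiw : ∀ i, ∀ w ∈ W', (M s ^ i) w = w := by
      intro i w hw
      induction i with
      | zero => rfl
      | succ i ih => rw [pow_succ, Module.End.mul_apply, hsW'1 w hw, ih]
    conv_lhs => rw [← hππ v, map_add, hpowact s mu hmu' i _ (π v).2, hiw i _ (π' v).2]
    exact add_left_inj _
  have hfix1 : ∀ v : V, M s v = v ↔ π v = 0 := fun v => by
    have h := hfix 1 v
    rw [pow_one, pow_one] at h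
    rw [h]
    refine ⟨fun h1 => ?_, fun h1 => by rw [h1]; simp [act]⟩
    by_contra h0
    have hm1 : mu - 1 = 0 := act_inj _ _ (π v).2 (fun h => h0 (Subtype.ext h)) (by
      rw [sub_eq_add_neg, act_add _ _ _ (π v).2, h1, ← neg_one_smul F (1 : K), act_smul _ _ _ (π v).2,
        act_one _ (π v).2, neg_one_smul, add_neg_cancel])
    have := (hmuord 1).1 (by rw [pow_one]; exact sub_eq_zero.1 hm1)
    have := Nat.le_of_dvd one_pos this
    have : 1 ≤ q ^ m := Nat.one_le_pow _ _ (by omega)
    omega
  have hsemi : ∀ x, σ x ≠ x → ∀ i : ℕ, (σ ^ i) x = x ↔ T ∣ i := by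
    intro x hx i
    rw [Subtype.ext_iff, hσpow, hfix]
    have h0 : π (x : V) ≠ 0 := fun h => hx (Subtype.ext (by
      have := hσpow 1 x
      rw [pow_one, pow_one] at this
      rw [this, (hfix1 _).2 h]))
    refine ⟨fun h => (hmuord i).1 (sub_eq_zero.1 (act_inj _ _ (π (x : V)).2
      (fun h => h0 (Subtype.ext h)) ?_)), fun h => by rw [(hmuord i).2 h, act_one _ (π (x : V)).2]⟩
    rw [sub_eq_add_neg, act_add _ _ _ (π (x : V)).2, h, ← neg_one_smul F (1 : K),
      act_smul _ _ _ (π (x : V)).2, act_one _ (π (x : V)).2, neg_one_smul, add_neg_cancel]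
  -- counting the moved points
  haveI : Fintype W' := Fintype.ofFinite W'
  have hQadd : ∀ (w : W) (w' : W'), Q ((w : V) + (w' : V)) = Q (w : V) + Q (w' : V) := fun w w' => by
    have h0 : QuadraticMap.polar Q (w : V) (w' : V) = 0 := w'.2 w w.2
    rw [QuadraticMap.map_add Q, h0, add_zero]
  let fK : K →ₗ[F] F := (2 : F)⁻¹ • ((LinearMap.flip B w₀).comp (W.subtype.comp L))
  have hfK : ∀ k, fK k = (2 : F)⁻¹ * B (act k w₀) w₀ := fun k => rfl
  have hQL : ∀ k, Q (L k : V) = fK (k ^ (q ^ m + 1)) := by
    intro k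
    show Q (act k w₀) = _
    have hk2 : (k ^ q ^ m) ^ q ^ m = k := by
      have := Fintype.ofFinite K
      have hc : Fintype.card K = q ^ m * q ^ m := by
        rw [Module.card_eq_pow_finrank (K := F), hdim, he, hF, two_mul, pow_add]
      rw [← pow_mul, ← hc, FiniteField.pow_card]
    have hpol : B (act k w₀) (act k w₀) = 2 * Q (act k w₀) := polar_self_two_mul Q _
    rw [hfK, pow_succ, act_mul _ _ _ hw₀, hadj _ _ _ (hactW _ _ hw₀) hw₀, hk2, hpol, ← mul_assoc,
      inv_mul_cancel₀ h2, one_mul]
  have hfne : ∃ e : K, e ^ q ^ m = e ∧ fK e ≠ 0 := by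
    obtain ⟨k, hk⟩ : ∃ k, B (act k w₀) w₀ ≠ 0 := by
      by_contra hc
      push Not at hc
      refine hw₀0 (hdisj _ hw₀ fun w hw => ?_)
      obtain ⟨k, hk⟩ := hLsurj ⟨w, hw⟩
      have hk' : act k w₀ = w := congrArg Subtype.val hk
      rw [← hk']
      exact hc k
    refine ⟨k + k ^ q ^ m, ?_, ?_⟩
    · have hk2 : (k ^ q ^ m) ^ q ^ m = k := by
        have := Fintype.ofFinite K
        have hc : Fintype.card K = q ^ m * q ^ m := by
          rw [Module.card_eq_pow_finrank (K := F), hdim, he, hF, two_mul, pow_add]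
        rw [← pow_mul, ← hc, FiniteField.pow_card]
      obtain ⟨i, hi, hi'⟩ := FiniteField.card F p
      have e : q ^ m = p ^ ((i : ℕ) * m) := by rw [← hF, hi', ← pow_mul]
      rw [e] at hk2 ⊢
      rw [add_pow_char_pow, hk2]
      exact add_comm _ _
    · have e : B (act (k ^ q ^ m) w₀) w₀ = B (act k w₀) w₀ := by
        rw [hBsymm, ← hadj _ _ _ hw₀ hw₀]
      rw [map_add, hfK, hfK, e, ← two_mul, ← mul_assoc, mul_inv_cancel₀ h2, one_mul]
      exact hk
  have hcount : ∀ γ : F, Nat.card {w : W // w ≠ 0 ∧ Q (w : V) = γ} =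
      T * (q ^ (m - 1) - if γ = 0 then 1 else 0) := by
    intro γ
    rw [← card_norm_fibre hF (by omega) (by rw [hdim, he]) fK hfne γ]
    refine (Nat.card_congr ((LinearEquiv.ofBijective L ⟨hLinj, hLsurj⟩).toEquiv.subtypeEquiv fun k => ?_)).symm
    show _ ↔ L k ≠ 0 ∧ Q (L k : V) = γ
    rw [hQL, ne_eq k, ← L.map_eq_zero_iff hLinj]
  let eL : {x : {x : V // Q x = α} // π (x : V) ≠ 0} ≃
      Σ w' : W', {w : W // w ≠ 0 ∧ Q (w : V) = α - Q (w' : V)} :=
    { toFun := fun x => ⟨π' (x.1 : V), π (x.1 : V), x.2, by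
        have h1 : Q (x.1 : V) = Q (π (x.1 : V) : V) + Q (π' (x.1 : V) : V) :=
          (congrArg Q (hππ _).symm).trans (hQadd _ _)
        have h3 : Q (x.1 : V) = α := x.1.2
        linear_combination h3 - h1⟩
      invFun := fun z => ⟨⟨(z.2.1 : V) + (z.1 : V), by rw [hQadd, z.2.2.2]; ring⟩, by
        show π ((z.2.1 : V) + (z.1 : V)) ≠ 0
        rw [map_add, Submodule.projectionOnto_apply_left, Submodule.projectionOnto_apply_of_mem_right hcompl z.1.2,
          add_zero]
        exact z.2.2.1⟩
      left_inv := fun x => Subtype.ext (Subtype.ext (hππ _))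
      right_inv := fun z => by
        have e1 : π' ((z.2.1 : V) + (z.1 : V)) = z.1 := by
          rw [map_add, Submodule.projectionOnto_apply_left,
            Submodule.projectionOnto_apply_of_mem_right hcompl.symm z.2.1.2, zero_add]
        have e2 : π ((z.2.1 : V) + (z.1 : V)) = z.2.1 := by
          rw [map_add, Submodule.projectionOnto_apply_left,
            Submodule.projectionOnto_apply_of_mem_right hcompl z.1.2, add_zero]
        exact Sigma.subtype_ext e1 e2 }
  have hsupp : σ.support.card = T * ∑ w' : W', (q ^ (m - 1) - if Q (w' : V) = α then 1 else 0) := by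
    have e : σ.support.card = Nat.card {x : {x : V // Q x = α} // π (x : V) ≠ 0} := by
      rw [← Nat.card_eq_finsetCard]
      refine Nat.card_congr (Equiv.subtypeEquivRight fun x => ?_)
      rw [Equiv.Perm.mem_support, ne_eq, Subtype.ext_iff, not_iff_not]
      have := hσpow 1 x
      rw [pow_one, pow_one] at this
      rw [this, hfix1]
    rw [e, Nat.card_congr eL, Nat.card_sigma, Finset.mul_sum]
    refine Finset.sum_congr rfl fun w' _ => ?_
    rw [hcount]
    by_cases hh : Q (w' : V) = α
    · simp [hh]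
    · simp [hh, sub_eq_zero, Ne.symm hh]
  set Z := (Finset.univ.filter fun w' : W' => Q (w' : V) = α).card
  have hsum : (∑ w' : W', (q ^ (m - 1) - if Q (w' : V) = α then 1 else 0)) + Z =
      Fintype.card W' * q ^ (m - 1) := by
    rw [show Z = ∑ w' : W', (if Q (w' : V) = α then 1 else 0) from (Finset.sum_boole _ _).symm,
      ← Finset.sum_add_distrib, Finset.sum_congr rfl fun w' _ => Nat.sub_add_cancel ?_, Finset.sum_const,
      Finset.card_univ, smul_eq_mul]
    split_ifs
    · exact Nat.one_le_pow _ _ (by omega)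
    · exact Nat.zero_le _
  have hZ : Even Z := by
    let ι : Equiv.Perm {w' : W' // Q (w' : V) = α} := (Equiv.neg W').subtypeEquiv fun w' => by simp
    have hι : ι ^ 2 = 1 := Equiv.ext fun w => Subtype.ext (by simp [ι, sq])
    have hsupp : ι.support = Finset.univ := Finset.eq_univ_iff_forall.2 fun w => by
      rw [Equiv.Perm.mem_support]
      intro h
      have h' : -(w.1 : V) = (w.1 : V) := congrArg (fun x : {w' : W' // Q (w' : V) = α} => ((x.1 : W') : V)) h
      have h0 : (w.1 : V) = 0 := by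
        have : (2 : F) • (w.1 : V) = 0 := by rw [two_smul]; nth_rw 1 [← h']; exact neg_add_cancel _
        exact (smul_eq_zero.1 this).resolve_left h2
      exact hα (by rw [← w.2, h0, QuadraticMap.map_zero])
    haveI : Fact (Nat.Prime 2) := ⟨Nat.prime_two⟩
    have hct := Equiv.Perm.cycleType_of_pow_prime_eq_one hι
    have hsum' := Equiv.Perm.sum_cycleType ι
    rw [hct, Multiset.sum_replicate, hsupp, Finset.card_univ, Fintype.card_subtype] at hsum'
    change _ = Z at hsum'
    rw [smul_eq_mul] at hsum'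
    exact ⟨Multiset.card ι.cycleType, by omega⟩
  have hWcard : Fintype.card W' = q ^ 3 := by rw [Module.card_eq_pow_finrank (K := F), hW'dim, hF]
  have hsign := sign_semiregular σ hsemi
  have hs' : Equiv.Perm.sign σ = 1 := by
    have h : levelSign Q α s = 1 := hssp
    unfold levelSign at h
    simp only [MonoidHom.comp_apply] at h
    convert h using 3
  rw [hs', hsupp, Nat.mul_div_cancel_left _ (by omega : 0 < T)] at hsign
  set S' := ∑ w' : W', (q ^ (m - 1) - if Q (w' : V) = α then 1 else 0)
  have hodd : Odd (T * S' + S') := by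
    rw [show T * S' + S' = (T + 1) * S' by ring]
    refine Odd.mul ?_ ?_
    · rw [hT]
      have : Odd (q ^ m) := (Nat.odd_iff.2 hqodd).pow
      obtain ⟨c, hc⟩ := this
      exact ⟨c + 1, by rw [hc]; ring⟩
    · have : Odd (S' + Z) := by
        rw [hsum, hWcard]
        exact ((Nat.odd_iff.2 hqodd).pow).mul ((Nat.odd_iff.2 hqodd).pow)
      exact (Nat.odd_add.1 this).2 hZ
  rw [hodd.neg_one_pow] at hsign
  exact absurd hsign (by decide)

end Main

end Cfsg.Agent.Forms
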