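import Cfsg.Agent.Forms.PermModuleQuad
import Cfsg.Agent.Forms.OrthBridge

/-!
# `SO₃(3)` is the symmetric group on the four singular points
-/

set_option autoImplicit false
set_option linter.unusedSectionVars false

namespace Cfsg.Agent.Forms

open Module Matrix

namespace ThreeThree

local notation "K" => ZMod 3
local notation "VV" => (Unit ⊕ (Fin 1 ⊕ Fin 1) → ZMod 3)

/-- The four singular points. -/
def pt : Fin 4 → VV :=
  ![Sum.elim (fun _ => 0) (Sum.elim (fun _ => 1) (fun _ => 0)),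
    Sum.elim (fun _ => 0) (Sum.elim (fun _ => 0) (fun _ => 1)),
    Sum.elim (fun _ => 1) (Sum.elim (fun _ => 1) (fun _ => 2)),
    Sum.elim (fun _ => 1) (Sum.elim (fun _ => 2) (fun _ => 1))]

/-- The index of a singular vector. -/
def idx (v : VV) : Fin 4 :=
  if v (.inl ()) = 0 then (if v (.inr (.inr 0)) = 0 then 0 else 1)
  else (if v (.inr (.inl 0)) = v (.inl ()) then 2 else 3)

theorem idx_spec : ∀ v : VV, Cfsg.quadFormOdd 1 K v = 0 → v ≠ 0 → ∃ c : K, v = c • pt (idx v) := by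
  unfold Cfsg.quadFormOdd
  decide +kernel

theorem idx_pt : ∀ i (c : K), c ≠ 0 → idx (c • pt i) = i := by decide +kernel

theorem pt_singular : ∀ i, Cfsg.quadFormOdd 1 K (pt i) = 0 ∧ pt i ≠ 0 := by
  unfold Cfsg.quadFormOdd
  decide +kernel

/-- The matrix of a special isometry. -/
abbrev mat (g : ↥(Cfsg.specialIsometryGroup K (Cfsg.quadFormOdd 1 K))) :
    Matrix (Unit ⊕ (Fin 1 ⊕ Fin 1)) (Unit ⊕ (Fin 1 ⊕ Fin 1)) K :=
  g.1.1.val

theorem mulVec_pt (g : ↥(Cfsg.specialIsometryGroup K (Cfsg.quadFormOdd 1 K))) (i : Fin 4) :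
    ∃ c : K, c ≠ 0 ∧ mat g *ᵥ pt i = c • pt (idx (mat g *ᵥ pt i)) := by
  have h1 : Cfsg.quadFormOdd 1 K (mat g *ᵥ pt i) = 0 :=
    (mem_isometryGroup_iff.1 (g : Cfsg.isometryGroup K (Cfsg.quadFormOdd 1 K)).2 (pt i)).trans
      (pt_singular i).1
  have h2 : mat g *ᵥ pt i ≠ 0 := fun h => (pt_singular i).2 (by
    have := (glEquiv _ K g.1.1).map_eq_zero_iff.1 h
    exact this)
  obtain ⟨c, hc⟩ := idx_spec _ h1 h2
  exact ⟨c, fun h => h2 (by rw [hc, h, zero_smul]), hc⟩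

/-- The action on the four points. -/
def permFun (g : ↥(Cfsg.specialIsometryGroup K (Cfsg.quadFormOdd 1 K))) (i : Fin 4) : Fin 4 :=
  idx (mat g *ᵥ pt i)

theorem permFun_mul (g h : ↥(Cfsg.specialIsometryGroup K (Cfsg.quadFormOdd 1 K))) (i : Fin 4) :
    permFun (g * h) i = permFun g (permFun h i) := by
  obtain ⟨c, hc, hh⟩ := mulVec_pt h i
  obtain ⟨d, hd, hg⟩ := mulVec_pt g (permFun h i)
  change idx (mat (g * h) *ᵥ pt i) = _
  rw [show mat (g * h) = mat g * mat h from rfl, ← Matrix.mulVec_mulVec, hh, Matrix.mulVec_smul]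
  change idx (c • (mat g *ᵥ pt (permFun h i))) = _
  rw [hg, smul_smul, idx_pt _ _ (mul_ne_zero hc hd)]
  rfl

theorem permFun_one (i : Fin 4) : permFun 1 i = i := by
  change idx ((1 : Matrix _ _ K) *ᵥ pt i) = i
  rw [Matrix.one_mulVec, ← one_smul K (pt i), idx_pt _ _ one_ne_zero]

/-- The homomorphism to the symmetric group. -/
def permHom : ↥(Cfsg.specialIsometryGroup K (Cfsg.quadFormOdd 1 K)) →* Equiv.Perm (Fin 4) where
  toFun g := ⟨permFun g, permFun g⁻¹, fun i => by rw [← permFun_mul, inv_mul_cancel, permFun_one],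
    fun i => by rw [← permFun_mul, mul_inv_cancel, permFun_one]⟩
  map_one' := Equiv.ext permFun_one
  map_mul' g h := Equiv.ext (permFun_mul g h)

theorem scalars : ∀ c₀ c₁ c₂ c₃ : K, c₃ • pt 3 = c₂ • pt 2 + c₀ • pt 0 - c₁ • pt 1 →
    c₀ = c₂ ∧ c₁ = c₂ := by decide +kernel

theorem pt_three : pt 3 = pt 2 + pt 0 - pt 1 := by decide +kernel

theorem pt_span : ∀ v : VV, ∃ a b c : K, v = a • pt 0 + b • pt 1 + c • pt 2 := by decide +kernel

theorem cube : ∀ c : K, c ^ 3 = 1 → c = 1 := by decide +kernel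

theorem permHom_injective : Function.Injective permHom := by
  rw [← MonoidHom.ker_eq_bot_iff, Subgroup.eq_bot_iff_forall]
  intro g hg
  rw [MonoidHom.mem_ker] at hg
  have hfix : ∀ i, ∃ c : K, mat g *ᵥ pt i = c • pt i := by
    intro i
    obtain ⟨c, -, hc⟩ := mulVec_pt g i
    have hi : idx (mat g *ᵥ pt i) = i := congrArg (fun σ : Equiv.Perm (Fin 4) => σ i) hg
    rw [hi] at hc
    exact ⟨c, hc⟩
  obtain ⟨c₀, h0⟩ := hfix 0
  obtain ⟨c₁, h1⟩ := hfix 1
  obtain ⟨c₂, h2⟩ := hfix 2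
  obtain ⟨c₃, h3⟩ := hfix 3
  rw [pt_three, Matrix.mulVec_sub, Matrix.mulVec_add, h0, h1, h2, ← pt_three] at h3
  obtain ⟨rfl, rfl⟩ := scalars c₀ c₁ c₂ c₃ h3.symm
  have hM : mat g = c₁ • (1 : Matrix _ _ K) := by
    refine matrix_ext_mulVec fun v => ?_
    obtain ⟨a, b, c, rfl⟩ := pt_span v
    simp only [Matrix.mulVec_add, Matrix.mulVec_smul, h0, h1, h2, Matrix.smul_mulVec,
      Matrix.one_mulVec]
  have hdet : (mat g).det = 1 := congrArg Units.val (MonoidHom.mem_ker.1 g.2)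
  rw [hM, Matrix.det_smul, Matrix.det_one, mul_one] at hdet
  refine Subtype.ext (Subtype.ext (Units.ext ?_))
  change mat g = 1
  rw [hM, cube c₁ (by simpa using hdet), one_smul]

theorem card_special : Nat.card ↥(Cfsg.specialIsometryGroup K (Cfsg.quadFormOdd 1 K)) = 24 := by
  have hcard := card_isometryGroup_odd (F := K) 1 (ZMod.card 3) (by decide)
  rw [show (Cfsg.specialIsometryGroup K (Cfsg.quadFormOdd 1 K)) =
    (Matrix.GeneralLinearGroup.det.comp (Cfsg.isometryGroup K (Cfsg.quadFormOdd 1 K)).subtype).ker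
    from rfl]
  set φ := Matrix.GeneralLinearGroup.det.comp (Cfsg.isometryGroup K (Cfsg.quadFormOdd 1 K)).subtype
  have hneg : ∀ v : VV, Cfsg.quadFormOdd 1 K (-v) = Cfsg.quadFormOdd 1 K v := fun v => by
    simp [Cfsg.quadFormOdd]
  have hrange : φ.range = ⊤ := by
    rw [eq_top_iff]
    intro x _
    have hx : x = 1 ∨ x = -1 := by
      have : ∀ y : Kˣ, y = 1 ∨ y = -1 := by decide +kernel
      exact this x
    rcases hx with rfl | rfl
    · exact one_mem _
    · refine ⟨⟨-1, mem_isometryGroup_iff.2 fun v => by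
        rw [Units.val_neg, Units.val_one, Matrix.neg_mulVec, Matrix.one_mulVec, hneg]⟩, Units.ext ?_⟩
      change (-1 : GL (Unit ⊕ (Fin 1 ⊕ Fin 1)) K).val.det = _
      rw [Units.val_neg, Units.val_one, Matrix.det_neg, Matrix.det_one]
      rfl
  have hmul := Subgroup.index_mul_card φ.ker
  rw [Subgroup.index_ker, hrange, Subgroup.card_top, hcard, Nat.card_eq_fintype_card,
    ZMod.card_units_eq_totient, show Nat.totient 3 = 2 by decide] at hmul
  rw [show (∏ i ∈ Finset.range 1, ((3 : ℕ) ^ (2 * (i + 1)) - 1)) = 8 by decide] at hmul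
  omega

theorem nonempty_equiv :
    Nonempty (↥(Cfsg.specialIsometryGroup K (Cfsg.quadFormOdd 1 K)) ≃* Equiv.Perm (Fin 4)) :=
  ⟨MulEquiv.ofBijective permHom ((Nat.bijective_iff_injective_and_card _).2
    ⟨permHom_injective, by rw [card_special, Nat.card_perm, Nat.card_fin]; decide⟩)⟩

end ThreeThree

/-- `SO₃(3) ≅ S₄`. -/
theorem so_three_three {F : Type*} [Field F] [Fintype F] (hF : Fintype.card F = 3) :
    Nonempty (↥(Cfsg.specialIsometryGroup F (Cfsg.quadFormOdd 1 F)) ≃* Equiv.Perm (Fin 4)) := by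
  obtain ⟨e⟩ : Nonempty (ZMod 3 ≃+* F) := ⟨ZMod.ringEquivOfPrime F Nat.prime_three hF⟩
  obtain ⟨E⟩ := ThreeThree.nonempty_equiv
  set Φ := isometryGroupMapEquiv e (Cfsg.quadFormOdd 1 (ZMod 3)) (Cfsg.quadFormOdd 1 F)
    (fun v => by simp [Cfsg.quadFormOdd, map_sum]) with hΦ
  refine ⟨(subgroupEquivOfIff Φ _ _ fun g => ?_).symm.trans E⟩
  rw [Cfsg.specialIsometryGroup, Cfsg.specialIsometryGroup, MonoidHom.mem_ker, MonoidHom.mem_ker,
    Units.ext_iff, Units.ext_iff]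
  change g.1.val.det = 1 ↔ (e.mapMatrix g.1.val).det = 1
  rw [← RingEquiv.map_det, map_eq_one_iff e e.injective]

end Cfsg.Agent.Forms
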