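import Cfsg.Agent.Forms.OmegaFiveWedge
import Cfsg.Agent.Forms.SympBridge

/-!
`PΩ₅(F) ≅ PSp₄(F)` over any field with more than two elements.
-/

set_option autoImplicit false

namespace Cfsg.Agent.Forms

open Matrix
open Cfsg.Agent.Linear (fiveIn fiveOut fiveIn_fiveOut wedge wedge_mul wedge_perp fiveIn_perp sp4Mat sp4Rep
  sp4Rep_preserves isoHom central_of_commutator_mem range_le_omega_of_perfect)
open scoped commutatorElement

variable {F : Type*} [Field F]

local notation "V5" => (Unit ⊕ (Fin 2 ⊕ Fin 2) → F)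
local notation "O5" => Cfsg.isometryGroup F (Cfsg.quadFormOdd 2 F)

/-- The action of an isometry on the five-space. -/
def fiveAct (h : O5) (v : V5) : V5 :=
  h.1.1 *ᵥ v

theorem fiveAct_mul (h k : O5) (v : V5) : fiveAct (h * k) v = fiveAct h (fiveAct k v) := by
  simp [fiveAct, Matrix.mulVec_mulVec]

theorem fiveAct_add (h : O5) (u v : V5) : fiveAct h (u + v) = fiveAct h u + fiveAct h v :=
  Matrix.mulVec_add _ u v

theorem fiveAct_smul (h : O5) (a : F) (v : V5) : fiveAct h (a • v) = a • fiveAct h v :=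
  Matrix.mulVec_smul _ a v

theorem fiveAct_quad (h : O5) (v : V5) :
    Cfsg.quadFormOdd 2 F (fiveAct h v) = Cfsg.quadFormOdd 2 F v := mem_isometryGroup_iff.1 h.2 v

theorem fiveAct_one (v : V5) : fiveAct (1 : O5) v = v := Matrix.one_mulVec v

theorem fiveAct_ext {h k : O5} (e : ∀ v, fiveAct h v = fiveAct k v) : h = k :=
  Subtype.ext (Units.ext (matrix_ext_mulVec e))

theorem fix_inv_mul {h k : O5} {v w : V5} (hh : fiveAct h v = w) (hk : fiveAct k v = w) :
    fiveAct (k⁻¹ * h) v = v := by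
  rw [fiveAct_mul, hh, ← hk, ← fiveAct_mul, inv_mul_cancel, fiveAct_one]

variable (F)

/-- The representation as isometries. -/
noncomputable def sp4Iso : Matrix.symplecticGroup (Fin 2) F →* O5 :=
  isoHom sp4Rep sp4Rep_preserves

variable {F}

theorem fiveAct_sp4Iso (g : Matrix.symplecticGroup (Fin 2) F) (v : V5) :
    fiveAct (sp4Iso F g) v = sp4Rep g v := LinearMap.toMatrix'_mulVec _ v

theorem fiveAct_sp4Iso_vecWedge (g : Matrix.symplecticGroup (Fin 2) F) (a b c d a' b' c' d' : F)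
    (h : a * c' + b * d' = c * a' + d * b') :
    fiveAct (sp4Iso F g) (vecWedge (fourVec a b c d) (fourVec a' b' c' d')) =
      vecWedge (g.1 *ᵥ fourVec a b c d) (g.1 *ᵥ fourVec a' b' c' d') := by
  rw [fiveAct_sp4Iso]
  refine sp4Rep_vecWedge g ?_
  rw [sympForm_eq, Fin.sum_univ_two]
  simp [fourVec]
  linear_combination -h

/-- `[[1,S],[0,1]]` for `S = [[u,v],[v,w]]`. -/
def spUpper (u v w : F) : Matrix.symplecticGroup (Fin 2) F :=
  ⟨Matrix.fromBlocks 1 !![u, v; v, w] 0 1, by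
    rw [SymplecticGroup.mem_iff]
    simp [Matrix.J, Matrix.fromBlocks_multiply, Matrix.fromBlocks_transpose]
    ext i j
    fin_cases i <;> fin_cases j <;> simp⟩

theorem spUpper_mulVec (u v w a b c d : F) :
    (spUpper u v w).1 *ᵥ fourVec a b c d = fourVec (a + u * c + v * d) (b + v * c + w * d) c d := by
  funext i
  rcases i with i | i <;> fin_cases i <;>
    simp [spUpper, fourVec, Matrix.mulVec, dotProduct, Fintype.sum_sum_type, Fin.sum_univ_two,
      Matrix.one_apply] <;> ring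

/-- `diag(A, A⁻ᵀ)` for `A = [[a,b],[c,d]]`. -/
def spLevi (a b c d : F) (h : a * d - b * c ≠ 0) : Matrix.symplecticGroup (Fin 2) F :=
  ⟨Matrix.fromBlocks !![a, b; c, d] 0 0
      ((a * d - b * c)⁻¹ • !![d, -c; -b, a]), by
    rw [SymplecticGroup.mem_iff]
    simp [Matrix.J, Matrix.fromBlocks_multiply, Matrix.fromBlocks_transpose]
    have h' : a * d - c * b ≠ 0 := by rwa [mul_comm c b]
    constructor <;>
      (ext i j
       fin_cases i <;> fin_cases j <;>
        simp [Matrix.vecMul, dotProduct, Fin.sum_univ_two] <;>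
        first
          | ring1
          | (field_simp; ring1))⟩

theorem spLevi_mulVec (a b c d : F) (h : a * d - b * c ≠ 0) (x y z t : F) :
    (spLevi a b c d h).1 *ᵥ fourVec x y z t =
      fourVec (a * x + b * y) (c * x + d * y) ((a * d - b * c)⁻¹ * (d * z - c * t))
        ((a * d - b * c)⁻¹ * (a * t - b * z)) := by
  funext i
  rcases i with i | i <;> fin_cases i <;>
    simp [spLevi, fourVec, Matrix.mulVec, dotProduct, Fintype.sum_sum_type, Fin.sum_univ_two] <;> ring

/-- The diagonal entries of the torus element. -/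
def torDiag (a : F) : V5 := fiveVec 1 a 1 a⁻¹ 1

/-- The torus element scaling the first hyperbolic pair. -/
def torFive (a : Fˣ) : O5 :=
  ⟨⟨Matrix.diagonal (torDiag (a : F)), Matrix.diagonal (torDiag ((a⁻¹ : Fˣ) : F)),
      by
        rw [Matrix.diagonal_mul_diagonal, ← Matrix.diagonal_one]
        congr 1
        funext i
        rcases i with ⟨⟩ | i | i <;> (try fin_cases i) <;> simp [torDiag, fiveVec],
      by
        rw [Matrix.diagonal_mul_diagonal, ← Matrix.diagonal_one]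
        congr 1
        funext i
        rcases i with ⟨⟩ | i | i <;> (try fin_cases i) <;> simp [torDiag, fiveVec]⟩, by
    rw [mem_isometryGroup_iff]
    intro v
    simp [Cfsg.quadFormOdd, Matrix.mulVec_diagonal, torDiag, fiveVec, Fin.sum_univ_two]
    field_simp⟩

theorem fiveAct_torFive (a : Fˣ) (z x1 x2 y1 y2 : F) :
    fiveAct (torFive a) (fiveVec z x1 x2 y1 y2) = fiveVec z (a * x1) x2 ((a : F)⁻¹ * y1) y2 := by
  funext i
  rcases i with ⟨⟩ | i | i <;> (try fin_cases i) <;>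
    simp [fiveAct, torFive, Matrix.mulVec_diagonal, torDiag, fiveVec]

variable (F) in
/-- Minus one. -/
def negFive : O5 :=
  ⟨-1, by
    rw [mem_isometryGroup_iff]
    intro v
    simp [Cfsg.quadFormOdd, Matrix.neg_mulVec, Fin.sum_univ_two]⟩

theorem fiveAct_negFive (v : V5) : fiveAct (negFive F) v = -v := by
  simp [fiveAct, negFive, Matrix.neg_mulVec]

variable (F)

/-- The torus with minus one. -/
def torGroup : Subgroup O5 := Subgroup.closure (Set.range (torFive (F := F)) ∪ {negFive F})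

/-- The subgroup shown to be everything. -/
noncomputable def fiveSub : Subgroup O5 := (sp4Iso F).range ⊔ torGroup F

variable {F}

theorem sp4Iso_mem (g : Matrix.symplecticGroup (Fin 2) F) : sp4Iso F g ∈ fiveSub F :=
  Subgroup.mem_sup_left ⟨g, rfl⟩

theorem torFive_mem (a : Fˣ) : torFive a ∈ fiveSub F :=
  Subgroup.mem_sup_right (Subgroup.subset_closure (Or.inl ⟨a, rfl⟩))

theorem negFive_mem : negFive F ∈ fiveSub F :=
  Subgroup.mem_sup_right (Subgroup.subset_closure (Or.inr rfl))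

local notation "eX1" => (fiveVec 0 1 0 0 0 : V5)
local notation "eY1" => (fiveVec 0 0 0 1 0 : V5)
local notation "eX2" => (fiveVec 0 0 1 0 0 : V5)
local notation "eY2" => (fiveVec 0 0 0 0 1 : V5)
local notation "eZ" => (fiveVec 1 0 0 0 0 : V5)

theorem eX1_eq : eX1 = vecWedge (fourVec 1 0 0 0) (fourVec 0 1 0 0) := by simp [vecWedge_fourVec]
theorem eY1_eq : eY1 = vecWedge (fourVec 0 0 1 0) (fourVec 0 0 0 1) := by simp [vecWedge_fourVec]
theorem eX2_eq : eX2 = vecWedge (fourVec 1 0 0 0) (fourVec 0 0 0 1) := by simp [vecWedge_fourVec]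
theorem eY2_eq : eY2 = vecWedge (fourVec 0 1 0 0) (fourVec 0 0 1 0) := by simp [vecWedge_fourVec]

omit [Field F] in
theorem fiveVec_inj {z x1 x2 y1 y2 z' x1' x2' y1' y2' : F}
    (h : fiveVec z x1 x2 y1 y2 = fiveVec z' x1' x2' y1' y2') :
    z = z' ∧ x1 = x1' ∧ x2 = x2' ∧ y1 = y1' ∧ y2 = y2' :=
  ⟨congrFun h (.inl ()), congrFun h (.inr (.inl 0)), congrFun h (.inr (.inl 1)),
    congrFun h (.inr (.inr 0)), congrFun h (.inr (.inr 1))⟩

theorem neg_fiveVec (z x1 x2 y1 y2 : F) : -fiveVec z x1 x2 y1 y2 = fiveVec (-z) (-x1) (-x2) (-y1) (-y2) := by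
  rw [← neg_one_smul F, smul_fiveVec]
  simp only [neg_one_mul]

/-- An isometry fixing the four hyperbolic vectors. -/
theorem mem_fiveSub_of_fix4 (h : O5) (h1 : fiveAct h eX1 = eX1) (h2 : fiveAct h eY1 = eY1)
    (h3 : fiveAct h eX2 = eX2) (h4 : fiveAct h eY2 = eY2) : h ∈ fiveSub F := by
  obtain ⟨z, x1, x2, y1, y2, hw⟩ : ∃ z x1 x2 y1 y2, fiveAct h eZ = fiveVec z x1 x2 y1 y2 :=
    ⟨_, _, _, _, _, fiveVec_eta _⟩
  have q0 := fiveAct_quad h eZ
  have q1 := fiveAct_quad h (eZ + eX1)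
  have q2 := fiveAct_quad h (eZ + eY1)
  have q3 := fiveAct_quad h (eZ + eX2)
  have q4 := fiveAct_quad h (eZ + eY2)
  simp only [fiveAct_add, hw, h1, h2, h3, h4] at q0 q1 q2 q3 q4
  simp only [fiveVec_add, quad_fiveVec] at q0 q1 q2 q3 q4
  have e1 : y1 = 0 := by linear_combination q1 - q0
  have e2 : x1 = 0 := by linear_combination q2 - q0
  have e3 : y2 = 0 := by linear_combination q3 - q0
  have e4 : x2 = 0 := by linear_combination q4 - q0
  subst e1 e2 e3 e4
  have hz : z * z = 1 := by linear_combination q0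
  have hgen : ∀ k : O5, fiveAct k eX1 = eX1 → fiveAct k eY1 = eY1 → fiveAct k eX2 = eX2 →
      fiveAct k eY2 = eY2 → fiveAct k eZ = fiveAct h eZ → k = h := by
    intro k k1 k2 k3 k4 k5
    refine fiveAct_ext fun v => ?_
    have hv : v = v (.inl ()) • eZ + v (.inr (.inl 0)) • eX1 + v (.inr (.inl 1)) • eX2 +
        v (.inr (.inr 0)) • eY1 + v (.inr (.inr 1)) • eY2 := by
      conv_lhs => rw [fiveVec_eta v]
      simp [smul_fiveVec, fiveVec_add]
    rw [hv]
    simp only [fiveAct_add, fiveAct_smul, k1, k2, k3, k4, k5, h1, h2, h3, h4]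
  rcases mul_self_eq_one_iff.1 hz with rfl | rfl
  · rw [← hgen 1 (fiveAct_one _) (fiveAct_one _) (fiveAct_one _) (fiveAct_one _)
      (by rw [fiveAct_one, hw])]
    exact one_mem _
  · have hd : (-1 : F) * 1 - 0 * 0 ≠ 0 := by simp
    rw [← hgen (negFive F * sp4Iso F (spLevi (-1) 0 0 1 hd)) ?_ ?_ ?_ ?_ ?_]
    · exact mul_mem negFive_mem (sp4Iso_mem _)
    · rw [eX1_eq, fiveAct_mul, fiveAct_sp4Iso_vecWedge _ _ _ _ _ _ _ _ _ (by ring),
        spLevi_mulVec, spLevi_mulVec, fiveAct_negFive, vecWedge_fourVec, vecWedge_fourVec,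
        neg_fiveVec]
      norm_num
    · rw [eY1_eq, fiveAct_mul, fiveAct_sp4Iso_vecWedge _ _ _ _ _ _ _ _ _ (by ring),
        spLevi_mulVec, spLevi_mulVec, fiveAct_negFive, vecWedge_fourVec, vecWedge_fourVec,
        neg_fiveVec]
      norm_num
    · rw [eX2_eq, fiveAct_mul, fiveAct_sp4Iso_vecWedge _ _ _ _ _ _ _ _ _ (by ring),
        spLevi_mulVec, spLevi_mulVec, fiveAct_negFive, vecWedge_fourVec, vecWedge_fourVec,
        neg_fiveVec]
      norm_num
    · rw [eY2_eq, fiveAct_mul, fiveAct_sp4Iso_vecWedge _ _ _ _ _ _ _ _ _ (by ring),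
        spLevi_mulVec, spLevi_mulVec, fiveAct_negFive, vecWedge_fourVec, vecWedge_fourVec,
        neg_fiveVec]
      norm_num
    · have hzz : (eZ) = vecWedge (fourVec 1 1 0 0) (fourVec 0 0 1 (-1)) + (1 : F) • eX2 + (-1 : F) • eY2 := by
        simp [neg_fiveVec, fiveVec_add, vecWedge_fourVec]
      rw [hw, hzz, fiveAct_mul]
      simp only [fiveAct_add, fiveAct_smul]
      rw [eX2_eq, eY2_eq,
        fiveAct_sp4Iso_vecWedge _ _ _ _ _ _ _ _ _ (by ring),
        fiveAct_sp4Iso_vecWedge _ _ _ _ _ _ _ _ _ (by ring),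
        fiveAct_sp4Iso_vecWedge _ _ _ _ _ _ _ _ _ (by ring)]
      simp [spLevi_mulVec, fiveAct_negFive, vecWedge_fourVec, neg_fiveVec, fiveVec_add]

/-- An isometry fixing three hyperbolic vectors. -/
theorem mem_fiveSub_of_fix3 (h : O5) (h1 : fiveAct h eX1 = eX1) (h2 : fiveAct h eY1 = eY1)
    (h3 : fiveAct h eX2 = eX2) : h ∈ fiveSub F := by
  obtain ⟨z, x1, x2, y1, y2, hw⟩ : ∃ z x1 x2 y1 y2, fiveAct h eY2 = fiveVec z x1 x2 y1 y2 :=
    ⟨_, _, _, _, _, fiveVec_eta _⟩
  have q0 := fiveAct_quad h eY2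
  have q1 := fiveAct_quad h (eY2 + eX1)
  have q2 := fiveAct_quad h (eY2 + eY1)
  have q3 := fiveAct_quad h (eY2 + eX2)
  simp only [fiveAct_add, hw, h1, h2, h3] at q0 q1 q2 q3
  simp only [fiveVec_add, quad_fiveVec] at q0 q1 q2 q3
  have e1 : y1 = 0 := by linear_combination q1 - q0
  have e2 : x1 = 0 := by linear_combination q2 - q0
  have e3 : y2 = 1 := by linear_combination q3 - q0
  subst e1 e2 e3
  have e4 : x2 = -(z * z) := by linear_combination q0
  subst e4
  have hd : (1 : F) * 1 - z * 0 ≠ 0 := by simp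
  set g := spLevi 1 z 0 1 hd with hg
  have act : ∀ (a b c d a' b' c' d' : F), a * c' + b * d' = c * a' + d * b' →
      fiveAct (sp4Iso F g) (vecWedge (fourVec a b c d) (fourVec a' b' c' d')) =
        vecWedge (fourVec (a + z * b) b c (d - z * c)) (fourVec (a' + z * b') b' c' (d' - z * c')) := by
    intro a b c d a' b' c' d' e
    rw [fiveAct_sp4Iso_vecWedge g a b c d a' b' c' d' e, hg, spLevi_mulVec, spLevi_mulVec]
    congr 1 <;> congr 1 <;> simp
  have k1 : fiveAct (sp4Iso F g) eX1 = eX1 := by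
    rw [eX1_eq, act _ _ _ _ _ _ _ _ (by ring)]; simp [vecWedge_fourVec]
  have k2 : fiveAct (sp4Iso F g) eY1 = eY1 := by
    rw [eY1_eq, act _ _ _ _ _ _ _ _ (by ring)]; simp [vecWedge_fourVec]
  have k3 : fiveAct (sp4Iso F g) eX2 = eX2 := by
    rw [eX2_eq, act _ _ _ _ _ _ _ _ (by ring)]; simp [vecWedge_fourVec]
  have k4 : fiveAct (sp4Iso F g) eY2 = fiveVec z 0 (-(z * z)) 0 1 := by
    rw [eY2_eq, act _ _ _ _ _ _ _ _ (by ring)]; simp [vecWedge_fourVec]
  rw [show h = sp4Iso F g * ((sp4Iso F g)⁻¹ * h) by rw [mul_inv_cancel_left]]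
  exact mul_mem (sp4Iso_mem g) (mem_fiveSub_of_fix4 _ (fix_inv_mul h1 k1) (fix_inv_mul h2 k2)
    (fix_inv_mul h3 k3) (fix_inv_mul hw k4))

/-- An isometry fixing the first hyperbolic pair. -/
theorem mem_fiveSub_of_fix2 (h : O5) (h1 : fiveAct h eX1 = eX1) (h2 : fiveAct h eY1 = eY1) :
    h ∈ fiveSub F := by
  obtain ⟨z, x1, s, y1, t, hw⟩ : ∃ z x1 x2 y1 y2, fiveAct h eX2 = fiveVec z x1 x2 y1 y2 :=
    ⟨_, _, _, _, _, fiveVec_eta _⟩
  have q0 := fiveAct_quad h eX2
  have q1 := fiveAct_quad h (eX2 + eX1)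
  have q2 := fiveAct_quad h (eX2 + eY1)
  simp only [fiveAct_add, hw, h1, h2] at q0 q1 q2
  simp only [fiveVec_add, quad_fiveVec] at q0 q1 q2
  have e1 : y1 = 0 := by linear_combination q1 - q0
  have e2 : x1 = 0 := by linear_combination q2 - q0
  subst e1 e2
  have hz : z * z + s * t = 0 := by linear_combination q0
  obtain ⟨a, b, c, d, hd, es, et, ez⟩ : ∃ a b c d : F, a * d - b * c ≠ 0 ∧
      a * a = (a * d - b * c) * s ∧ -(c * c) = (a * d - b * c) * t ∧ -(a * c) = (a * d - b * c) * z := by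
    by_cases hs : s = 0
    · subst hs
      have hz0 : z = 0 := mul_self_eq_zero.1 (by linear_combination hz)
      have ht : t ≠ 0 := by
        rintro rfl
        subst hz0
        have hzero : (eX2) = 0 := by
          have e : fiveAct h eX2 = fiveAct h 0 := by
            rw [hw]; simp only [fiveAct, Matrix.mulVec_zero]
            funext i
            rcases i with ⟨⟩ | i | i <;> (try fin_cases i) <;> simp [fiveVec]
          have := congrArg (fiveAct h⁻¹) e
          rwa [← fiveAct_mul, ← fiveAct_mul, inv_mul_cancel, fiveAct_one, fiveAct_one] at this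
        simpa [fiveVec] using congrFun hzero (.inr (.inl 1))
      refine ⟨0, t⁻¹, 1, 0, by simp [ht], ?_, ?_, ?_⟩
      · ring
      · field_simp; ring
      · rw [hz0]; ring
    · refine ⟨1, 0, -(z / s), s⁻¹, by simp [hs], ?_, ?_, ?_⟩
      · field_simp; ring
      · field_simp; linear_combination -hz
      · field_simp; ring
  set g := spLevi a b c d hd with hg
  set u : Fˣ := Units.mk0 _ hd
  set k := sp4Iso F g * torFive u⁻¹ with hk
  have act : ∀ (p q p' q' r w r' w' : F), p * r' + q * w' = r * p' + w * q' →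
      fiveAct (sp4Iso F g) (vecWedge (fourVec p q r w) (fourVec p' q' r' w')) =
        vecWedge (fourVec (a * p + b * q) (c * p + d * q) ((a * d - b * c)⁻¹ * (d * r - c * w))
          ((a * d - b * c)⁻¹ * (a * w - b * r)))
          (fourVec (a * p' + b * q') (c * p' + d * q') ((a * d - b * c)⁻¹ * (d * r' - c * w'))
          ((a * d - b * c)⁻¹ * (a * w' - b * r'))) := by
    intro p q p' q' r w r' w' e
    rw [fiveAct_sp4Iso_vecWedge g p q r w p' q' r' w' e, hg, spLevi_mulVec, spLevi_mulVec]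
  have hu : ((u⁻¹ : Fˣ) : F) = (a * d - b * c)⁻¹ := Units.val_inv_eq_inv_val u
  have k1 : fiveAct k eX1 = eX1 := by
    rw [hk, fiveAct_mul, fiveAct_torFive, hu, show fiveVec 0 ((a * d - b * c)⁻¹ * 1) 0
        ((a * d - b * c)⁻¹⁻¹ * 0) 0 = (a * d - b * c)⁻¹ • eX1 by simp [smul_fiveVec],
      fiveAct_smul, eX1_eq, act _ _ _ _ _ _ _ _ (by ring), vecWedge_fourVec, vecWedge_fourVec,
      smul_fiveVec]
    congr 1 <;> field_simp <;> ring
  have k2 : fiveAct k eY1 = eY1 := by
    rw [hk, fiveAct_mul, fiveAct_torFive, hu, show fiveVec 0 ((a * d - b * c)⁻¹ * 0) 0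
        ((a * d - b * c)⁻¹⁻¹ * 1) 0 = (a * d - b * c) • eY1 by simp [smul_fiveVec],
      fiveAct_smul, eY1_eq, act _ _ _ _ _ _ _ _ (by ring), vecWedge_fourVec, vecWedge_fourVec,
      smul_fiveVec]
    congr 1 <;> field_simp <;> ring
  have k3 : fiveAct k eX2 = fiveVec z 0 s 0 t := by
    rw [hk, fiveAct_mul, fiveAct_torFive, hu, mul_zero, mul_zero, eX2_eq,
      act _ _ _ _ _ _ _ _ (by ring), vecWedge_fourVec]
    congr 1
    · linear_combination (a * d - b * c)⁻¹ * ez + z * inv_mul_cancel₀ hd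
    · ring
    · linear_combination (a * d - b * c)⁻¹ * es + s * inv_mul_cancel₀ hd
    · ring
    · linear_combination (a * d - b * c)⁻¹ * et + t * inv_mul_cancel₀ hd
  rw [show h = k * (k⁻¹ * h) by rw [mul_inv_cancel_left]]
  exact mul_mem (mul_mem (sp4Iso_mem g) (torFive_mem _))
    (mem_fiveSub_of_fix3 _ (fix_inv_mul h1 k1) (fix_inv_mul h2 k2) (fix_inv_mul hw k3))

/-- An isometry fixing the first basis vector. -/
theorem mem_fiveSub_of_fix1 (h : O5) (h1 : fiveAct h eX1 = eX1) : h ∈ fiveSub F := by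
  obtain ⟨z, x1, s, y1, t, hw⟩ : ∃ z x1 x2 y1 y2, fiveAct h eY1 = fiveVec z x1 x2 y1 y2 :=
    ⟨_, _, _, _, _, fiveVec_eta _⟩
  have q0 := fiveAct_quad h eY1
  have q1 := fiveAct_quad h (eY1 + eX1)
  simp only [fiveAct_add, hw, h1] at q0 q1
  simp only [fiveVec_add, quad_fiveVec] at q0 q1
  have e1 : y1 = 1 := by linear_combination q1 - q0
  subst e1
  have e2 : x1 = -(s * t) - z * z := by linear_combination q0
  subst e2
  set g := spUpper s (-z) (-t) with hg
  have act : ∀ (a b c d a' b' c' d' : F), a * c' + b * d' = c * a' + d * b' →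
      fiveAct (sp4Iso F g) (vecWedge (fourVec a b c d) (fourVec a' b' c' d')) =
        vecWedge (fourVec (a + s * c + -z * d) (b + -z * c + -t * d) c d)
          (fourVec (a' + s * c' + -z * d') (b' + -z * c' + -t * d') c' d') := by
    intro a b c d a' b' c' d' e
    rw [fiveAct_sp4Iso_vecWedge g a b c d a' b' c' d' e, hg, spUpper_mulVec, spUpper_mulVec]
  have k1 : fiveAct (sp4Iso F g) eX1 = eX1 := by
    rw [eX1_eq, act _ _ _ _ _ _ _ _ (by ring)]; simp
  have k2 : fiveAct (sp4Iso F g) eY1 = fiveVec z (-(s * t) - z * z) s 1 t := by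
    rw [eY1_eq, act _ _ _ _ _ _ _ _ (by ring), vecWedge_fourVec]
    congr 1 <;> ring
  rw [show h = sp4Iso F g * ((sp4Iso F g)⁻¹ * h) by rw [mul_inv_cancel_left]]
  exact mul_mem (sp4Iso_mem g) (mem_fiveSub_of_fix2 _ (fix_inv_mul h1 k1) (fix_inv_mul hw k2))

/-- `Sp₄` moves the first basis vector to every non-zero singular vector. -/
theorem exists_sp4Iso_move {v : V5} (hv : v ≠ 0) (hQ : Cfsg.quadFormOdd 2 F v = 0) :
    ∃ g, fiveAct (sp4Iso F g) eX1 = v := by
  obtain ⟨a, b, hli, hab, rfl⟩ := exists_vecWedge_eq hv hQ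
  have h12 : LinearIndependent F ![fourVec (1 : F) 0 0 0, fourVec 0 1 0 0] := by
    rw [LinearIndependent.pair_iff]
    intro p q h
    exact ⟨by simpa [fourVec] using congrFun h (.inl 0), by simpa [fourVec] using congrFun h (.inl 1)⟩
  have he : sympB 2 F (fourVec 1 0 0 0) (fourVec 0 1 0 0) = sympB 2 F a b := by
    rw [sympB_apply, sympB_apply, hab, sympForm_eq, Fin.sum_univ_two]
    simp [fourVec]
  obtain ⟨e, e1, e2⟩ := exists_move sympB_isAlt isForm_symp h12 hli he
  refine ⟨(spEquiv 2 F).symm e, ?_⟩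
  rw [eX1_eq, fiveAct_sp4Iso_vecWedge _ _ _ _ _ _ _ _ _ (by ring), spEquiv_symm_apply,
    spEquiv_symm_apply, e1, e2]

theorem fiveSub_eq_top : fiveSub F = ⊤ := by
  rw [eq_top_iff]
  intro h _
  have hne : fiveAct h eX1 ≠ 0 := by
    intro e
    have := congrArg (fiveAct h⁻¹) e
    rw [← fiveAct_mul, inv_mul_cancel, fiveAct_one] at this
    have h0 := congrFun this (.inr (.inl 0))
    simp [fiveAct, fiveVec] at h0
  obtain ⟨g, hg⟩ := exists_sp4Iso_move hne (by rw [fiveAct_quad, quad_fiveVec]; ring)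
  rw [show h = sp4Iso F g * ((sp4Iso F g)⁻¹ * h) by rw [mul_inv_cancel_left]]
  exact mul_mem (sp4Iso_mem g) (mem_fiveSub_of_fix1 _ (fix_inv_mul rfl hg))

/-- Conjugation by the similitude `diag(a, a, 1, 1)`. -/
def simConj (a : Fˣ) (g : Matrix.symplecticGroup (Fin 2) F) : Matrix.symplecticGroup (Fin 2) F :=
  ⟨Matrix.fromBlocks ((a : F) • 1) 0 0 1 * g.1 *
      Matrix.fromBlocks (((a⁻¹ : Fˣ) : F) • 1) 0 0 1, by
    rw [SymplecticGroup.mem_iff]
    have hg : g.1 * Matrix.J (Fin 2) F * g.1.transpose = Matrix.J (Fin 2) F :=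
      SymplecticGroup.mem_iff.1 g.2
    have h1 : ∀ b : F, Matrix.fromBlocks (b • (1 : Matrix (Fin 2) (Fin 2) F)) 0 0 1 *
        Matrix.J (Fin 2) F * (Matrix.fromBlocks (b • (1 : Matrix (Fin 2) (Fin 2) F)) 0 0 1).transpose =
        b • Matrix.J (Fin 2) F := fun b => by
      simp [Matrix.J, Matrix.fromBlocks_multiply, Matrix.fromBlocks_transpose, Matrix.fromBlocks_smul]
    rw [Matrix.transpose_mul, Matrix.transpose_mul]
    calc _ = Matrix.fromBlocks ((a : F) • 1) 0 0 1 * (g.1 *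
          (Matrix.fromBlocks (((a⁻¹ : Fˣ) : F) • 1) 0 0 1 * Matrix.J (Fin 2) F *
            (Matrix.fromBlocks (((a⁻¹ : Fˣ) : F) • (1 : Matrix (Fin 2) (Fin 2) F)) 0 0 1).transpose) *
          g.1.transpose) * (Matrix.fromBlocks ((a : F) • (1 : Matrix (Fin 2) (Fin 2) F)) 0 0 1).transpose := by
          simp only [Matrix.mul_assoc]
      _ = _ := by
          rw [h1, Matrix.mul_smul, Matrix.smul_mul, hg, Matrix.mul_smul, Matrix.smul_mul, h1, smul_smul,
            Units.inv_mul, one_smul]⟩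

theorem torFive_conj (a : Fˣ) (g : Matrix.symplecticGroup (Fin 2) F) :
    torFive a * sp4Iso F g = sp4Iso F (simConj a g) * torFive a := by
  refine fiveAct_ext fun v => ?_
  rw [fiveAct_mul, fiveAct_mul, fiveAct_sp4Iso, fiveAct_sp4Iso]
  set C : Matrix (Fin 4) (Fin 4) F := Matrix.diagonal ![(a : F), a, 1, 1] with hC
  have hout : ∀ p : Fin 6 → F,
      fiveAct (torFive a) (fiveOut p) = (a : F)⁻¹ • fiveOut (wedge C p) := fun p => by
    conv_lhs => rw [fiveVec_eta (fiveOut p), fiveAct_torFive]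
    funext i
    rcases i with ⟨⟩ | i | i <;> (try fin_cases i) <;>
      simp [fiveOut, fiveVec, wedge, Cfsg.Agent.Linear.altMat, Cfsg.Agent.Linear.altCo, hC,
        Matrix.diagonal_transpose] <;> field_simp
  have hin : fiveIn (fiveAct (torFive a) v) = (a : F)⁻¹ • wedge C (fiveIn v) := by
    conv_lhs => rw [fiveVec_eta v, fiveAct_torFive]
    funext i
    fin_cases i <;>
      simp [fiveIn, fiveVec, wedge, Cfsg.Agent.Linear.altMat, Cfsg.Agent.Linear.altCo, hC,
        Matrix.diagonal_transpose] <;> field_simp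
  have hG : (sp4Mat (simConj a g)).1 * C = C * (sp4Mat g).1 := by
    have e : C = Matrix.reindexAlgEquiv F F (finSumFinEquiv : Fin 2 ⊕ Fin 2 ≃ Fin (2 + 2))
        (Matrix.fromBlocks ((a : F) • (1 : Matrix (Fin 2) (Fin 2) F)) 0 0 1) := by
      ext i j
      fin_cases i <;> fin_cases j <;>
        simp [hC, finSumFinEquiv, Fin.addCases, Matrix.coe_reindexAlgEquiv]
    show Matrix.reindexAlgEquiv F F finSumFinEquiv _ * _ = _ * Matrix.reindexAlgEquiv F F finSumFinEquiv _
    rw [e, ← map_mul, ← map_mul]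
    congr 1
    show Matrix.fromBlocks ((a : F) • 1) 0 0 1 * g.1 *
      Matrix.fromBlocks (((a⁻¹ : Fˣ) : F) • 1) 0 0 1 * _ = _
    rw [Matrix.mul_assoc, Matrix.fromBlocks_multiply]
    simp [smul_smul]
  show fiveAct (torFive a) (fiveOut (wedge (sp4Mat g).1 (fiveIn v))) =
    fiveOut (wedge (sp4Mat (simConj a g)).1 (fiveIn (fiveAct (torFive a) v)))
  rw [hout, hin, map_smul, map_smul]
  congr 2
  show (wedge C * wedge (sp4Mat g).1) (fiveIn v) = (wedge (sp4Mat (simConj a g)).1 * wedge C) (fiveIn v)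
  rw [← wedge_mul, ← wedge_mul, hG]

theorem sp4Iso_range_normal : (sp4Iso F).range.Normal := by
  have h : fiveSub F ≤ Subgroup.normalizer ((sp4Iso F).range : Set O5) := by
    refine sup_le Subgroup.le_normalizer ((Subgroup.closure_le _).2 ?_)
    have key : ∀ (a : Fˣ) (x : O5), x ∈ (sp4Iso F).range → torFive a * x * (torFive a)⁻¹ ∈ (sp4Iso F).range := by
      rintro a _ ⟨g, rfl⟩
      exact ⟨simConj a g, by rw [torFive_conj, mul_inv_cancel_right]⟩
    rintro x (⟨a, rfl⟩ | rfl)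
    · refine Subgroup.mem_normalizer_iff.2 fun x => ⟨key a x, fun hx => ?_⟩
      have hinv : torFive a⁻¹ * torFive a = (1 : O5) := by
        refine fiveAct_ext fun v => ?_
        rw [fiveAct_mul, fiveVec_eta v, fiveAct_torFive, fiveAct_torFive, fiveAct_one]
        congr 1 <;> simp
      have := key a⁻¹ _ hx
      rwa [← mul_assoc, ← mul_assoc, hinv, one_mul, eq_inv_of_mul_eq_one_left hinv, inv_inv,
        inv_mul_cancel_right] at this
    · have hc : ∀ x : O5, negFive F * x = x * negFive F := fun x => fiveAct_ext fun v => by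
        rw [fiveAct_mul, fiveAct_mul, fiveAct_negFive, fiveAct_negFive, ← neg_one_smul F v,
          fiveAct_smul, neg_one_smul]
      refine Subgroup.mem_normalizer_iff.2 fun x => ?_
      rw [hc, mul_inv_cancel_right]
  rw [fiveSub_eq_top, top_le_iff] at h
  exact Subgroup.normalizer_eq_top_iff.1 h

theorem torGroup_comm : IsMulCommutative (torGroup F) := by
  refine Subgroup.isMulCommutative_closure ?_
  rintro x (⟨a, rfl⟩ | rfl) y (⟨b, rfl⟩ | rfl)
  all_goals refine fiveAct_ext fun v => ?_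
  all_goals rw [fiveVec_eta v]
  all_goals simp [fiveAct_mul, fiveAct_torFive, fiveAct_negFive, neg_fiveVec, mul_left_comm]

theorem omega_le_range : Cfsg.Omega F (Cfsg.quadFormOdd 2 F) ≤ (sp4Iso F).range := by
  have := sp4Iso_range_normal (F := F)
  refine Subgroup.Normal.quotient_commutative_iff_commutator_le.1 ⟨⟨fun x y => ?_⟩⟩
  have hsur : ∀ z : O5 ⧸ (sp4Iso F).range, ∃ w ∈ torGroup F, QuotientGroup.mk w = z := fun z => by
    obtain ⟨w, rfl⟩ := QuotientGroup.mk_surjective z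
    have hw : w ∈ fiveSub F := by rw [fiveSub_eq_top]; trivial
    rw [fiveSub, ← SetLike.mem_coe, Subgroup.normal_mul] at hw
    obtain ⟨r, hr, t, ht, rfl⟩ := hw
    exact ⟨t, ht, by rw [QuotientGroup.mk_mul, (QuotientGroup.eq_one_iff r).2 hr, one_mul]⟩
  obtain ⟨u, hu, rfl⟩ := hsur x
  obtain ⟨v, hv, rfl⟩ := hsur y
  have := torGroup_comm (F := F)
  show QuotientGroup.mk (u * v) = QuotientGroup.mk (v * u)
  exact congrArg _ (congrArg Subtype.val (mul_comm' (⟨u, hu⟩ : torGroup F) ⟨v, hv⟩))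

/-- `PΩ₅(F) ≅ PSp₄(F)`. -/
theorem pomega_five_any (hF : ∃ a : F, a ≠ 0 ∧ a ≠ 1) :
    Nonempty (Cfsg.PSp 2 F ≃* Cfsg.POmega F (Cfsg.quadFormOdd 2 F)) := by
  have hn : Module.finrank F (Fin 2 ⊕ Fin 2 → F) = 4 := by simp
  have h' : commutator (altGroup (sympB 2 F)) = ⊤ :=
    alt_perfect sympB_isAlt isForm_symp (Or.inr ⟨hn.ge, Or.inr hF⟩)
  have hsimp : IsSimpleGroup (Cfsg.PSp 2 F) := by
    have : Nonempty (Fin 2) := ⟨0⟩
    have := alt_simple sympB_isAlt isForm_symp h'
    exact (centerQuotientCongr (spEquiv 2 F)).isSimpleGroup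
  have hperf : commutator (Matrix.symplecticGroup (Fin 2) F) = ⊤ := by
    have hmap := Subgroup.map_commutator (⊤ : Subgroup (Matrix.symplecticGroup (Fin 2) F)) ⊤
      (spEquiv 2 F).toMonoidHom
    rw [Subgroup.map_top_of_surjective (spEquiv 2 F).toMonoidHom (spEquiv 2 F).surjective, ← commutator_def,
      ← commutator_def, h'] at hmap
    exact Subgroup.map_injective (spEquiv 2 F).injective
      (hmap.trans (Subgroup.map_top_of_surjective (spEquiv 2 F).toMonoidHom (spEquiv 2 F).surjective).symm)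
  set φ := sp4Iso F
  have hkerle : φ.ker ≤ Subgroup.center (Matrix.symplecticGroup (Fin 2) F) := by
    have hn' := Subgroup.Normal.map (inferInstance : φ.ker.Normal)
      (QuotientGroup.mk' (Subgroup.center (Matrix.symplecticGroup (Fin 2) F)))
      (QuotientGroup.mk'_surjective _)
    rcases hn'.eq_bot_or_eq_top with h | h
    · rwa [Subgroup.map_eq_bot_iff, QuotientGroup.ker_mk'] at h
    · exfalso
      have htop : φ.ker = ⊤ := by
        refine top_le_iff.1 ?_
        rw [← hperf, commutator_def, Subgroup.commutator_le]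
        intro x _ y _
        have hx : ∀ x, ∃ k ∈ φ.ker, ∃ c ∈ Subgroup.center (Matrix.symplecticGroup (Fin 2) F), x = k * c := by
          intro x
          obtain ⟨k, hk, hkx⟩ : (QuotientGroup.mk x) ∈
              φ.ker.map (QuotientGroup.mk' (Subgroup.center (Matrix.symplecticGroup (Fin 2) F))) := by
            rw [h]; trivial
          exact ⟨k, hk, k⁻¹ * x, QuotientGroup.eq.1 hkx, by rw [mul_inv_cancel_left]⟩
        obtain ⟨k, hk, c, hc, rfl⟩ := hx x
        obtain ⟨l, hl, e, he, rfl⟩ := hx y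
        rw [MonoidHom.mem_ker, map_commutatorElement, map_mul, map_mul, MonoidHom.mem_ker.1 hk,
          MonoidHom.mem_ker.1 hl, one_mul, one_mul, ← map_commutatorElement,
          commutatorElement_eq_one_iff_mul_comm.2 (Subgroup.mem_center_iff.1 hc e).symm, map_one]
      obtain ⟨g, hg⟩ := exists_sp4Iso_move (F := F) (v := eY1)
        (fun h => by simpa [fiveVec] using congrFun h (.inr (.inr 0))) (by rw [quad_fiveVec]; ring)
      have : φ g = 1 := MonoidHom.mem_ker.1 (htop ▸ Subgroup.mem_top g)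
      rw [show sp4Iso F g = 1 from this, fiveAct_one] at hg
      simpa [fiveVec] using congrFun hg (.inr (.inr 0))
  have hrange : φ.range ≤ Cfsg.Omega F (Cfsg.quadFormOdd 2 F) := range_le_omega_of_perfect φ hperf
  let ψ : Matrix.symplecticGroup (Fin 2) F →* Cfsg.Omega F (Cfsg.quadFormOdd 2 F) :=
    φ.codRestrict _ fun g => hrange ⟨g, rfl⟩
  have hψ : Function.Surjective ψ := by
    rintro ⟨y, hy⟩
    obtain ⟨g, hg⟩ := omega_le_range hy
    exact ⟨g, Subtype.ext hg⟩
  let π : Matrix.symplecticGroup (Fin 2) F →* Cfsg.POmega F (Cfsg.quadFormOdd 2 F) :=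
    (QuotientGroup.mk' _).comp ψ
  have hπ : π.ker = Subgroup.center (Matrix.symplecticGroup (Fin 2) F) := by
    ext x
    rw [MonoidHom.mem_ker]
    change QuotientGroup.mk' (Subgroup.center (Cfsg.Omega F (Cfsg.quadFormOdd 2 F))) (ψ x) = 1 ↔ _
    rw [QuotientGroup.mk'_apply, QuotientGroup.eq_one_iff]
    constructor
    · intro hx
      refine central_of_commutator_mem hperf hkerle x fun g => ?_
      rw [MonoidHom.mem_ker]
      have h1 : ⁅ψ x, ψ g⁆ = 1 :=
        commutatorElement_eq_one_iff_mul_comm.2 (Subgroup.mem_center_iff.1 hx _).symm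
      rw [← map_commutatorElement] at h1
      exact congrArg Subtype.val h1
    · intro hx
      rw [Subgroup.mem_center_iff]
      intro y
      obtain ⟨g, rfl⟩ := hψ y
      rw [← map_mul, ← map_mul, Subgroup.mem_center_iff.1 hx g]
  exact ⟨(QuotientGroup.quotientMulEquivOfEq hπ.symm).trans
    (QuotientGroup.quotientKerEquivOfSurjective π ((QuotientGroup.mk'_surjective _).comp hψ))⟩

end Cfsg.Agent.Forms
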