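import Cfsg.Agent.Linear.POmega5
import Cfsg.Agent.Forms.SpFourRoots

/-!
`Sp₄(F)` in the orthogonal group of the five-space, over any field: images of decomposable vectors and
the decomposition of singular vectors.
-/

set_option autoImplicit false

namespace Cfsg.Agent.Forms

open Matrix
open Cfsg.Agent.Linear (fiveIn fiveOut fiveIn_fiveOut fiveOut_fiveIn altMat altCo altMat_altCo altCo_altMat
  wedge wedge_apply altMat_wedge sp4Mat sp4Rep wedge_perp fiveIn_perp pfaff quadFormOdd_two_eq)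

variable {F : Type*} [Field F]

local notation "V4" => (Fin 2 ⊕ Fin 2 → F)
local notation "V5" => (Unit ⊕ (Fin 2 ⊕ Fin 2) → F)

/-- A vector of the five-space from its coordinates. -/
def fiveVec (z x1 x2 y1 y2 : F) : V5 := Sum.elim (fun _ => z) (Sum.elim ![x1, x2] ![y1, y2])

omit [Field F] in
theorem fiveVec_eta (v : V5) :
    v = fiveVec (v (.inl ())) (v (.inr (.inl 0))) (v (.inr (.inl 1))) (v (.inr (.inr 0)))
      (v (.inr (.inr 1))) := by
  funext i
  rcases i with ⟨⟩ | i | i <;> (try fin_cases i) <;> rfl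

theorem quad_fiveVec (z x1 x2 y1 y2 : F) :
    Cfsg.quadFormOdd 2 F (fiveVec z x1 x2 y1 y2) = z ^ 2 + x1 * y1 + x2 * y2 := by
  simp [Cfsg.quadFormOdd, fiveVec, Fin.sum_univ_two, add_assoc]

theorem fiveVec_add (z x1 x2 y1 y2 z' x1' x2' y1' y2' : F) :
    fiveVec z x1 x2 y1 y2 + fiveVec z' x1' x2' y1' y2' =
      fiveVec (z + z') (x1 + x1') (x2 + x2') (y1 + y1') (y2 + y2') := by
  funext i
  rcases i with ⟨⟩ | i | i <;> (try fin_cases i) <;> simp [fiveVec]

theorem smul_fiveVec (a z x1 x2 y1 y2 : F) :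
    a • fiveVec z x1 x2 y1 y2 = fiveVec (a * z) (a * x1) (a * x2) (a * y1) (a * y2) := by
  funext i
  rcases i with ⟨⟩ | i | i <;> (try fin_cases i) <;> simp [fiveVec]

/-- A vector of the four-space on four points. -/
def fourFin (a : V4) : Fin 4 → F := ![a (.inl 0), a (.inl 1), a (.inr 0), a (.inr 1)]

theorem sp4Mat_mulVec_fourFin (g : Matrix.symplecticGroup (Fin 2) F) (a : V4) :
    (sp4Mat g).1 *ᵥ fourFin a = fourFin (g.1 *ᵥ a) := by
  have e : ∀ x : V4, fourFin x = x ∘ finSumFinEquiv.symm := fun x => by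
    funext i; fin_cases i <;> rfl
  show Matrix.reindexAlgEquiv F F finSumFinEquiv g.1 *ᵥ fourFin a = fourFin (g.1 *ᵥ a)
  rw [e, e, Matrix.coe_reindexAlgEquiv, Matrix.reindex_apply, Matrix.submatrix_mulVec_equiv]
  simp [Function.comp_assoc]

/-- The six coordinates of `a ∧ b`. -/
def wedgeCo (a b : V4) : Fin 6 → F :=
  altCo (Matrix.vecMulVec (fourFin a) (fourFin b) - Matrix.vecMulVec (fourFin b) (fourFin a))

theorem altMat_wedgeCo (a b : V4) : altMat (wedgeCo a b) =
    Matrix.vecMulVec (fourFin a) (fourFin b) - Matrix.vecMulVec (fourFin b) (fourFin a) := by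
  refine altMat_altCo (fun i j => ?_) fun i => ?_ <;> simp [Matrix.vecMulVec_apply] <;> ring

theorem wedge_wedgeCo (g : Matrix.symplecticGroup (Fin 2) F) (a b : V4) :
    wedge (sp4Mat g).1 (wedgeCo a b) = wedgeCo (g.1 *ᵥ a) (g.1 *ᵥ b) := by
  rw [wedge_apply, altMat_wedgeCo, wedgeCo, ← sp4Mat_mulVec_fourFin, ← sp4Mat_mulVec_fourFin,
    Matrix.mul_sub, Matrix.sub_mul, Matrix.mul_vecMulVec, Matrix.vecMulVec_mul, Matrix.mul_vecMulVec,
    Matrix.vecMulVec_mul, Matrix.vecMul_transpose, Matrix.vecMul_transpose]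

theorem wedgeCo_perp (a b : V4) : wedgeCo a b 1 + wedgeCo a b 4 = -Cfsg.sympForm 2 F a b := by
  rw [sympForm_eq, Fin.sum_univ_two]
  simp [wedgeCo, altCo, fourFin]
  ring

/-- `a ∧ b` in the five-space. -/
def vecWedge (a b : V4) : V5 := fiveOut (wedgeCo a b)

theorem vecWedge_fourVec (a b c d a' b' c' d' : F) :
    vecWedge (fourVec a b c d) (fourVec a' b' c' d') =
      fiveVec (a * c' - a' * c) (a * b' - a' * b) (a * d' - a' * d) (c * d' - c' * d)
        (b * c' - b' * c) := by
  funext i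
  rcases i with ⟨⟩ | i | i <;> (try fin_cases i) <;>
    simp [vecWedge, fiveOut, wedgeCo, altCo, fourFin, fiveVec, fourVec]

theorem sp4Rep_vecWedge (g : Matrix.symplecticGroup (Fin 2) F) {a b : V4}
    (h : Cfsg.sympForm 2 F a b = 0) :
    sp4Rep g (vecWedge a b) = vecWedge (g.1 *ᵥ a) (g.1 *ᵥ b) := by
  show fiveOut (wedge (sp4Mat g).1 (fiveIn (fiveOut (wedgeCo a b)))) = _
  rw [fiveIn_fiveOut (by rw [wedgeCo_perp, h, neg_zero]), wedge_wedgeCo]
  rfl

set_option maxHeartbeats 1600000 in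
theorem plucker {p : Fin 6 → F} (hp : pfaff p = 0) (i j x y : Fin 4) :
    altMat p i j * altMat p x y - altMat p i x * altMat p j y + altMat p i y * altMat p j x = 0 := by
  unfold pfaff at hp
  fin_cases i <;> fin_cases j <;> fin_cases x <;> fin_cases y <;> simp [altMat] <;>
    first
      | ring1
      | linear_combination hp
      | linear_combination -hp

/-- A non-zero singular vector is the wedge of an independent isotropic pair. -/
theorem exists_vecWedge_eq {v : V5} (hv : v ≠ 0) (hQ : Cfsg.quadFormOdd 2 F v = 0) :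
    ∃ a b : V4, LinearIndependent F ![a, b] ∧ Cfsg.sympForm 2 F a b = 0 ∧ vecWedge a b = v := by
  rw [quadFormOdd_two_eq] at hQ
  set p := fiveIn v with hp
  have hp0 : p ≠ 0 := fun h => hv (by rw [← fiveOut_fiveIn v, ← hp, h, map_zero])
  obtain ⟨i, j, hij⟩ : ∃ i j, altMat p i j ≠ 0 := by
    by_contra hc
    push Not at hc
    refine hp0 ?_
    rw [← altCo_altMat p, show altMat p = 0 from Matrix.ext fun i j => hc i j, map_zero]
  set M := altMat p with hM
  have hskew : ∀ x y, M y x = -M x y := fun x y => by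
    fin_cases x <;> fin_cases y <;> simp [hM, altMat]
  let a : V4 := Sum.elim ![M i 0, M i 1] ![M i 2, M i 3]
  let b : V4 := Sum.elim ![(M i j)⁻¹ * M j 0, (M i j)⁻¹ * M j 1]
    ![(M i j)⁻¹ * M j 2, (M i j)⁻¹ * M j 3]
  have ha : ∀ x, fourFin a x = M i x := fun x => by fin_cases x <;> rfl
  have hb : ∀ x, fourFin b x = (M i j)⁻¹ * M j x := fun x => by fin_cases x <;> rfl
  have hco : wedgeCo a b = p := by
    rw [← altCo_altMat p, ← hM, wedgeCo]
    congr 1
    ext x y
    have h := plucker hQ i j x y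
    rw [← hM] at h
    simp only [Matrix.sub_apply, Matrix.vecMulVec_apply, ha, hb]
    field_simp
    linear_combination -h
  have hperp : Cfsg.sympForm 2 F a b = 0 := by
    have h := wedgeCo_perp a b
    rw [hco, hp, fiveIn_perp, eq_comm, neg_eq_zero] at h
    exact h
  refine ⟨a, b, ?_, hperp, by rw [vecWedge, hco, hp, fiveOut_fiveIn]⟩
  have hsmul : ∀ (c : F) (w : V4), fourFin (c • w) = c • fourFin w := fun c w => by
    funext x; fin_cases x <;> simp [fourFin]
  by_contra hli
  refine hp0 (hco ▸ ?_)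
  rw [LinearIndependent.pair_iff] at hli
  push Not at hli
  obtain ⟨s, t, hst, hne⟩ := hli
  by_cases ht : t = 0
  · subst ht
    have hs : s ≠ 0 := fun h => hne h rfl
    simp only [zero_smul, add_zero, smul_eq_zero, hs, false_or] at hst
    simp [wedgeCo, hst, fourFin, altCo]
  · have : b = (-(s / t)) • a := by
      have := congrArg (fun w => t⁻¹ • w) hst
      simp only [smul_add, smul_smul, inv_mul_cancel₀ ht, one_smul, smul_zero] at this
      rw [neg_smul, eq_neg_iff_add_eq_zero, add_comm, div_eq_inv_mul]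
      exact this
    rw [this, wedgeCo, hsmul, Matrix.vecMulVec_smul, Matrix.smul_vecMulVec, sub_self, map_zero]

end Cfsg.Agent.Forms
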