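import Cfsg.Agent.Forms.PermModule

/-!
# The symmetric group in the symplectic group over the field with two elements
-/

set_option autoImplicit false
set_option linter.unusedSectionVars false

namespace Cfsg.Agent.Forms

open Module

variable {m : ℕ}

/-- The pair `{2k, 2k+1}`. -/
def pairVec (k : Fin m) : Fin (2 * (m + 1)) → ZMod 2 :=
  Pi.single ⟨2 * k, by omega⟩ 1 + Pi.single ⟨2 * k + 1, by omega⟩ 1

/-- The interval up to `2k`, and the last point. -/
def prefVec (k : Fin m) : Fin (2 * (m + 1)) → ZMod 2 :=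
  fun i => (if (i : ℕ) < 2 * k + 1 then 1 else 0) + (if (i : ℕ) = 2 * m + 1 then 1 else 0)

theorem dot_pairVec (k : Fin m) (v : Fin (2 * (m + 1)) → ZMod 2) :
    pairVec k ⬝ᵥ v = v ⟨2 * k, by omega⟩ + v ⟨2 * k + 1, by omega⟩ := by
  simp [pairVec, add_dotProduct]

theorem two_eq_zero_zmod : (2 : ZMod 2) = 0 := by decide

theorem sum_prefVec (k : Fin m) : ∑ i, prefVec k i = 0 := by
  simp only [prefVec, Finset.sum_add_distrib]
  rw [Fin.sum_univ_eq_sum_range (fun i => if i < 2 * (k : ℕ) + 1 then (1 : ZMod 2) else 0),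
    Fin.sum_univ_eq_sum_range (fun i => if i = 2 * m + 1 then (1 : ZMod 2) else 0)]
  rw [Finset.sum_boole, Finset.sum_ite_eq' (Finset.range (2 * (m + 1))) (2 * m + 1) fun _ => (1 : ZMod 2)]
  rw [if_pos (Finset.mem_range.2 (by omega)),
    show (Finset.range (2 * (m + 1))).filter (fun i => i < 2 * (k : ℕ) + 1) =
      Finset.range (2 * (k : ℕ) + 1) by
    ext i; simp only [Finset.mem_filter, Finset.mem_range]; omega]
  rw [Finset.card_range]
  push_cast
  linear_combination ((k : ℕ) : ZMod 2) * two_eq_zero_zmod + two_eq_zero_zmod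

theorem dot_pair_pair (j k : Fin m) : pairVec j ⬝ᵥ pairVec k = 0 := by
  rw [dot_pairVec]
  rcases eq_or_ne j k with rfl | h
  · simp [pairVec, two_eq_zero_zmod, one_add_one_eq_two]
  · have h' : (j : ℕ) ≠ k := fun e => h (Fin.ext e)
    simp only [pairVec, Pi.add_apply, Pi.single_apply, Fin.ext_iff]
    split_ifs <;> first | omega | simp

theorem dot_pair_pref (j k : Fin m) : pairVec j ⬝ᵥ prefVec k = if j = k then 1 else 0 := by
  rw [dot_pairVec]
  simp only [prefVec]
  have hj := j.2
  split_ifs with h1 h2 h3 h4 h5 h6 h7 <;> simp_all [Fin.ext_iff] <;> first | omega | decide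

theorem dot_pref_pref (j k : Fin m) : prefVec j ⬝ᵥ prefVec k = 0 := by
  have h : ∀ j k : Fin m, (j : ℕ) ≤ k → prefVec j ⬝ᵥ prefVec k = 0 := by
    intro j k h
    refine (Finset.sum_congr rfl fun i _ => ?_).trans (sum_prefVec j)
    simp only [prefVec]
    have hk := k.2
    split_ifs <;> simp_all <;> omega
  rcases le_total (j : ℕ) k with h' | h'
  · exact h j k h'
  · rw [dotProduct_comm]; exact h k j h'

/-- The embedding of the symplectic space. -/
def sympEmb (m : ℕ) : (Fin m ⊕ Fin m → ZMod 2) →ₗ[ZMod 2] (Fin (2 * (m + 1)) → ZMod 2) where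
  toFun a := (∑ k, a (.inl k) • pairVec k) + ∑ k, a (.inr k) • prefVec k
  map_add' a b := by simp only [Pi.add_apply, add_smul, Finset.sum_add_distrib]; abel
  map_smul' c a := by
    simp only [Pi.smul_apply, smul_eq_mul, mul_smul, RingHom.id_apply, smul_add, Finset.smul_sum]

/-- The projection to the symplectic space. -/
def sympProj (m : ℕ) : (Fin (2 * (m + 1)) → ZMod 2) →ₗ[ZMod 2] (Fin m ⊕ Fin m → ZMod 2) where
  toFun v := Sum.elim (fun k => prefVec k ⬝ᵥ v) (fun k => pairVec k ⬝ᵥ v)
  map_add' v w := by funext j; rcases j with k | k <;> simp [dotProduct_add]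
  map_smul' c v := by funext j; rcases j with k | k <;> simp [dotProduct_smul]

theorem pairVec_dot_emb (k : Fin m) (a : Fin m ⊕ Fin m → ZMod 2) :
    pairVec k ⬝ᵥ sympEmb m a = a (.inr k) := by
  simp [sympEmb, dotProduct_add, dotProduct_sum, dotProduct_smul, dot_pair_pair, dot_pair_pref]

theorem prefVec_dot_emb (k : Fin m) (a : Fin m ⊕ Fin m → ZMod 2) :
    prefVec k ⬝ᵥ sympEmb m a = a (.inl k) := by
  simp [sympEmb, dotProduct_add, dotProduct_sum, dotProduct_smul, dot_pref_pref,
    dotProduct_comm (prefVec k) (pairVec _), dot_pair_pref]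

/-- The section for `S_{2m+2}`. -/
def sympSection (m : ℕ) : PermSection (Fin m ⊕ Fin m) (2 * (m + 1)) where
  emb := sympEmb m
  proj := sympProj m
  proj_emb a := by
    funext j
    rcases j with k | k
    · exact prefVec_dot_emb k a
    · exact pairVec_dot_emb k a
  emb_even a := by
    simp only [sympEmb, LinearMap.coe_mk, AddHom.coe_mk, Pi.add_apply, Finset.sum_apply,
      Pi.smul_apply, smul_eq_mul, Finset.sum_add_distrib]
    rw [Finset.sum_comm]
    conv_lhs => arg 2; rw [Finset.sum_comm]
    simp only [← Finset.mul_sum, sum_prefVec]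
    simp [pairVec, Finset.sum_add_distrib, one_add_one_eq_two, two_eq_zero_zmod]
  proj_one := by
    funext j
    rcases j with k | k
    · exact (dotProduct_one _).trans (sum_prefVec k)
    · show pairVec k ⬝ᵥ 1 = 0
      rw [dot_pairVec]
      simp [one_add_one_eq_two, two_eq_zero_zmod]
  proj_ker v hv hπ := by
    set c := v ⟨2 * m + 1, by omega⟩ with hc
    have hp : ∀ k : Fin m, v ⟨2 * k + 1, by omega⟩ = v ⟨2 * k, by omega⟩ := by
      intro k
      have h : v ⟨2 * k, by omega⟩ + v ⟨2 * k + 1, by omega⟩ = 0 := by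
        rw [← dot_pairVec]; exact congrFun hπ (Sum.inr k)
      rw [eq_comm, ← sub_eq_zero, CharTwo.sub_eq_add, h]
    let w : ℕ → ZMod 2 := fun i => if h : i < 2 * (m + 1) then v ⟨i, h⟩ else 0
    have hpair : ∀ k, k ≤ m → ∑ i ∈ Finset.range (2 * k), w i = 0 := by
      intro k
      induction k with
      | zero => simp
      | succ k ih =>
        intro hk
        rw [show 2 * (k + 1) = 2 * k + 1 + 1 by omega, Finset.sum_range_succ, Finset.sum_range_succ,
          ih (by omega), zero_add]
        have := hp ⟨k, by omega⟩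
        simp only [w]
        rw [dif_pos (by omega), dif_pos (by omega)]
        simp only at this
        rw [this, CharTwo.add_self_eq_zero]
    have hsplit : ∀ i : Fin (2 * (m + 1)), v i = w i := fun i => by
      simp only [w]; rw [dif_pos i.2]
    have heven : ∀ k, k ≤ m → w (2 * k) = c := by
      intro k hk
      rcases Nat.lt_or_eq_of_le hk with hk' | hk'
      · have h : prefVec ⟨k, hk'⟩ ⬝ᵥ v = 0 := congrFun hπ (Sum.inl ⟨k, hk'⟩)
        simp only [dotProduct, prefVec, add_mul, Finset.sum_add_distrib, ite_mul, one_mul, zero_mul,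
          hsplit] at h
        rw [Fin.sum_univ_eq_sum_range (fun i => if i < 2 * k + 1 then w i else 0),
          Fin.sum_univ_eq_sum_range (fun i => if i = 2 * m + 1 then w i else 0)] at h
        rw [Finset.sum_ite_eq' (Finset.range (2 * (m + 1))) (2 * m + 1) w,
          if_pos (Finset.mem_range.2 (by omega)), ← Finset.sum_filter,
          show (Finset.range (2 * (m + 1))).filter (fun i => i < 2 * k + 1) =
            Finset.range (2 * k + 1) by
          ext i; simp only [Finset.mem_filter, Finset.mem_range]; omega,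
          Finset.sum_range_succ, hpair k hk, zero_add, CharTwo.add_eq_zero] at h
        rw [h, hc, hsplit]
      · subst hk'
        have h : ∑ i ∈ Finset.range (2 * (k + 1)), w i = 0 := by
          rw [← Fin.sum_univ_eq_sum_range w]
          simpa [← hsplit] using hv
        rw [show 2 * (k + 1) = 2 * k + 1 + 1 by omega, Finset.sum_range_succ, Finset.sum_range_succ,
          hpair k le_rfl, zero_add, CharTwo.add_eq_zero] at h
        rw [h, hc, hsplit]
    refine ⟨c, funext fun i => ?_⟩
    rw [Pi.smul_apply, Pi.one_apply, smul_eq_mul, mul_one]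
    rcases Nat.even_or_odd (i : ℕ) with ⟨k, hk⟩ | ⟨k, hk⟩
    · rw [hsplit, hk, ← two_mul, heven k (by omega)]
    · rcases Nat.lt_or_ge k m with hkm | hkm
      · have := hp ⟨k, hkm⟩
        rw [hsplit, hsplit] at this
        rw [hsplit, hk, this, heven k hkm.le]
      · rw [hc]
        congr 1
        exact Fin.ext (by simp only; omega)

theorem sympB_eq_dot (a b : Fin m ⊕ Fin m → ZMod 2) :
    sympB m (ZMod 2) a b = (sympSection m).emb a ⬝ᵥ (sympSection m).emb b := by
  rw [sympB_apply, sympForm_eq]
  change _ = sympEmb m a ⬝ᵥ sympEmb m b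
  conv_rhs => rw [show sympEmb m a = (∑ k, a (.inl k) • pairVec k) + ∑ k, a (.inr k) • prefVec k from rfl]
  simp only [add_dotProduct, sum_dotProduct, smul_dotProduct, pairVec_dot_emb, prefVec_dot_emb,
    smul_eq_mul, ← Finset.sum_add_distrib]
  exact Finset.sum_congr rfl fun i _ => by rw [CharTwo.sub_eq_add, add_comm]

/-- `S_{2m+2}` embeds in `Sp_{2m}(2)`. -/
theorem exists_perm_to_symplectic (hm : 2 ≤ m) :
    ∃ f : Equiv.Perm (Fin (2 * (m + 1))) →* Matrix.symplecticGroup (Fin m) (ZMod 2),
      Function.Injective f := by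
  let S := sympSection m
  have hmem : ∀ σ, S.repHom σ ∈ isomGroup (sympB m (ZMod 2)) (fun _ => 0) := fun σ =>
    (mem_isomGroup_symp_iff _).2 fun u v => by
      have h := S.repHom_preserves_bilin
        (by push_cast; rw [two_eq_zero_zmod, zero_mul]) (fun x y => sympB m (ZMod 2) x y)
        sympB_eq_dot σ u v
      simpa using h
  refine ⟨(spEquiv m (ZMod 2)).symm.toMonoidHom.comp (S.repHom.codRestrict _ hmem), ?_⟩
  intro σ τ h
  have h1 := (spEquiv m (ZMod 2)).symm.injective h
  exact S.repHom_injective (by omega) (congrArg Subtype.val h1)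

end Cfsg.Agent.Forms
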