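import Cfsg.Agent.Forms.SUThreeRegGen
import Cfsg.Agent.Forms.UnitaryOrder
import Cfsg.Agent.Linear.SU2

/-!
# The stabiliser of an isotropic point in `SU₃(q)`
-/

set_option autoImplicit false

namespace Cfsg.Agent.Forms.SUThree.MinIdx

open Cfsg.Agent.KnownA
open Cfsg.Agent.Forms (frobQ isoPts)
open scoped LinearAlgebra.Projectivization

variable {F : Type*} [Field F] [Fintype F] {q : ℕ} (hF : Fintype.card F = q ^ 2)
include hF

local notation "B" => ub hF
local notation "σ" => frobQ hF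

theorem q_ne_zero : q ≠ 0 := by have := Forms.two_le_q hF; omega

theorem sig_ne_zero {t : F} (ht : t ≠ 0) : σ t ≠ 0 := fun h => ht ((map_eq_zero _).1 h)

/-- Admissible parameters. -/
def Adm (a c : F) : Prop := c + σ c = -(σ a * a)

theorem adm_zero_iff (c : F) : Adm hF 0 c ↔ σ c = -c := by
  simp only [Adm, map_zero, zero_mul, neg_zero]
  constructor <;> intro h <;> linear_combination h

theorem adm_zero : Adm hF (0 : F) 0 := by rw [adm_zero_iff]; simp [q_ne_zero hF]

theorem adm_mul {a c b d : F} (h : Adm hF a c) (h' : Adm hF b d) : Adm hF (a + b) (c + d - σ a * b) := by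
  simp only [Adm] at h h' ⊢
  simp only [map_add, map_sub, map_mul, sig_sig hF]
  linear_combination h + h'

theorem adm_neg {a c : F} (h : Adm hF a c) : Adm hF (-a) (-c - σ a * a) := by
  simp only [Adm] at h ⊢
  simp only [map_sub, map_mul, map_neg, sig_sig hF]
  linear_combination -h

/-- The multiplier on the middle parameter. -/
noncomputable def sChar : Fˣ →* Fˣ where
  toFun t := Units.map (σ : F →* F) (t * t) / t
  map_one' := by simp
  map_mul' a b := by
    refine Units.ext ?_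
    simp only [Units.val_div_eq_div_val, Units.coe_map, Units.val_mul, MonoidHom.coe_coe, map_mul]
    field_simp

theorem sChar_coe (t : Fˣ) : (sChar hF t : F) = σ t * σ t / t := by
  simp [sChar, map_mul]

theorem sChar_norm (t : Fˣ) :
    (sChar hF t : F) * σ (sChar hF t : F) = (t : F) * σ t := by
  have ht := t.ne_zero
  have hst := sig_ne_zero hF ht
  rw [sChar_coe, map_div₀, map_mul, sig_sig hF]
  field_simp

theorem card_skew : Nat.card {c : F // σ c = -c} = q := by
  classical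
  obtain ⟨a, ha⟩ := exists_kap_ne_zero hF
  set c₁ := kap hF a with hc₁
  have h1 : σ c₁ = -c₁ := by linear_combination kap_trace hF a
  refine Eq.trans (Nat.card_congr ?_) (Linear.card_fixedQ hF)
  exact
    { toFun := fun c => ⟨c.1 / c₁, by
        rw [Linear.mem_fixedQ, map_div₀, c.2, h1, neg_div_neg_eq]⟩
      invFun := fun k => ⟨k.1 * c₁, by
        rw [map_mul, (Linear.mem_fixedQ hF).1 k.2, h1, mul_neg]⟩
      left_inv := fun c => Subtype.ext (div_mul_cancel₀ _ ha)
      right_inv := fun k => Subtype.ext (mul_div_cancel_right₀ _ ha) }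

theorem card_adm : Nat.card {p : F × F // Adm hF p.1 p.2} = q ^ 3 := by
  classical
  obtain ⟨t, ht⟩ := exists_trace_one hF
  have e : {p : F × F // Adm hF p.1 p.2} ≃ F × {c : F // σ c = -c} :=
    { toFun := fun p => (p.1.1, ⟨p.1.2 + t * (σ p.1.1 * p.1.1), by
        have h := p.2
        simp only [Adm] at h
        simp only [map_add, map_mul, sig_sig hF]
        linear_combination h + (σ p.1.1 * p.1.1) * ht⟩)
      invFun := fun x => ⟨(x.1, x.2.1 - t * (σ x.1 * x.1)), by
        have h := x.2.2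
        simp only [Adm, map_sub, map_mul, sig_sig hF]
        linear_combination h - (σ x.1 * x.1) * ht⟩
      left_inv := fun p => Subtype.ext (Prod.ext rfl (by simp))
      right_inv := fun x => Prod.ext rfl (Subtype.ext (by simp)) }
  rw [Nat.card_congr e, Nat.card_prod, card_skew hF, Nat.card_eq_fintype_card, hF]
  ring

omit hF in
theorem act_ne_zero (g : Cfsg.SU 3 F q) {v : Fin 3 → F} (hv : v ≠ 0) : act g v ≠ 0 := fun h =>
  hv (act_inj g (by rw [h, map_zero]))

/-- The stabiliser of a line. -/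
def bor (_hF : Fintype.card F = q ^ 2) (e : Fin 3 → F) : Subgroup (Cfsg.SU 3 F q) where
  carrier := {g | ∃ t : Fˣ, act g e = (t : F) • e}
  one_mem' := ⟨1, by rw [act_one, Units.val_one, one_smul]; rfl⟩
  mul_mem' := by
    rintro g h ⟨t, ht⟩ ⟨s, hs⟩
    exact ⟨t * s, by rw [act_mul_apply, hs, map_smul, ht, smul_smul, Units.val_mul, mul_comm]⟩
  inv_mem' := by
    rintro g ⟨t, ht⟩
    refine ⟨t⁻¹, act_inj g ?_⟩
    rw [← act_mul_apply, mul_inv_cancel, act_one, map_smul, ht, smul_smul, Units.val_inv_eq_inv_val,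
      inv_mul_cancel₀ t.ne_zero, one_smul]
    rfl

/-- The point of an isotropic vector. -/
noncomputable def pt {v : Fin 3 → F} (h0 : v ≠ 0) (h : B v v = 0) : isoPts (n := 3) hF :=
  ⟨Projectivization.mk F v h0, Forms.iso_mk_mem hF h0 h⟩

theorem pt_eq_iff {v w : Fin 3 → F} (hv0 : v ≠ 0) (hv : B v v = 0) (hw0 : w ≠ 0) (hw : B w w = 0) :
    pt hF hv0 hv = pt hF hw0 hw ↔ ∃ a : F, a • w = v := by
  rw [pt, pt, Subtype.ext_iff]
  exact Projectivization.mk_eq_mk_iff' F v w hv0 hw0

theorem exists_pt (x : isoPts (n := 3) hF) : ∃ v, ∃ h0 : v ≠ 0, ∃ h : B v v = 0, pt hF h0 h = x :=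
  ⟨x.1.rep, x.1.rep_nonzero, x.2, Subtype.ext x.1.mk_rep⟩

theorem smul_pt (g : Cfsg.SU 3 F q) {v : Fin 3 → F} (h0 : v ≠ 0) (h : B v v = 0) :
    g • pt hF h0 h = pt hF (act_ne_zero g h0) (by rw [act_ub hF, h]) := Subtype.ext rfl

theorem smul_pt_eq (g : Cfsg.SU 3 F q) {v w : Fin 3 → F} (hv0 : v ≠ 0) (hv : B v v = 0) (hw0 : w ≠ 0)
    (hw : B w w = 0) {a : F} (h : act g v = a • w) : g • pt hF hv0 hv = pt hF hw0 hw := by
  rw [smul_pt hF, pt_eq_iff]
  exact ⟨a, h.symm⟩

theorem mem_bor_iff {v : Fin 3 → F} (h0 : v ≠ 0) (h : B v v = 0) (g : Cfsg.SU 3 F q) :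
    g ∈ bor hF v ↔ g • pt hF h0 h = pt hF h0 h := by
  rw [smul_pt hF, pt_eq_iff]
  constructor
  · rintro ⟨t, ht⟩; exact ⟨t, ht.symm⟩
  · rintro ⟨a, ha⟩
    have ha0 : a ≠ 0 := fun e => act_ne_zero g h0 (by rw [← ha, e, zero_smul])
    exact ⟨Units.mk0 a ha0, ha.symm⟩

variable {e f z : Fin 3 → F} (hfr : Frame hF e f z)
include hfr

theorem fr_fe : B f e = 1 := by rw [← ub_symm hF, hfr.ef, map_one]
theorem fr_ze : B z e = 0 := ub_eq_zero_symm hF hfr.ez
theorem fr_zf : B z f = 0 := ub_eq_zero_symm hF hfr.fz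

theorem fr_e0 : e ≠ 0 := fun h => by
  have := hfr.ef; rw [h, ub_zero_left] at this; exact zero_ne_one this

theorem fr_f0 : f ≠ 0 := fun h => by
  have := hfr.ef; rw [h, ub_zero_right] at this; exact zero_ne_one this

theorem fr_z0 : z ≠ 0 := fun h => by
  have := hfr.zz; rw [h, ub_zero_right] at this; exact zero_ne_one this

theorem frame_map (g : Cfsg.SU 3 F q) : Frame hF (act g e) (act g f) (act g z) := by
  refine ⟨?_, ?_, ?_, ?_, ?_, ?_, fun x => ?_⟩
  · rw [act_ub hF]; exact hfr.ee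
  · rw [act_ub hF]; exact hfr.ff
  · rw [act_ub hF]; exact hfr.ef
  · rw [act_ub hF]; exact hfr.ez
  · rw [act_ub hF]; exact hfr.fz
  · rw [act_ub hF]; exact hfr.zz
  · obtain ⟨y, rfl⟩ : ∃ y, x = act g y := ⟨act g⁻¹ x, by rw [← act_mul_apply, mul_inv_cancel, act_one]; rfl⟩
    conv_lhs => rw [hfr.span y, map_add, map_add, map_smul, map_smul, map_smul]
    rw [act_ub hF, act_ub hF, act_ub hF]

theorem frame_ext {g h : Cfsg.SU 3 F q} (he : act g e = act h e) (hf : act g f = act h f)
    (hz : act g z = act h z) : g = h := su_ext fun x => by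
  rw [hfr.span x]
  simp only [map_add, map_smul, he, hf, hz]

/-- An element of the unipotent group. -/
noncomputable def R (_hfr : Frame hF e f z) (a c : F) : Cfsg.SU 3 F q := root hF e (a • z) c

theorem adm_root {a c : F} (h : Adm hF a c) : c + σ c = -B (a • z) (a • z) := by
  rw [ub_smul_left hF, ub_smul_right hF, hfr.zz, mul_one]; exact h

theorem act_R {a c : F} (h : Adm hF a c) :
    act (R hF hfr a c) e = e ∧ act (R hF hfr a c) z = z - σ a • e ∧
      act (R hF hfr a c) f = f + a • z + c • e := by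
  have hw : B e (a • z) = 0 := by rw [ub_smul_right hF, hfr.ez, mul_zero]
  refine ⟨?_, ?_, ?_⟩ <;>
    (rw [R, act_root hF hfr.ee hw (adm_root hF hfr h)]
     simp only [ub_smul_left hF, hfr.ee, hfr.ez, hfr.ef, hfr.zz, fr_ze hF hfr, fr_zf hF hfr]
     module)

theorem R_mul {a c b d : F} (h : Adm hF a c) (h' : Adm hF b d) :
    R hF hfr a c * R hF hfr b d = R hF hfr (a + b) (c + d - σ a * b) := by
  have hw : ∀ a : F, B e (a • z) = 0 := fun a => by rw [ub_smul_right hF, hfr.ez, mul_zero]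
  rw [R, R, R, root_mul hF hfr.ee (hw a) (hw b) (adm_root hF hfr h) (adm_root hF hfr h'), add_smul]
  congr 1
  rw [ub_smul_left hF, ub_smul_right hF, hfr.zz, mul_one]

theorem R_zero : R hF hfr (0 : F) 0 = 1 := by
  obtain ⟨h1, h2, h3⟩ := act_R hF hfr (adm_zero hF)
  refine frame_ext hF hfr ?_ ?_ ?_ <;> simp [h1, h2, h3, act_one, q_ne_zero hF]

theorem R_inv {a c : F} (h : Adm hF a c) : (R hF hfr a c)⁻¹ = R hF hfr (-a) (-c - σ a * a) := by
  refine inv_eq_of_mul_eq_one_right ?_
  rw [R_mul hF hfr h (adm_neg hF h), ← R_zero hF hfr]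
  congr 1 <;> ring

theorem R_eval {a c : F} (h : Adm hF a c) :
    B z (act (R hF hfr a c) f) = a ∧ B f (act (R hF hfr a c) f) = c := by
  rw [(act_R hF hfr h).2.2]
  simp [ub_add_right hF, ub_smul_right hF, fr_zf hF hfr, fr_ze hF hfr, fr_fe hF hfr, hfr.zz, hfr.ff,
    hfr.fz]

theorem R_inj {a c b d : F} (h : Adm hF a c) (h' : Adm hF b d) (he : R hF hfr a c = R hF hfr b d) :
    a = b ∧ c = d :=
  ⟨by rw [← (R_eval hF hfr h).1, he, (R_eval hF hfr h').1],
    by rw [← (R_eval hF hfr h).2, he, (R_eval hF hfr h').2]⟩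

/-- An element fixing `e` is unipotent. -/
theorem fix_e {g : Cfsg.SU 3 F q} (hg : act g e = e) :
    ∃ a c, Adm hF a c ∧ g = R hF hfr a c := by
  set a := B z (act g f)
  set c := B f (act g f)
  have hef : B e (act g f) = 1 := by
    conv_lhs => rw [← hg]
    rw [act_ub hF, hfr.ef]
  have hgf : act g f = f + a • z + c • e := by
    conv_lhs => rw [hfr.span (act g f), hef, one_smul]
    abel
  have hadm : Adm hF a c := by
    have h1 : B (act g f) (act g f) = 0 := by rw [act_ub hF, hfr.ff]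
    rw [hgf] at h1
    simp only [ub_add_left hF, ub_add_right hF, ub_smul_left hF, ub_smul_right hF, hfr.ff, hfr.fz,
      fr_fe hF hfr, hfr.ef, fr_zf hF hfr, fr_ze hF hfr, hfr.ez, hfr.zz, hfr.ee] at h1
    simp only [Adm]
    linear_combination h1
  refine ⟨a, c, hadm, ?_⟩
  set h := (R hF hfr a c)⁻¹ * g with hh
  obtain ⟨r1, r2, r3⟩ := act_R hF hfr hadm
  have he : act h e = e := by
    apply act_inj (R hF hfr a c)
    rw [← act_mul_apply, hh, mul_inv_cancel_left, hg, r1]
  have hf : act h f = f := by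
    apply act_inj (R hF hfr a c)
    rw [← act_mul_apply, hh, mul_inv_cancel_left, hgf, r3]
  have hez : B e (act h z) = 0 := by conv_lhs => rw [← he]; rw [act_ub hF, hfr.ez]
  have hfz : B f (act h z) = 0 := by conv_lhs => rw [← hf]; rw [act_ub hF, hfr.fz]
  set l := B z (act h z)
  have hz : act h z = l • z := by
    conv_lhs => rw [hfr.span (act h z), hez, hfz]
    simp [l]
  have hlin : act h = LinearMap.id + (ubL hF z).smulRight ((l - 1) • z) := by
    refine LinearMap.ext fun x => ?_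
    conv_lhs => rw [hfr.span x]
    simp only [map_add, map_smul, he, hf, hz, LinearMap.add_apply, LinearMap.id_apply,
      LinearMap.smulRight_apply, ubL_apply]
    conv_rhs => arg 1; rw [hfr.span x]
    module
  have hdet : LinearMap.det (act h) = 1 := det_act h
  rw [hlin, det_one_add_one, ubL_apply, ub_smul_right hF, hfr.zz] at hdet
  have hl : l = 1 := by linear_combination hdet
  have h1 : h = 1 := frame_ext hF hfr (by simp [he, act_one]) (by simp [hf, act_one])
    (by simp [hz, hl, act_one])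
  calc g = R hF hfr a c * h := by rw [hh, mul_inv_cancel_left]
    _ = R hF hfr a c := by rw [h1, mul_one]

theorem exists_T (t : Fˣ) : ∃ g : Cfsg.SU 3 F q, act g e = (t : F) • e ∧
    act g z = (σ t / t) • z ∧ act g f = (σ t)⁻¹ • f := by
  obtain ⟨g, hg⟩ := exists_torus_three hF e f z t t.ne_zero hfr.ee hfr.ff hfr.ef hfr.ez hfr.fz hfr.zz
  refine ⟨g, ?_, ?_, ?_⟩ <;>
    (rw [hg]
     simp only [hfr.ee, hfr.ef, hfr.ez, hfr.ff, hfr.fz, hfr.zz, fr_fe hF hfr, fr_ze hF hfr, fr_zf hF hfr]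
     module)

/-- The torus of the frame. -/
noncomputable def T (hfr : Frame hF e f z) : Fˣ →* Cfsg.SU 3 F q where
  toFun t := Classical.choose (exists_T hF hfr t)
  map_one' := by
    have h := Classical.choose_spec (exists_T hF hfr 1)
    revert h
    generalize Classical.choose (exists_T hF hfr 1) = g
    rintro ⟨h1, h2, h3⟩
    simp only [Units.val_one, map_one] at h1 h2 h3
    refine frame_ext hF hfr (h1.trans ?_) (h3.trans ?_) (h2.trans ?_)
    · rw [one_smul, act_one]; rfl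
    · rw [inv_one, one_smul, act_one]; rfl
    · rw [div_one, one_smul, act_one]; rfl
  map_mul' t s := by
    obtain ⟨h1, h2, h3⟩ := Classical.choose_spec (exists_T hF hfr (t * s))
    obtain ⟨a1, a2, a3⟩ := Classical.choose_spec (exists_T hF hfr t)
    obtain ⟨b1, b2, b3⟩ := Classical.choose_spec (exists_T hF hfr s)
    refine frame_ext hF hfr ?_ ?_ ?_
    · rw [h1, act_mul_apply, b1, map_smul, a1, smul_smul, Units.val_mul, mul_comm]
    · rw [h3, act_mul_apply, b3, map_smul, a3, smul_smul, Units.val_mul, map_mul, mul_inv, mul_comm]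
    · rw [h2, act_mul_apply, b2, map_smul, a2, smul_smul, Units.val_mul, map_mul, div_mul_div_comm]
      congr 2 <;> ring

theorem act_T (t : Fˣ) : act (T hF hfr t) e = (t : F) • e ∧
    act (T hF hfr t) z = (σ t / t) • z ∧ act (T hF hfr t) f = (σ t)⁻¹ • f :=
  Classical.choose_spec (exists_T hF hfr t)

theorem T_inj {t s : Fˣ} (h : T hF hfr t = T hF hfr s) : t = s := by
  have h1 := (act_T hF hfr t).1
  rw [h, (act_T hF hfr s).1] at h1
  exact (Units.ext (smul_left_injective F (fr_e0 hF hfr) h1)).symm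

omit hfr in
theorem exists_bor_mult (g : bor hF e) : ∃ t : Fˣ, act (g : Cfsg.SU 3 F q) e = (t : F) • e := g.2

/-- The multiplier on the isotropic vector. -/
noncomputable def chi (hfr : Frame hF e f z) : bor hF e →* Fˣ where
  toFun g := Classical.choose (exists_bor_mult hF g)
  map_one' := by
    have h := Classical.choose_spec (exists_bor_mult hF (1 : bor hF e))
    revert h
    generalize Classical.choose (exists_bor_mult hF (1 : bor hF e)) = t
    intro h
    rw [show ((1 : bor hF e) : Cfsg.SU 3 F q) = 1 from rfl, act_one] at h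
    refine Units.ext (smul_left_injective F (fr_e0 hF hfr) (h.symm.trans ?_))
    simp
  map_mul' g h := by
    have h1 := Classical.choose_spec (exists_bor_mult hF (g * h))
    revert h1
    generalize Classical.choose (exists_bor_mult hF (g * h)) = t
    intro h1
    rw [show ((g * h : bor hF e) : Cfsg.SU 3 F q) = (g : Cfsg.SU 3 F q) * h from rfl, act_mul_apply,
      Classical.choose_spec (exists_bor_mult hF h), map_smul,
      Classical.choose_spec (exists_bor_mult hF g), smul_smul] at h1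
    refine Units.ext (smul_left_injective F (fr_e0 hF hfr) (h1.symm.trans ?_))
    rw [Units.val_mul, mul_comm]

theorem act_chi (g : bor hF e) : act (g : Cfsg.SU 3 F q) e = (chi hF hfr g : F) • e :=
  Classical.choose_spec (exists_bor_mult hF g)

theorem chi_eq (g : bor hF e) {t : F} (h : act (g : Cfsg.SU 3 F q) e = t • e) :
    (chi hF hfr g : F) = t :=
  smul_left_injective F (fr_e0 hF hfr) ((act_chi hF hfr g).symm.trans h)

theorem bor_decomp (g : bor hF e) : ∃ a c, Adm hF a c ∧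
    (g : Cfsg.SU 3 F q) = T hF hfr (chi hF hfr g) * R hF hfr a c := by
  set t := chi hF hfr g
  obtain ⟨a, c, h, e1⟩ := fix_e hF hfr (g := (T hF hfr t)⁻¹ * g) (by
    apply act_inj (T hF hfr t)
    rw [← act_mul_apply, mul_inv_cancel_left, act_chi hF hfr g, (act_T hF hfr t).1])
  exact ⟨a, c, h, by rw [← e1, mul_inv_cancel_left]⟩

theorem act_bor (g : bor hF e) : ∃ μ ν ρ : F,
    act (g : Cfsg.SU 3 F q) z = (σ (chi hF hfr g) / chi hF hfr g) • z + μ • e ∧
    act (g : Cfsg.SU 3 F q) f = (σ (chi hF hfr g : F))⁻¹ • f + ν • z + ρ • e := by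
  obtain ⟨a, c, h, e1⟩ := bor_decomp hF hfr g
  set t := chi hF hfr g
  obtain ⟨t1, t2, t3⟩ := act_T hF hfr t
  obtain ⟨-, r2, r3⟩ := act_R hF hfr h
  refine ⟨-(σ a * t), a * (σ t / t), c * t, ?_, ?_⟩
  · rw [e1, act_mul_apply, r2, map_sub, map_smul, t1, t2]; module
  · rw [e1, act_mul_apply, r3, map_add, map_add, map_smul, map_smul, t1, t2, t3]; module

theorem R_mem_bor {a c : F} (h : Adm hF a c) : R hF hfr a c ∈ bor hF e :=
  ⟨1, by rw [(act_R hF hfr h).1, Units.val_one, one_smul]⟩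

theorem T_mem_bor (t : Fˣ) : T hF hfr t ∈ bor hF e := ⟨t, (act_T hF hfr t).1⟩

theorem chi_T (t : Fˣ) : chi hF hfr ⟨T hF hfr t, T_mem_bor hF hfr t⟩ = t :=
  Units.ext (chi_eq hF hfr _ (act_T hF hfr t).1)

/-- The unipotent parametrisation of the kernel. -/
theorem chi_eq_one_iff (g : bor hF e) :
    chi hF hfr g = 1 ↔ ∃ a c, Adm hF a c ∧ (g : Cfsg.SU 3 F q) = R hF hfr a c := by
  constructor
  · intro h
    refine fix_e hF hfr ?_
    rw [act_chi hF hfr g, h, Units.val_one, one_smul]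
  · rintro ⟨a, c, h, e1⟩
    refine Units.ext (chi_eq hF hfr g ?_)
    rw [e1, (act_R hF hfr h).1, Units.val_one, one_smul]

theorem conj_central {g : Cfsg.SU 3 F q} {t : F} (hg : act g e = t • e) {c : F} (hc : Adm hF 0 c) :
    g * R hF hfr 0 c * g⁻¹ = R hF hfr 0 (c * (t * σ t)) := by
  have h0 : B e ((0 : F) • z) = 0 := by rw [zero_smul, ub_zero_right]
  rw [R, R, root_conj hF g hfr.ee hfr.ee h0 (adm_root hF hfr hc) hg]
  simp

theorem conj_R (g : bor hF e) {a c : F} (h : Adm hF a c) :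
    ∃ c', Adm hF ((sChar hF (chi hF hfr g) : F) * a) c' ∧
      (g : Cfsg.SU 3 F q) * R hF hfr a c * (g : Cfsg.SU 3 F q)⁻¹ =
        R hF hfr ((sChar hF (chi hF hfr g) : F) * a) c' := by
  obtain ⟨b, d, hb, e1⟩ := bor_decomp hF hfr g
  set t := chi hF hfr g
  set k := c - σ b * a + σ a * b
  have hk : Adm hF a k := by
    simp only [Adm, k, map_add, map_sub, map_mul, sig_sig hF] at h ⊢
    linear_combination h
  have e2 : R hF hfr b d * R hF hfr a c = R hF hfr a k * R hF hfr b d := by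
    rw [R_mul hF hfr hb h, R_mul hF hfr hk hb]
    congr 1
    · ring
    · simp only [k]; ring
  have e3 : (g : Cfsg.SU 3 F q) * R hF hfr a c * (g : Cfsg.SU 3 F q)⁻¹ =
      T hF hfr t * R hF hfr a k * (T hF hfr t)⁻¹ := by
    rw [e1, mul_inv_rev, mul_assoc (T hF hfr t) (R hF hfr b d), e2]
    group
  have hw : B e (a • z) = 0 := by rw [ub_smul_right hF, hfr.ez, mul_zero]
  refine ⟨k * ((t : F) * σ t), ?_, ?_⟩
  · simp only [Adm] at hk ⊢
    rw [map_mul (σ) (sChar hF t : F) a, map_mul (σ) k, map_mul, sig_sig hF]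
    linear_combination ((t : F) * σ t) * hk + σ a * a * sChar_norm hF t
  · rw [e3, R, root_conj hF _ hfr.ee hfr.ee hw (adm_root hF hfr hk) (act_T hF hfr t).1, R,
      map_smul, (act_T hF hfr t).2.1, smul_smul, smul_smul]
    congr 2
    rw [sChar_coe]
    ring

theorem card_ker_chi : Nat.card (chi hF hfr).ker = q ^ 3 := by
  rw [← card_adm hF]
  refine (Nat.card_congr (Equiv.ofBijective
    (fun p => (⟨⟨R hF hfr p.1.1 p.1.2, R_mem_bor hF hfr p.2⟩,
      (chi_eq_one_iff hF hfr _).2 ⟨_, _, p.2, rfl⟩⟩ : (chi hF hfr).ker)) ⟨fun p r h => ?_, fun g => ?_⟩)).symm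
  · obtain ⟨h1, h2⟩ := R_inj hF hfr p.2 r.2 (congrArg (fun x => ((x.1 : bor hF e) : Cfsg.SU 3 F q)) h)
    exact Subtype.ext (Prod.ext h1 h2)
  · obtain ⟨a, c, h, e1⟩ := (chi_eq_one_iff hF hfr g.1).1 g.2
    exact ⟨⟨(a, c), h⟩, Subtype.ext (Subtype.ext e1.symm)⟩

theorem card_bor : Nat.card (bor hF e) = q ^ 3 * (q ^ 2 - 1) := by
  haveI : Finite (Cfsg.SU 3 F q) := Subtype.finite
  rw [← Subgroup.card_mul_index (chi hF hfr).ker, card_ker_chi hF hfr, Subgroup.index_ker,
    MonoidHom.range_eq_top.2 fun t => ⟨_, chi_T hF hfr t⟩, Subgroup.card_top, Forms.card_units_sq hF]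

/-- A point other than `e` is the image of `f`. -/
theorem exists_R_smul (y : isoPts (n := 3) hF) (hy : y ≠ pt hF (fr_e0 hF hfr) hfr.ee) :
    ∃ a c, Adm hF a c ∧ R hF hfr a c • pt hF (fr_f0 hF hfr) hfr.ff = y := by
  obtain ⟨v, hv0, hv, rfl⟩ := exists_pt hF y
  have hev : B e v ≠ 0 := by
    intro h0
    refine hy ((pt_eq_iff hF _ _ _ _).2 ⟨B f v, ?_⟩)
    have h1 := hfr.span v
    rw [h0, zero_smul, add_zero] at h1
    have h2 := hv
    rw [h1] at h2
    simp only [ub_add_left hF, ub_add_right hF, ub_smul_left hF, ub_smul_right hF, hfr.ee, hfr.ez,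
      fr_ze hF hfr, hfr.zz, mul_zero, mul_one, zero_add, add_zero] at h2
    have hz : B z v = 0 := by
      rcases mul_eq_zero.mp h2 with h3 | h3
      · exact (map_eq_zero _).mp h3
      · exact h3
    rw [hz, zero_smul, add_zero] at h1
    exact h1.symm
  set w := (B e v)⁻¹ • v with hw
  have hew : B e w = 1 := by rw [hw, ub_smul_right hF, inv_mul_cancel₀ hev]
  have hww : B w w = 0 := by rw [hw, ub_smul_left hF, ub_smul_right hF, hv, mul_zero, mul_zero]
  have hws : w = f + B z w • z + B f w • e := by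
    conv_lhs => rw [hfr.span w, hew, one_smul]
    abel
  have hadm : Adm hF (B z w) (B f w) := by
    rw [hws] at hww
    simp only [ub_add_left hF, ub_add_right hF, ub_smul_left hF, ub_smul_right hF, hfr.ff, hfr.fz,
      fr_fe hF hfr, hfr.ef, fr_zf hF hfr, fr_ze hF hfr, hfr.ez, hfr.zz, hfr.ee] at hww
    simp only [Adm]
    linear_combination hww
  refine ⟨_, _, hadm, smul_pt_eq hF _ _ _ _ _ (a := (B e v)⁻¹) ?_⟩
  rw [(act_R hF hfr hadm).2.2, ← hws, hw]

/-- A unipotent element fixing a second point is trivial. -/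
theorem R_fix_eq_one {a c : F} (h : Adm hF a c) {y : isoPts (n := 3) hF}
    (hy : y ≠ pt hF (fr_e0 hF hfr) hfr.ee) (hfix : R hF hfr a c • y = y) : a = 0 ∧ c = 0 := by
  obtain ⟨b, d, hb, rfl⟩ := exists_R_smul hF hfr y hy
  have key : ((R hF hfr b d)⁻¹ * R hF hfr a c * R hF hfr b d) •
      pt hF (fr_f0 hF hfr) hfr.ff = pt hF (fr_f0 hF hfr) hfr.ff := by
    rw [mul_smul, mul_smul, hfix, inv_smul_smul]
  have e1 : (R hF hfr b d)⁻¹ * R hF hfr a c * R hF hfr b d =
      R hF hfr a (c + σ b * a - σ a * b) := by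
    have hk : Adm hF a (c + σ b * a - σ a * b) := by
      simp only [Adm, map_add, map_sub, map_mul, sig_sig hF] at h ⊢
      linear_combination h
    rw [mul_assoc, inv_mul_eq_iff_eq_mul, R_mul hF hfr h hb, R_mul hF hfr hb hk]
    congr 1 <;> ring
  rw [e1, smul_pt hF, pt_eq_iff] at key
  obtain ⟨k, hk⟩ := key
  have hadm : Adm hF a (c + σ b * a - σ a * b) := by
    simp only [Adm, map_add, map_sub, map_mul, sig_sig hF] at h ⊢
    linear_combination h
  rw [(act_R hF hfr hadm).2.2] at hk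
  have h1 := congrArg (B z) hk
  simp only [ub_add_right hF, ub_smul_right hF, fr_zf hF hfr, fr_ze hF hfr, hfr.zz, mul_zero, mul_one,
    zero_add, add_zero] at h1
  subst h1
  have h2 := congrArg (B f) hk
  simp only [ub_add_right hF, ub_smul_right hF, hfr.ff, hfr.fz, fr_fe hF hfr, mul_zero, mul_one,
    zero_add, map_zero, zero_mul, sub_zero, add_zero] at h2
  exact ⟨rfl, h2.symm⟩

theorem card_isoPts : Nat.card (isoPts (n := 3) hF) = q ^ 3 + 1 := by
  classical
  let ψ : Option {p : F × F // Adm hF p.1 p.2} → isoPts (n := 3) hF := fun o =>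
    o.elim (pt hF (fr_e0 hF hfr) hfr.ee) fun p => R hF hfr p.1.1 p.1.2 • pt hF (fr_f0 hF hfr) hfr.ff
  have hne : pt hF (fr_f0 hF hfr) hfr.ff ≠ pt hF (fr_e0 hF hfr) hfr.ee := fun h => by
    obtain ⟨a, ha⟩ := (pt_eq_iff hF _ _ _ _).1 h
    have := congrArg (B e) ha
    rw [ub_smul_right hF, hfr.ee, hfr.ef, mul_zero] at this
    exact zero_ne_one this
  have hfixe : ∀ p : {p : F × F // Adm hF p.1 p.2},
      R hF hfr p.1.1 p.1.2 • pt hF (fr_e0 hF hfr) hfr.ee = pt hF (fr_e0 hF hfr) hfr.ee := fun p =>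
    (mem_bor_iff hF _ _ _).1 (R_mem_bor hF hfr p.2)
  rw [← card_adm hF, ← Finite.card_option]
  refine (Nat.card_congr (Equiv.ofBijective ψ ⟨fun o o' h => ?_, fun y => ?_⟩)).symm
  · rcases o with _ | p <;> rcases o' with _ | r <;> simp only [ψ, Option.elim] at h
    · rfl
    · exact absurd (MulAction.injective _ (h.symm.trans (hfixe r).symm)) hne
    · exact absurd (MulAction.injective _ (h.trans (hfixe p).symm)) hne
    · have hm := adm_mul hF (adm_neg hF r.2) p.2
      have h1 : R hF hfr (-r.1.1 + p.1.1) (-r.1.2 - σ r.1.1 * r.1.1 + p.1.2 - σ (-r.1.1) * p.1.1) •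
          pt hF (fr_f0 hF hfr) hfr.ff = pt hF (fr_f0 hF hfr) hfr.ff := by
        rw [← R_mul hF hfr (adm_neg hF r.2) p.2, ← R_inv hF hfr r.2, mul_smul, h, inv_smul_smul]
      obtain ⟨h2, h3⟩ := R_fix_eq_one hF hfr hm hne h1
      have h4 : p.1.1 = r.1.1 := by linear_combination h2
      rw [h4, map_neg] at h3
      exact congrArg some (Subtype.ext (Prod.ext h4 (by linear_combination h3)))
  · by_cases hy : y = pt hF (fr_e0 hF hfr) hfr.ee
    · exact ⟨none, hy.symm⟩
    · obtain ⟨a, c, h, e1⟩ := exists_R_smul hF hfr y hy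
      exact ⟨some ⟨(a, c), h⟩, e1⟩

theorem index_bor : (bor hF e).index = q ^ 3 + 1 := by
  have := Forms.su_pretransitive hF (n := 3) (by norm_num)
  rw [← card_isoPts hF hfr, show bor hF e = MulAction.stabilizer (Cfsg.SU 3 F q)
    (pt hF (fr_e0 hF hfr) hfr.ee) from Subgroup.ext fun g => mem_bor_iff hF _ _ g]
  exact MulAction.index_stabilizer_of_transitive _ _

theorem card_G : Nat.card (Cfsg.SU 3 F q) = q ^ 3 * (q ^ 2 - 1) * (q ^ 3 + 1) := by
  rw [← card_bor hF hfr, ← index_bor hF hfr, Subgroup.card_mul_index]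

omit hfr in
theorem exists_frame_at (x : isoPts (n := 3) hF) : ∃ e f z : Fin 3 → F, ∃ hfr : Frame hF e f z,
    pt hF (fr_e0 hF hfr) hfr.ee = x := by
  obtain ⟨e, f, z, hfr⟩ := exists_frame hF
  have := Forms.su_pretransitive hF (n := 3) (by norm_num)
  obtain ⟨g, hg⟩ := MulAction.exists_smul_eq (Cfsg.SU 3 F q) (pt hF (fr_e0 hF hfr) hfr.ee) x
  exact ⟨_, _, _, frame_map hF hfr g, by rw [← hg, smul_pt hF]⟩

end Cfsg.Agent.Forms.SUThree.MinIdx
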