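import Cfsg.Agent.Forms.SUThreeMinIndexBorel
import Mathlib.RingTheory.LittleWedderburn
import Mathlib.RingTheory.IntegralDomain

/-!
# Irreducible elements of `SU₃(q)` and their centralisers
-/

set_option autoImplicit false

namespace Cfsg.Agent.Forms.SUThree.MinIdx

open Cfsg.Agent.KnownA
open Cfsg.Agent.Forms (frobQ isoPts)
open scoped LinearAlgebra.Projectivization

variable {F : Type*} [Field F] [Fintype F] {q : ℕ} (hF : Fintype.card F = q ^ 2)

local notation "B" => ub hF
local notation "σ" => frobQ hF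
local notation "V" => (Fin 3 → F)

/-- No proper invariant subspaces. -/
def Simp (a : Module.End F (Fin 3 → F)) : Prop :=
  ∀ W : Submodule F (Fin 3 → F), (∀ w ∈ W, a w ∈ W) → W = ⊥ ∨ W = ⊤

omit [Fintype F] in
theorem Simp.no_eigen {a : Module.End F V} (ha : Simp a) {v : V} (hv : v ≠ 0) (t : F) : a v ≠ t • v := by
  intro h
  rcases ha (Submodule.span F {v}) (fun w hw => by
    obtain ⟨c, rfl⟩ := Submodule.mem_span_singleton.1 hw
    rw [map_smul, h]
    exact Submodule.smul_mem _ _ (Submodule.smul_mem _ _ (Submodule.mem_span_singleton_self v))) with h1 | h1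
  · exact hv (Submodule.span_singleton_eq_bot.1 h1)
  · have := finrank_span_singleton (K := F) hv
    rw [h1, finrank_top, Module.finrank_fin_fun] at this
    omega

omit [Fintype F] in
theorem finrank_one_eigen {a : Module.End F V} {W : Submodule F V} (hW : ∀ w ∈ W, a w ∈ W)
    (h1 : Module.finrank F W = 1) : ∃ v : V, v ≠ 0 ∧ ∃ t : F, a v = t • v := by
  obtain ⟨v, hv, hv0⟩ := Submodule.exists_mem_ne_zero_of_ne_bot
    (show W ≠ ⊥ from fun h => by rw [h, finrank_bot] at h1; omega)
  obtain ⟨t, ht⟩ := exists_smul_eq_of_finrank_eq_one h1 (x := ⟨v, hv⟩)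
    (fun h => hv0 (congrArg Subtype.val h)) ⟨a v, hW v hv⟩
  exact ⟨v, hv0, t, (congrArg Subtype.val ht).symm⟩

omit [Fintype F] in
/-- An element commuting with a simple one is a scalar or simple. -/
theorem Simp.of_commute {a b : Module.End F V} (ha : Simp a) (hab : Commute a b) :
    (∃ t : F, b = t • 1) ∨ Simp b := by
  by_cases hv : ∃ v : V, v ≠ 0 ∧ ∃ t : F, b v = t • v
  · left
    obtain ⟨v, hv0, t, hvt⟩ := hv
    refine ⟨t, sub_eq_zero.1 ?_⟩
    rcases ha (LinearMap.ker (b - t • 1)) (fun w hw => by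
      rw [LinearMap.mem_ker] at hw ⊢
      have hc : Commute a (b - t • 1) := hab.sub_right ((Commute.one_right a).smul_right t)
      rw [← Module.End.mul_apply, ← hc.eq, Module.End.mul_apply, hw, map_zero]) with h | h
    · exfalso
      have : v ∈ LinearMap.ker (b - t • 1) := by simp [hvt]
      rw [h, Submodule.mem_bot] at this
      exact hv0 this
    · exact LinearMap.ker_eq_top.1 h
  · right
    push Not at hv
    intro W hW
    by_contra hcon
    push Not at hcon
    have hlt : Module.finrank F W < 3 := by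
      have := Submodule.finrank_lt hcon.2
      rwa [Module.finrank_fin_fun] at this
    have hpos : 0 < Module.finrank F W := Nat.pos_of_ne_zero fun h =>
      hcon.1 (Submodule.finrank_eq_zero.1 h)
    rcases (by omega : Module.finrank F W = 1 ∨ Module.finrank F W = 2) with h1 | h2
    · obtain ⟨v, hv0, t, hvt⟩ := finrank_one_eigen hW h1
      exact hv v hv0 t hvt
    · have hinj : Function.Injective a := by
        rw [← LinearMap.ker_eq_bot]
        rcases ha (LinearMap.ker a) (fun w hw => by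
          rw [LinearMap.mem_ker] at hw ⊢; rw [hw, map_zero]) with h | h
        · exact h
        · exfalso
          obtain ⟨v, hv⟩ := exists_ne (0 : V)
          exact ha.no_eigen hv 0 (by rw [LinearMap.ker_eq_top.1 h]; simp)
      set W' := W.map a with hW'
      have hW'inv : ∀ w ∈ W', b w ∈ W' := by
        rintro _ ⟨w, hw, rfl⟩
        exact ⟨b w, hW w hw, by rw [← Module.End.mul_apply, hab.eq, Module.End.mul_apply]⟩
      have h2' : Module.finrank F W' = 2 := by
        rw [hW', ← (Submodule.equivMapOfInjective a hinj W).finrank_eq, h2]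
      have hsum := Submodule.finrank_sup_add_finrank_inf_eq W W'
      have hsup := Submodule.finrank_le (W ⊔ W')
      rw [Module.finrank_fin_fun] at hsup
      have hinf2 : Module.finrank F (W ⊓ W' : Submodule F V) ≤ 2 := h2 ▸ Submodule.finrank_mono inf_le_left
      rcases (by omega : Module.finrank F (W ⊓ W' : Submodule F V) = 1 ∨
          Module.finrank F (W ⊓ W' : Submodule F V) = 2) with h3 | h3
      · obtain ⟨v, hv0, t, hvt⟩ := finrank_one_eigen
          (W := W ⊓ W') (fun w hw => ⟨hW w hw.1, hW'inv w hw.2⟩) h3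
        exact hv v hv0 t hvt
      · have e1 : W ⊓ W' = W := Submodule.eq_of_le_of_finrank_eq inf_le_left (h3.trans h2.symm)
        have e2 : W ⊓ W' = W' := Submodule.eq_of_le_of_finrank_eq inf_le_right (h3.trans h2'.symm)
        rcases ha W (fun w hw => by
          rw [← e1, e2]; exact ⟨w, hw, rfl⟩) with h | h
        · exact hcon.1 h
        · exact hcon.2 h

/-- The commutant of a simple map. -/
def comm (a : Module.End F (Fin 3 → F)) : Subring (Module.End F (Fin 3 → F)) :=
  Subring.centralizer {a}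

omit [Fintype F] in
theorem mem_comm {a b : Module.End F V} : b ∈ comm a ↔ Commute a b := by
  simp [comm, Subring.mem_centralizer_iff, Commute, SemiconjBy]

omit [Fintype F] in
theorem comm_isDomain {a : Module.End F V} (ha : Simp a) : IsDomain (comm a) := by
  haveI : NoZeroDivisors (comm a) := ⟨fun {b c} hbc => by
    by_cases hb : b = 0
    · exact Or.inl hb
    refine Or.inr (Subtype.ext ?_)
    rcases ha (LinearMap.ker (b : Module.End F V)) (fun w hw => by
      rw [LinearMap.mem_ker] at hw ⊢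
      rw [← Module.End.mul_apply, ← (mem_comm.1 b.2).eq, Module.End.mul_apply, hw, map_zero]) with h | h
    · refine LinearMap.ext fun v => ?_
      have h2 : (b : Module.End F V) ((c : Module.End F V) v) = 0 := by
        have := congrArg (fun x : comm a => (x : Module.End F V) v) hbc
        simpa using this
      rwa [← LinearMap.mem_ker, h, Submodule.mem_bot] at h2
    · exact absurd (Subtype.ext (LinearMap.ker_eq_top.1 h)) hb⟩
  exact NoZeroDivisors.to_isDomain _

/-- Wedderburn: the commutant of a simple map is commutative. -/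
theorem Simp.comm_commute {a b c : Module.End F (Fin 3 → F)} (ha : Simp a) (hb : Commute a b)
    (hc : Commute a c) : Commute b c := by
  haveI := comm_isDomain ha
  haveI : Finite (Module.End F V) := Module.finite_of_finite F
  exact congrArg Subtype.val
    ((Finite.isDomain_to_isField (comm a)).mul_comm ⟨b, mem_comm.2 hb⟩ ⟨c, mem_comm.2 hc⟩)

include hF

omit hF in
theorem act_commute {g h : Cfsg.SU 3 F q} (e : Commute g h) : Commute (act g) (act h) := by
  show act g * act h = act h * act g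
  rw [← act_mul, ← act_mul, e.eq]

theorem center_act (g : Cfsg.SU 3 F q) :
    g ∈ Subgroup.center (Cfsg.SU 3 F q) ↔ ∃ t : F, act g = t • 1 := by
  rw [Forms.su_mem_center_iff hF (by norm_num)]
  exact exists_congr fun t => ⟨fun h => LinearMap.ext fun v => by simp [h v], fun h v => by simp [h]⟩

theorem simp_of_no_eigen {g : Cfsg.SU 3 F q} (h : ∀ v : V, v ≠ 0 → ∀ t : F, act g v ≠ t • v) :
    Simp (act g) := by
  intro W hW
  by_contra hcon
  push Not at hcon
  have hlt : Module.finrank F W < 3 := by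
    have := Submodule.finrank_lt hcon.2
    rwa [Module.finrank_fin_fun] at this
  have hpos : 0 < Module.finrank F W := Nat.pos_of_ne_zero fun h =>
    hcon.1 (Submodule.finrank_eq_zero.1 h)
  rcases (by omega : Module.finrank F W = 1 ∨ Module.finrank F W = 2) with h1 | h2
  · obtain ⟨v, hv0, t, hvt⟩ := finrank_one_eigen hW h1
    exact h v hv0 t hvt
  · have hP := (Forms.isForm_herm (n := 3) hF).finrank_perp W
    rw [Module.finrank_fin_fun, h2] at hP
    have hmap : W.map (act g) = W := by
      refine Submodule.eq_of_le_of_finrank_eq ?_ ?_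
      · rintro _ ⟨w, hw, rfl⟩; exact hW w hw
      · exact (Submodule.equivMapOfInjective (act g) (fun x y => act_inj g) W).finrank_eq.symm
    obtain ⟨v, hv0, t, hvt⟩ := finrank_one_eigen (a := act g)
      (W := Forms.perp (Forms.hermB 3 hF) W) (fun u hu w hw => by
      rw [← hmap] at hw
      obtain ⟨w', hw', rfl⟩ := hw
      show B (act g w') (act g u) = 0
      rw [act_ub hF]
      exact hu w' hw') (by omega)
    exact h v hv0 t hvt

theorem no_fixed_point {g : Cfsg.SU 3 F q} (hg : Simp (act g)) (x : isoPts (n := 3) hF) : g • x ≠ x := by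
  intro h
  obtain ⟨v, hv0, hv, rfl⟩ := exists_pt hF x
  obtain ⟨t, ht⟩ := (mem_bor_iff hF hv0 hv g).2 h
  exact hg.no_eigen hv0 _ ht

/-- The centraliser in `H`. -/
def cen (H : Subgroup (Cfsg.SU 3 F q)) (x : Cfsg.SU 3 F q) : Subgroup (Cfsg.SU 3 F q) :=
  H ⊓ Subgroup.centralizer {x}

omit [Fintype F] hF in
theorem mem_cen {H : Subgroup (Cfsg.SU 3 F q)} {x g : Cfsg.SU 3 F q} :
    g ∈ cen H x ↔ g ∈ H ∧ Commute g x := by
  simp [cen, Subgroup.mem_centralizer_iff, Commute, SemiconjBy, eq_comm]

/-- The normaliser of the centraliser in `H`. -/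
def nor (H : Subgroup (Cfsg.SU 3 F q)) (x : Cfsg.SU 3 F q) : Subgroup (Cfsg.SU 3 F q) :=
  H ⊓ Subgroup.normalizer (cen H x : Set (Cfsg.SU 3 F q))

/-- The noncentral elements conjugate into the centraliser. -/
def cls (H : Subgroup (Cfsg.SU 3 F q)) (x : Cfsg.SU 3 F q) : Set (Cfsg.SU 3 F q) :=
  {g | g ∉ Subgroup.center (Cfsg.SU 3 F q) ∧ ∃ h ∈ H, h⁻¹ * g * h ∈ cen H x}

variable {H : Subgroup (Cfsg.SU 3 F q)} (hZ : Subgroup.center (Cfsg.SU 3 F q) ≤ H)
  {x : Cfsg.SU 3 F q} (hxH : x ∈ H) (hx : Simp (act x))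

omit hF in
theorem center_le_cen (hZ : Subgroup.center (Cfsg.SU 3 F q) ≤ H) (x : Cfsg.SU 3 F q) :
    Subgroup.center (Cfsg.SU 3 F q) ≤ cen H x := fun g hg =>
  mem_cen.2 ⟨hZ hg, (Subgroup.mem_center_iff.1 hg x).symm⟩

include hx in
theorem cen_simp {y : Cfsg.SU 3 F q} (hy : y ∈ cen H x) (hyZ : y ∉ Subgroup.center (Cfsg.SU 3 F q)) :
    Simp (act y) :=
  (hx.of_commute (act_commute (mem_cen.1 hy).2.symm)).resolve_left fun h => hyZ ((center_act hF y).2 h)

include hx in
theorem cen_eq {y : Cfsg.SU 3 F q} (hy : y ∈ cen H x) (hyZ : y ∉ Subgroup.center (Cfsg.SU 3 F q)) :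
    cen H y = cen H x := by
  have hys := cen_simp hF hx hy hyZ
  have key : ∀ a b : Cfsg.SU 3 F q, Commute (act a) (act b) → Commute a b := fun a b h =>
    su_ext fun v => by rw [act_mul, act_mul, h.eq]
  ext g
  simp only [mem_cen]
  refine and_congr_right fun _ => ⟨fun hg => key _ _ ?_, fun hg => key _ _ ?_⟩
  · exact hys.comm_commute (act_commute hg.symm) (act_commute (mem_cen.1 hy).2)
  · exact hx.comm_commute (act_commute hg.symm) (act_commute (mem_cen.1 hy).2.symm)

include hx in
theorem cen_cyclic : IsCyclic (cen H x) := by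
  haveI := comm_isDomain hx
  haveI : Finite (Module.End F V) := Module.finite_of_finite F
  haveI : Finite (Cfsg.SU 3 F q) := Subtype.finite
  letI : Field (comm (act x)) := (Finite.isDomain_to_isField _).toField
  let f : cen H x →* comm (act x) :=
    { toFun := fun g => ⟨act (g : Cfsg.SU 3 F q), mem_comm.2 (act_commute (mem_cen.1 g.2).2.symm)⟩
      map_one' := Subtype.ext act_one
      map_mul' := fun g h => Subtype.ext (act_mul _ _) }
  refine isCyclic_of_injective_ringHom f fun g h e => Subtype.ext (su_ext fun v => ?_)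
  exact congrArg (fun k : comm (act x) => (k : Module.End F V) v) e

include hx in
theorem central_of_pow {y : Cfsg.SU 3 F q} (hy : y ∈ cen H x) (hpow : y ^ (q ^ 2 - 1) = 1) :
    y ∈ Subgroup.center (Cfsg.SU 3 F q) := by
  classical
  haveI := comm_isDomain hx
  haveI : Finite (Module.End F V) := Module.finite_of_finite F
  letI : Field (comm (act x)) := (Finite.isDomain_to_isField _).toField
  haveI : Fintype (comm (act x)) := Fintype.ofFinite _
  set N := q ^ 2 - 1
  have hN : 0 < N := by
    have h4 : 4 ≤ q ^ 2 := by have := Forms.two_le_q hF; nlinarith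
    omega
  set S : Finset (comm (act x)) := Finset.univ.filter fun d => d ^ N = 1
  have hS : S.card ≤ N := by
    refine le_trans (Finset.card_le_card (fun d hd => ?_))
      ((Multiset.toFinset_card_le _).trans (Polynomial.card_nthRoots N (1 : comm (act x))))
    rw [Multiset.mem_toFinset, Polynomial.mem_nthRoots hN]
    exact (Finset.mem_filter.1 hd).2
  let sc : Fˣ → comm (act x) := fun u =>
    ⟨(u : F) • 1, mem_comm.2 ((Commute.one_right _).smul_right _)⟩
  have hsc : ∀ u : Fˣ, sc u ∈ S := fun u => by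
    refine Finset.mem_filter.2 ⟨Finset.mem_univ _, Subtype.ext ?_⟩
    rw [SubmonoidClass.coe_pow]
    show ((u : F) • (1 : Module.End F V)) ^ N = 1
    rw [smul_pow, one_pow, ← Units.val_pow_eq_pow_val, show u ^ N = 1 by
      simp only [N, ← Forms.card_units_sq hF]; exact pow_card_eq_one', Units.val_one, one_smul]
  have hinj : Function.Injective sc := fun u v e => by
    obtain ⟨w, hw⟩ := exists_ne (0 : V)
    refine Units.ext (smul_left_injective F hw ?_)
    exact congrArg (fun k : comm (act x) => (k : Module.End F V) w) e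
  have heq : Finset.univ.image sc = S := by
    refine Finset.eq_of_subset_of_card_le (fun d hd => ?_) ?_
    · obtain ⟨u, -, rfl⟩ := Finset.mem_image.1 hd
      exact hsc u
    · rw [Finset.card_image_of_injective _ hinj, Finset.card_univ, ← Nat.card_eq_fintype_card,
        Forms.card_units_sq hF]
      exact hS
  have hyS : (⟨act y, mem_comm.2 (act_commute (mem_cen.1 hy).2.symm)⟩ : comm (act x)) ∈ S := by
    refine Finset.mem_filter.2 ⟨Finset.mem_univ _, Subtype.ext ?_⟩
    rw [SubmonoidClass.coe_pow]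
    show act y ^ N = 1
    have : ∀ k : ℕ, act (y ^ k) = act y ^ k := fun k => by
      induction k with
      | zero => rw [pow_zero, pow_zero, act_one]
      | succ k ih => rw [pow_succ, pow_succ, act_mul, ih]
    rw [← this, hpow, act_one]
  rw [← heq, Finset.mem_image] at hyS
  obtain ⟨u, -, hu⟩ := hyS
  exact (center_act hF y).2 ⟨u, (congrArg Subtype.val hu).symm⟩

include hx hZ in
/-- `|C|` meets `q² - 1` only in the centre. -/
theorem dvd_center_of_dvd {n : ℕ} (h1 : n ∣ Nat.card (cen H x)) (h2 : n ∣ q ^ 2 - 1) :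
    n ∣ Nat.card (Subgroup.center (Cfsg.SU 3 F q)) := by
  haveI := cen_cyclic hF (H := H) hx
  haveI : Finite (Cfsg.SU 3 F q) := Subtype.finite
  obtain ⟨g, hg⟩ := IsCyclic.exists_ofOrder_eq_natCard (α := cen H x)
  obtain ⟨k, hk⟩ := h1
  have hk0 : k ≠ 0 := fun h => by
    rw [h, mul_zero] at hk
    exact Nat.card_pos.ne' hk
  have hord : orderOf (g ^ k) = n := by
    rw [orderOf_pow_of_dvd hk0 (by rw [hg, hk]; exact dvd_mul_left k n), hg, hk,
      Nat.mul_div_cancel _ (Nat.pos_of_ne_zero hk0)]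
  have hpow : ((g ^ k : cen H x) : Cfsg.SU 3 F q) ^ (q ^ 2 - 1) = 1 := by
    rw [← SubmonoidClass.coe_pow, orderOf_dvd_iff_pow_eq_one.1 (by rw [hord]; exact h2),
      OneMemClass.coe_one]
  have hc := central_of_pow hF hx (g ^ k).2 hpow
  rw [← hord, ← orderOf_submonoid (g ^ k), ← Subgroup.orderOf_mk _ hc]
  exact orderOf_dvd_natCard _

include hZ hx in
theorem card_cen_dvd :
    Nat.card (cen H x) ∣ Nat.card (Subgroup.center (Cfsg.SU 3 F q)) * (q ^ 3 + 1) := by
  classical
  haveI : Finite (Cfsg.SU 3 F q) := Subtype.finite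
  obtain ⟨e, f, z, hfr⟩ := exists_frame hF
  haveI : Finite (isoPts (n := 3) hF) := Nat.finite_of_card_ne_zero (by rw [card_isoPts hF hfr]; omega)
  set C := cen H x
  haveI : Fintype (MulAction.orbitRel.Quotient C (isoPts (n := 3) hF)) := Fintype.ofFinite _
  rw [← card_isoPts hF hfr, Nat.card_congr (MulAction.selfEquivSigmaOrbits C (isoPts (n := 3) hF)),
    Nat.card_sigma, Finset.mul_sum]
  refine Finset.dvd_sum fun ω _ => ?_
  rw [Nat.card_coe_set_eq, ← MulAction.index_stabilizer]
  have hs : Nat.card (MulAction.stabilizer C ω.out) = Nat.card (Subgroup.center (Cfsg.SU 3 F q)) := by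
    refine Nat.card_congr
      { toFun := fun g => ⟨((g : C) : Cfsg.SU 3 F q), by
          by_contra hg
          exact no_fixed_point hF (cen_simp hF hx (g : C).2 hg) ω.out g.2⟩
        invFun := fun g => ⟨⟨g, center_le_cen hZ x g.2⟩, by
          obtain ⟨v, hv0, hv, hpt⟩ := exists_pt hF ω.out
          obtain ⟨c, hc⟩ := (Forms.su_mem_center_iff hF (by norm_num) _).1 g.2
          show (g : Cfsg.SU 3 F q) • ω.out = ω.out
          rw [← hpt]
          exact smul_pt_eq hF _ _ _ _ _ (hc v)⟩
        left_inv := fun g => rfl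
        right_inv := fun g => rfl }
  rw [← hs, Subgroup.card_mul_index]

include hx in
theorem mem_nor_iff (hxH : x ∈ H) {h : Cfsg.SU 3 F q} :
    h ∈ nor H x ↔ h ∈ H ∧ h * x * h⁻¹ ∈ cen H x := by
  rw [nor, Subgroup.mem_inf, Subgroup.mem_set_normalizer_iff]
  refine and_congr_right fun hh => ⟨fun hn => (hn x).1 (mem_cen.2 ⟨hxH, Commute.refl x⟩), fun hc n => ?_⟩
  have hxZ : h * x * h⁻¹ ∉ Subgroup.center (Cfsg.SU 3 F q) := fun hz => by
    have h1 : x = h * x * h⁻¹ := by
      have h2 := Subgroup.mem_center_iff.1 hz h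
      simp only [← mul_assoc] at h2
      simpa [mul_assoc] using h2.symm
    obtain ⟨v, hv⟩ := exists_ne (0 : V)
    obtain ⟨t, ht⟩ := (center_act hF x).1 (h1 ▸ hz)
    exact hx.no_eigen hv t (by rw [ht]; simp)
  simp only [SetLike.mem_coe]
  conv_rhs => rw [← cen_eq hF hx hc hxZ]
  rw [mem_cen, mem_cen]
  refine and_congr ⟨fun h1 => H.mul_mem (H.mul_mem hh h1) (H.inv_mem hh), fun h1 => ?_⟩ ?_
  · have := H.mul_mem (H.mul_mem (H.inv_mem hh) h1) hh
    simpa [mul_assoc] using this
  · simp only [Commute, SemiconjBy, mul_assoc, inv_mul_cancel_left, mul_left_cancel_iff]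
    simp only [← mul_assoc, mul_left_inj]

include hx in
/-- Conjugates of the centraliser meet it in the centre. -/
theorem ti (hxH : x ∈ H) {h y : Cfsg.SU 3 F q} (hh : h ∈ H) (hy : y ∈ cen H x)
    (hyZ : y ∉ Subgroup.center (Cfsg.SU 3 F q)) (hy' : h * y * h⁻¹ ∈ cen H x) : h ∈ nor H x := by
  have hyZ' : h * y * h⁻¹ ∉ Subgroup.center (Cfsg.SU 3 F q) := fun hz => hyZ (by
    have h1 := (inferInstance : (Subgroup.center (Cfsg.SU 3 F q)).Normal).conj_mem _ hz h⁻¹
    simpa [mul_assoc] using h1)
  refine (mem_nor_iff hF hx hxH).2 ⟨hh, ?_⟩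
  rw [← cen_eq hF hx hy' hyZ', mem_cen]
  refine ⟨H.mul_mem (H.mul_mem hh hxH) (H.inv_mem hh), ?_⟩
  have := (mem_cen.1 hy).2.symm
  simp only [Commute, SemiconjBy, mul_assoc, inv_mul_cancel_left, mul_left_cancel_iff]
  simp only [← mul_assoc, mul_left_inj]
  exact this

omit [Fintype F] hF in
theorem cen_le_nor : cen H x ≤ nor H x :=
  le_inf inf_le_left Subgroup.le_normalizer

omit [Fintype F] hF in
theorem cen_normal_nor : ((cen H x).subgroupOf (nor H x)).Normal :=
  ⟨fun n hn g => by
    rw [Subgroup.mem_subgroupOf] at hn ⊢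
    exact (Subgroup.mem_set_normalizer_iff.1 g.2.2 n).1 hn⟩

include hx in
theorem nor_index_cases (hxH : x ∈ H) :
    ((cen H x).subgroupOf (nor H x)).index = 1 ∨ ((cen H x).subgroupOf (nor H x)).index = 3 := by
  classical
  haveI := comm_isDomain hx
  haveI : Finite (Cfsg.SU 3 F q) := Subtype.finite
  haveI : Finite (Module.End F V) := Module.finite_of_finite F
  letI : Field (comm (act x)) := (Finite.isDomain_to_isField _).toField
  set K := (cen H x).subgroupOf (nor H x) with hK
  have hmem : ∀ h : nor H x, act ((h : Cfsg.SU 3 F q) * x * (h : Cfsg.SU 3 F q)⁻¹) ∈ comm (act x) :=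
    fun h => mem_comm.2 (act_commute (mem_cen.1 ((mem_nor_iff hF hx hxH).1 h.2).2).2.symm)
  let gf : nor H x → comm (act x) := fun h => ⟨_, hmem h⟩
  have hgf : ∀ a b, gf a = gf b → a⁻¹ * b ∈ K := by
    intro a b e1
    have e2 : (a : Cfsg.SU 3 F q) * x * (a : Cfsg.SU 3 F q)⁻¹ = b * x * (b : Cfsg.SU 3 F q)⁻¹ :=
      su_ext fun v => congrArg (fun k : comm (act x) => (k : Module.End F V) v) e1
    rw [Subgroup.mem_subgroupOf, mem_cen]
    refine ⟨(Subgroup.mul_mem _ (Subgroup.inv_mem _ a.2) b.2).1, ?_⟩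
    show (a : Cfsg.SU 3 F q)⁻¹ * b * x = x * ((a : Cfsg.SU 3 F q)⁻¹ * b)
    calc (a : Cfsg.SU 3 F q)⁻¹ * b * x = (a : Cfsg.SU 3 F q)⁻¹ * (b * x * (b : Cfsg.SU 3 F q)⁻¹) * b := by
          group
      _ = (a : Cfsg.SU 3 F q)⁻¹ * (a * x * (a : Cfsg.SU 3 F q)⁻¹) * b := by rw [e2]
      _ = x * ((a : Cfsg.SU 3 F q)⁻¹ * b) := by group
  set P := LinearMap.charpoly (act x)
  let φ : F →+* comm (act x) := RingHom.codRestrict (algebraMap F (Module.End F V)) _ fun t =>
    mem_comm.2 (Algebra.commutes t (act x)).symm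
  have hPm : (P.map φ).Monic := (LinearMap.charpoly_monic _).map φ
  have hdeg : (P.map φ).natDegree ≤ 3 := by
    refine Polynomial.natDegree_map_le.trans ?_
    rw [LinearMap.charpoly_natDegree, Module.finrank_fin_fun]
  have hroot : ∀ h : nor H x, gf h ∈ (P.map φ).roots.toFinset := by
    intro h
    rw [Multiset.mem_toFinset, Polynomial.mem_roots hPm.ne_zero, Polynomial.IsRoot,
      Polynomial.eval_map]
    refine Subtype.ext ?_
    rw [ZeroMemClass.coe_zero]
    show (comm (act x)).subtype (P.eval₂ φ (gf h)) = 0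
    rw [Polynomial.hom_eval₂]
    show Polynomial.aeval (act ((h : Cfsg.SU 3 F q) * x * (h : Cfsg.SU 3 F q)⁻¹)) P = 0
    have hP : Polynomial.aeval (act x) P = 0 := LinearMap.aeval_self_charpoly _
    have key : ∀ Q : Polynomial F, act (h : Cfsg.SU 3 F q) * Polynomial.aeval (act x) Q =
        Polynomial.aeval (act ((h : Cfsg.SU 3 F q) * x * (h : Cfsg.SU 3 F q)⁻¹)) Q *
          act (h : Cfsg.SU 3 F q) := by
      intro Q
      induction Q using Polynomial.induction_on' with
      | add a b ha hb => rw [map_add, map_add, mul_add, add_mul, ha, hb]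
      | monomial k a =>
        rw [Polynomial.aeval_monomial, Polynomial.aeval_monomial]
        have hs : SemiconjBy (act (h : Cfsg.SU 3 F q)) (act x)
            (act ((h : Cfsg.SU 3 F q) * x * (h : Cfsg.SU 3 F q)⁻¹)) := by
          rw [SemiconjBy, ← act_mul, ← act_mul, inv_mul_cancel_right]
        rw [← mul_assoc, ← Algebra.commutes, mul_assoc, (hs.pow_right k).eq, ← mul_assoc]
    have h1 := key P
    rw [hP, mul_zero] at h1
    have h2 := congrArg (fun T => T * act (h : Cfsg.SU 3 F q)⁻¹) h1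
    simpa [mul_assoc, ← act_mul, act_one] using h2.symm
  have hle : K.index ≤ 3 := by
    rw [Subgroup.index]
    refine le_trans (Nat.card_le_card_of_injective
      (fun c : nor H x ⧸ K => (⟨gf c.out, hroot _⟩ : (P.map φ).roots.toFinset)) ?_) ?_
    · intro c c' e1
      have h1 := hgf _ _ (congrArg Subtype.val e1)
      rw [← c.out_eq, ← c'.out_eq]
      exact QuotientGroup.eq.2 h1
    · rw [Nat.card_eq_fintype_card, Fintype.card_coe]
      exact ((Multiset.toFinset_card_le _).trans (Polynomial.card_roots' _)).trans hdeg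
  have h0 : K.index ≠ 0 := Subgroup.index_ne_zero_of_finite
  rcases (by omega : K.index = 1 ∨ K.index = 2 ∨ K.index = 3) with h | h | h
  · exact Or.inl h
  swap
  · exact Or.inr h
  exfalso
  obtain ⟨a, ha⟩ : ∃ a : nor H x, a ∉ K := by
    by_contra hcon
    push Not at hcon
    rw [Subgroup.index_eq_one.2 (eq_top_iff.2 fun a _ => hcon a)] at h
    omega
  have ha2 := mem_cen.1 (Subgroup.mem_subgroupOf.1 (Subgroup.mul_self_mem_of_index_two h a))
  set g : Cfsg.SU 3 F q := (a : Cfsg.SU 3 F q)
  set x' := g * x * g⁻¹ with hx'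
  have hc := ((mem_nor_iff hF hx hxH).1 a.2).2
  have hX : Commute (act x) (act x') := act_commute (mem_cen.1 hc).2.symm
  have hgx : act g * act x = act x' * act g := by rw [← act_mul, ← act_mul, hx', inv_mul_cancel_right]
  have hgx' : act g * act x' = act x * act g := by
    rw [← act_mul, ← act_mul]
    congr 1
    have h2 : g * g * x = x * (g * g) := ha2.2
    rw [hx', ← mul_assoc, ← mul_assoc, h2]
    group
  have hgnc : ¬Commute g x := fun hcm => ha (Subgroup.mem_subgroupOf.2 (mem_cen.2 ⟨a.2.1, hcm⟩))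
  have hscalar : ∀ w : Module.End F V, Commute (act x) w → Commute (act g) w → ∃ t : F, w = t • 1 := by
    intro w h1 h2
    refine (hx.of_commute h1).resolve_right fun hw => hgnc ?_
    exact su_ext fun v => by
      rw [act_mul, act_mul]
      exact congrArg (fun T : Module.End F V => T v) (hw.comm_commute h2.symm h1.symm).eq
  obtain ⟨t, ht⟩ := hscalar (act x + act x') ((Commute.refl _).add_right hX) (by
    show act g * (act x + act x') = (act x + act x') * act g
    rw [mul_add, add_mul, hgx, hgx', add_comm])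
  obtain ⟨u, hu⟩ := hscalar (act x * act x') ((Commute.refl _).mul_right hX) (by
    show act g * (act x * act x') = (act x * act x') * act g
    rw [← mul_assoc, hgx, mul_assoc, hgx', ← mul_assoc, hX.eq])
  obtain ⟨v, hv⟩ := exists_ne (0 : V)
  have hquad : act x (act x v) = t • act x v - u • v := by
    have h1 := congrArg (fun T : Module.End F V => act x (T v)) ht
    have h2 := congrArg (fun T : Module.End F V => T v) hu
    simp only [LinearMap.add_apply, LinearMap.smul_apply, Module.End.one_apply, map_add, map_smul,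
      Module.End.mul_apply] at h1 h2
    rw [h2] at h1
    rw [← h1, add_sub_cancel_right]
  set W := Submodule.span F (Set.range ![v, act x v])
  have hWinv : ∀ w ∈ W, act x w ∈ W := by
    intro w hw
    induction hw using Submodule.span_induction with
    | mem y hy =>
      obtain ⟨i, rfl⟩ := hy
      fin_cases i
      · exact Submodule.subset_span ⟨1, rfl⟩
      · show act x (act x v) ∈ W
        rw [hquad]
        exact W.sub_mem (W.smul_mem _ (Submodule.subset_span ⟨1, rfl⟩))
          (W.smul_mem _ (Submodule.subset_span ⟨0, rfl⟩))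
    | zero => rw [map_zero]; exact W.zero_mem
    | add a b _ _ ha hb => rw [map_add]; exact W.add_mem ha hb
    | smul c a _ ha => rw [map_smul]; exact W.smul_mem c ha
  rcases hx W hWinv with h1 | h1
  · exact hv ((Submodule.mem_bot F).1 (h1 ▸ Submodule.subset_span ⟨0, rfl⟩))
  · have h2 := finrank_range_le_card (R := F) (b := ![v, act x v])
    rw [Set.finrank, show Submodule.span F (Set.range ![v, act x v]) = W from rfl, h1, finrank_top,
      Module.finrank_fin_fun, Fintype.card_fin] at h2
    omega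

include hx hZ in
theorem cls_card (hxH : x ∈ H) :
    (cls H x).ncard = ((nor H x).subgroupOf H).index *
      (Nat.card (cen H x) - Nat.card (Subgroup.center (Cfsg.SU 3 F q))) ∧
    ((nor H x).subgroupOf H).index * (((cen H x).subgroupOf (nor H x)).index * Nat.card (cen H x)) =
      Nat.card H := by
  classical
  haveI : Finite (Cfsg.SU 3 F q) := Subtype.finite
  set NH := (nor H x).subgroupOf H
  constructor
  · set Z := Subgroup.center (Cfsg.SU 3 F q)
    have hcard : ((cen H x : Set (Cfsg.SU 3 F q)) \ (Z : Set (Cfsg.SU 3 F q))).ncard =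
        Nat.card (cen H x) - Nat.card Z := by
      rw [Set.ncard_sdiff (center_le_cen hZ x), ← Nat.card_coe_set_eq, ← Nat.card_coe_set_eq]
      rfl
    rw [← hcard, ← Nat.card_coe_set_eq, ← Nat.card_coe_set_eq, Subgroup.index, ← Nat.card_prod]
    refine (Nat.card_congr (Equiv.ofBijective
      (fun p : (H ⧸ NH) × ((cen H x : Set (Cfsg.SU 3 F q)) \ (Z : Set (Cfsg.SU 3 F q)) : Set _) =>
        (⟨(p.1.out : Cfsg.SU 3 F q) * p.2 * (p.1.out : Cfsg.SU 3 F q)⁻¹, ?_, p.1.out, p.1.out.2, ?_⟩ :
          cls H x)) ⟨fun p r e1 => ?_, fun g => ?_⟩)).symm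
    · intro hz
      refine p.2.2.2 ?_
      have h1 := (inferInstance : Z.Normal).conj_mem _ hz (p.1.out : Cfsg.SU 3 F q)⁻¹
      simpa [mul_assoc] using h1
    · have h1 := p.2.2.1
      simpa [mul_assoc] using h1
    · have e2 := congrArg (fun k : cls H x => (k : Cfsg.SU 3 F q)) e1
      simp only at e2
      have h1 : p.1 = r.1 := by
        rw [← p.1.out_eq, ← r.1.out_eq]
        refine (QuotientGroup.eq.2 ?_).symm
        rw [Subgroup.mem_subgroupOf, Subgroup.coe_mul, Subgroup.coe_inv]
        refine ti hF hx hxH (H.mul_mem (H.inv_mem r.1.out.2) p.1.out.2) p.2.2.1 p.2.2.2 ?_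
        rw [show (r.1.out : Cfsg.SU 3 F q)⁻¹ * p.1.out * p.2 *
            ((r.1.out : Cfsg.SU 3 F q)⁻¹ * p.1.out)⁻¹ = (r.1.out : Cfsg.SU 3 F q)⁻¹ *
            ((p.1.out : Cfsg.SU 3 F q) * p.2 * (p.1.out : Cfsg.SU 3 F q)⁻¹) * (r.1.out : Cfsg.SU 3 F q) by
              group, e2]
        simpa [mul_assoc] using r.2.2.1
      rw [h1] at e2
      exact Prod.ext h1 (Subtype.ext (mul_left_cancel (mul_right_cancel e2)))
    · obtain ⟨g, hgZ, h, hh, hgh⟩ := g
      set c : H ⧸ NH := ((⟨h, hh⟩ : H) : H ⧸ NH)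
      obtain ⟨n, hn⟩ : ∃ n : NH, c.out = ⟨h, hh⟩ * (n : H) := QuotientGroup.mk_out_eq_mul NH ⟨h, hh⟩
      have hn' : ((n : H) : Cfsg.SU 3 F q) ∈ nor H x := n.2
      have h2 : (c.out : Cfsg.SU 3 F q)⁻¹ * g * c.out ∈ cen H x := by
        rw [hn, Subgroup.coe_mul, mul_inv_rev]
        have h3 := (Subgroup.mem_set_normalizer_iff''.1 hn'.2 (h⁻¹ * g * h)).1 hgh
        simpa [mul_assoc] using h3
      refine ⟨(c, ⟨_, h2, fun hz => hgZ ?_⟩), Subtype.ext (by simp [mul_assoc])⟩
      have h4 := (inferInstance : Z.Normal).conj_mem _ hz (c.out : Cfsg.SU 3 F q)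
      simpa [mul_assoc] using h4
  · have e1 : Nat.card (nor H x) = Nat.card NH :=
      (Nat.card_congr (Subgroup.subgroupOfEquivOfLe (inf_le_left : nor H x ≤ H)).toEquiv).symm
    have e2 : Nat.card (cen H x) = Nat.card ((cen H x).subgroupOf (nor H x)) :=
      (Nat.card_congr (Subgroup.subgroupOfEquivOfLe (cen_le_nor (H := H))).toEquiv).symm
    rw [e2, mul_comm ((cen H x).subgroupOf (nor H x)).index, Subgroup.card_mul_index, e1, mul_comm,
      Subgroup.card_mul_index]

include hx in
theorem cls_no_fix {g : Cfsg.SU 3 F q} (hg : g ∈ cls H x) (p : isoPts (n := 3) hF) : g • p ≠ p := by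
  obtain ⟨hgZ, h, -, hgh⟩ := hg
  intro hp
  refine no_fixed_point hF (cen_simp hF hx hgh fun hz => hgZ ?_) (h⁻¹ • p) ?_
  · have := (inferInstance : (Subgroup.center (Cfsg.SU 3 F q)).Normal).conj_mem _ hz h
    simpa [mul_assoc] using this
  · rw [mul_smul, mul_smul, smul_inv_smul, hp]

include hx in
theorem cls_disjoint {y : Cfsg.SU 3 F q} (hy : Simp (act y))
    (hne : Nat.card (cen H x) ≠ Nat.card (cen H y)) : Disjoint (cls H x) (cls H y) := by
  haveI : Finite (Cfsg.SU 3 F q) := Subtype.finite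
  rw [Set.disjoint_left]
  rintro g ⟨hgZ, h, hh, hgh⟩ ⟨-, k, hk, hgk⟩
  have hZc : ∀ u : Cfsg.SU 3 F q, u⁻¹ * g * u ∉ Subgroup.center (Cfsg.SU 3 F q) := fun u hz => hgZ (by
    have := (inferInstance : (Subgroup.center (Cfsg.SU 3 F q)).Normal).conj_mem _ hz u
    simpa [mul_assoc] using this)
  refine hne ?_
  rw [← cen_eq hF hx hgh (hZc h), ← cen_eq hF hy hgk (hZc k)]
  set u := k⁻¹ * h
  have hu : u ∈ H := H.mul_mem (H.inv_mem hk) hh
  have hmap : (cen H (h⁻¹ * g * h)).map (MulAut.conj u).toMonoidHom = cen H (k⁻¹ * g * k) := by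
    ext w
    constructor
    · rintro ⟨v, hv, rfl⟩
      obtain ⟨hv1, hv2⟩ := mem_cen.1 hv
      refine mem_cen.2 ⟨H.mul_mem (H.mul_mem hu hv1) (H.inv_mem hu), ?_⟩
      have e : k⁻¹ * g * k = u * (h⁻¹ * g * h) * u⁻¹ := by simp only [u]; group
      rw [e]
      exact Commute.map hv2 (MulAut.conj u).toMonoidHom
    · intro hw
      obtain ⟨hw1, hw2⟩ := mem_cen.1 hw
      refine ⟨u⁻¹ * w * u, mem_cen.2 ⟨H.mul_mem (H.mul_mem (H.inv_mem hu) hw1) hu, ?_⟩, by
        simp [mul_assoc]⟩
      have e : h⁻¹ * g * h = u⁻¹ * (k⁻¹ * g * k) * u⁻¹⁻¹ := by simp only [u]; group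
      rw [e, show u⁻¹ * w * u = u⁻¹ * w * u⁻¹⁻¹ by rw [inv_inv]]
      exact Commute.map hw2 (MulAut.conj u⁻¹).toMonoidHom
  rw [← hmap]
  exact Nat.card_congr (Subgroup.equivMapOfInjective _ _ (MulAut.conj u).injective).toEquiv

include hx hZ in
set_option maxHeartbeats 1000000 in
theorem nor_index_modEq (hxH : x ∈ H) {m : ℕ} (hm : m.Coprime 3) (hmC : m ∣ Nat.card (cen H x)) :
    ((nor H x).subgroupOf H).index ≡ 1 [MOD m] := by
  classical
  haveI : Finite (Cfsg.SU 3 F q) := Subtype.finite
  set NH := (nor H x).subgroupOf H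
  set C := (cen H x).subgroupOf H
  set d := Nat.card (Subgroup.center (Cfsg.SU 3 F q))
  have hd : d ∣ 3 := by
    rw [show d = _ from Forms.card_center_SU hF (n := 3) (by norm_num)]
    exact Nat.gcd_dvd_left _ _
  set ν := ((cen H x).subgroupOf (nor H x)).index
  have hmν : m.Coprime (ν * d) := by
    refine Nat.Coprime.mul_right ?_ (hm.coprime_dvd_right hd)
    rcases nor_index_cases hF hx hxH with h | h <;> simp only [ν, h]
    · exact Nat.coprime_one_right m
    · exact hm
  have hbase : ∀ c : C, c • (((1 : H) : H ⧸ NH)) = ((1 : H) : H ⧸ NH) := fun c => by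
    show (((c : H) * 1 : H) : H ⧸ NH) = _
    rw [QuotientGroup.eq, Subgroup.mem_subgroupOf]
    simp only [mul_one, Subgroup.coe_mul, Subgroup.coe_inv]
    exact Subgroup.inv_mem _ (cen_le_nor (H := H) c.2)
  let O : SubMulAction C (H ⧸ NH) :=
    { carrier := Set.univ \ {((1 : H) : H ⧸ NH)}
      smul_mem' := fun c w hw => ⟨trivial, fun h => hw.2 (by
        rw [Set.mem_singleton_iff] at h ⊢
        exact MulAction.injective c (h.trans (hbase c).symm))⟩ }
  have hO : Nat.card O = NH.index - 1 := by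
    have h1 := Set.ncard_sdiff_singleton_of_mem (Set.mem_univ ((1 : H) : H ⧸ NH))
    rw [Set.ncard_univ] at h1
    exact (Nat.card_coe_set_eq _).trans h1
  refine ((Nat.modEq_iff_dvd' (Nat.pos_of_ne_zero Subgroup.index_ne_zero_of_finite)).2 ?_).symm
  haveI : Finite O := Subtype.finite
  haveI : Fintype (MulAction.orbitRel.Quotient C O) := Fintype.ofFinite _
  rw [← hO, Nat.card_congr (MulAction.selfEquivSigmaOrbits C O), Nat.card_sigma]
  refine Finset.dvd_sum fun ω _ => ?_
  rw [Nat.card_coe_set_eq, ← MulAction.index_stabilizer]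
  set S := MulAction.stabilizer C ω.out
  have hS : ∀ y ∈ S, y ^ (ν * d) = 1 := by
    intro y hy
    have hy' : y • (ω.out : H ⧸ NH) = (ω.out : H ⧸ NH) := congrArg Subtype.val hy
    obtain ⟨g, hg⟩ := QuotientGroup.mk_surjective (ω.out : H ⧸ NH)
    rw [← hg] at hy'
    change (((y : H) * g : H) : H ⧸ NH) = _ at hy'
    rw [eq_comm, QuotientGroup.eq, Subgroup.mem_subgroupOf] at hy'
    have hgN : g ∉ NH := fun h => ω.out.2.2 (by
      rw [Set.mem_singleton_iff, ← hg, QuotientGroup.eq, mul_one]; exact inv_mem h)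
    simp only [Subgroup.coe_mul, Subgroup.coe_inv, ← mul_assoc] at hy'
    set Y : Cfsg.SU 3 F q := ((y : H) : Cfsg.SU 3 F q)
    set G' : Cfsg.SU 3 F q := (g : Cfsg.SU 3 F q)
    haveI := cen_normal_nor (H := H) (x := x)
    have hp := Subgroup.mem_subgroupOf.1 (Subgroup.pow_index_mem ((cen H x).subgroupOf (nor H x)) ⟨_, hy'⟩)
    rw [SubmonoidClass.coe_pow] at hp
    have e1 : (G'⁻¹ * Y * G') ^ ν = G'⁻¹ * Y ^ ν * G' := by
      have h := conj_pow (a := G'⁻¹) (b := Y) (i := ν)
      rwa [inv_inv] at h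
    rw [show ((⟨G'⁻¹ * Y * G', hy'⟩ : nor H x) : Cfsg.SU 3 F q) = G'⁻¹ * Y * G' from rfl, e1] at hp
    have hYν : Y ^ ν ∈ Subgroup.center (Cfsg.SU 3 F q) := by
      by_contra hnc
      apply hgN
      rw [Subgroup.mem_subgroupOf, ← inv_mem_iff]
      exact ti hF hx hxH (H.inv_mem g.2) (Subgroup.pow_mem _ y.2 ν) hnc (by rw [inv_inv]; exact hp)
    have h1 : (⟨Y ^ ν, hYν⟩ : Subgroup.center (Cfsg.SU 3 F q)) ^ d = 1 := pow_card_eq_one'
    refine Subtype.ext (Subtype.ext ?_)
    rw [SubmonoidClass.coe_pow, SubmonoidClass.coe_pow, OneMemClass.coe_one, OneMemClass.coe_one, pow_mul]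
    exact congrArg Subtype.val h1
  haveI := cen_cyclic hF (H := H) hx
  haveI : IsCyclic C := (Subgroup.subgroupOfEquivOfLe (inf_le_left : cen H x ≤ H)).isCyclic.2 (cen_cyclic hF (H := H) hx)
  obtain ⟨g, hg⟩ := IsCyclic.exists_ofOrder_eq_natCard (α := S)
  have hSdvd : Nat.card S ∣ ν * d := by
    rw [← hg]
    exact orderOf_dvd_of_pow_eq_one (Subtype.ext (hS _ g.2))
  refine (hmν.coprime_dvd_right hSdvd).dvd_of_dvd_mul_left ?_
  rw [Subgroup.card_mul_index, show Nat.card C = Nat.card (cen H x) from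
    Nat.card_congr (Subgroup.subgroupOfEquivOfLe (inf_le_left : cen H x ≤ H)).toEquiv]
  exact hmC

omit hx in
theorem exists_frame_z {v : Fin 3 → F} (hv : B v v ≠ 0) :
    ∃ e f z : Fin 3 → F, Frame hF e f z ∧ ∃ a : F, v = a • z := by
  classical
  have hP := (Forms.isForm_herm (n := 3) hF).finrank_perp (Submodule.span F {v})
  rw [Module.finrank_fin_fun, finrank_span_singleton (fun h => hv (by rw [h, ub_zero_left]))] at hP
  obtain ⟨e, he, he0, hee⟩ := exists_isotropic hF
    (Forms.perp (Forms.hermB 3 hF) (Submodule.span F {v})) (by omega)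
  have hve : B v e = 0 := Forms.mem_perp_span_singleton.1 he
  obtain ⟨e₀, f₀, z₀, hfr₀, he₀⟩ := exists_frame_at hF (pt hF he0 hee)
  obtain ⟨k, hk⟩ := (pt_eq_iff hF _ _ _ _).1 he₀
  have hev : B e₀ v = 0 := by rw [← hk, ub_smul_left hF, ub_eq_zero_symm hF hve, mul_zero]
  have hsp : v = B f₀ v • e₀ + B z₀ v • z₀ := by
    conv_lhs => rw [hfr₀.span v, hev, zero_smul, add_zero]
  set a := B z₀ v
  set b := B f₀ v
  have ha : a ≠ 0 := fun h => hv (by
    rw [hsp, h, zero_smul, add_zero, ub_smul_left hF, ub_smul_right hF, hfr₀.ee, mul_zero, mul_zero])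
  obtain ⟨t, ht⟩ := exists_trace_one hF
  set a' := -σ (b / a)
  have hadm : Adm hF a' (-(t * (σ a' * a'))) := by
    simp only [Adm, map_neg, map_mul, sig_sig hF]
    linear_combination -(σ a' * a') * ht
  refine ⟨_, _, _, frame_map hF hfr₀ (R hF hfr₀ a' (-(t * (σ a' * a')))), a, ?_⟩
  rw [(act_R hF hfr₀ hadm).2.1]
  simp only [a', map_neg, sig_sig hF]
  rw [neg_smul, sub_neg_eq_add, smul_add, smul_smul, mul_div_cancel₀ _ ha, add_comm]
  exact hsp

omit hx in
/-- An element of prime order off `q(q² - 1)` acts irreducibly. -/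
theorem simp_of_orderOf {g : Cfsg.SU 3 F q} {r : ℕ} [Fact r.Prime] (hg : orderOf g = r)
    (h1 : ¬r ∣ q ^ 2 - 1) (h2 : ¬r ∣ q + 1) (h3 : ¬r ∣ q) : Simp (act g) := by
  classical
  haveI : Finite (Cfsg.SU 3 F q) := Subtype.finite
  have hr : r.Prime := Fact.out
  have hgr : g ^ r = 1 := by rw [← hg, pow_orderOf_eq_one]
  have hunit : ∀ t : Fˣ, t ^ r = 1 → t = 1 := fun t ht => by
    rcases (Nat.dvd_prime hr).1 (orderOf_dvd_of_pow_eq_one ht) with h | h
    · exact orderOf_eq_one_iff.1 h
    · exact absurd (h ▸ (Forms.card_units_sq hF ▸ orderOf_dvd_natCard t)) h1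
  have hpoint : ∀ p : isoPts (n := 3) hF, g • p ≠ p := by
    intro p hp
    obtain ⟨e, f, z, hfr, rfl⟩ := exists_frame_at hF p
    set gb : bor hF e := ⟨g, (mem_bor_iff hF _ _ _).2 hp⟩
    have hgb : gb ^ r = 1 := Subtype.ext hgr
    have hchi : chi hF hfr gb = 1 := hunit _ (by rw [← map_pow, hgb, map_one])
    have hord : orderOf (⟨gb, hchi⟩ : (chi hF hfr).ker) = r := by
      rw [← Subgroup.orderOf_coe, ← Subgroup.orderOf_coe]; exact hg
    have := orderOf_dvd_natCard (⟨gb, hchi⟩ : (chi hF hfr).ker)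
    rw [hord, card_ker_chi hF hfr] at this
    exact h3 (hr.dvd_of_dvd_pow this)
  refine simp_of_no_eigen hF fun v hv t ht => ?_
  by_cases hvv : B v v = 0
  · exact hpoint _ (smul_pt_eq hF g hv hvv hv hvv ht)
  have ht0 : t ≠ 0 := fun h => act_ne_zero g hv (by rw [ht, h, zero_smul])
  have htr : ∀ k : ℕ, act (g ^ k) v = t ^ k • v := fun k => by
    induction k with
    | zero => rw [pow_zero, pow_zero, act_one, one_smul]; rfl
    | succ k ih => rw [pow_succ, act_mul_apply, ht, map_smul, ih, smul_smul, pow_succ']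
  have ht1 : t = 1 := by
    have h4 := htr r
    rw [hgr, act_one] at h4
    have h5 : t ^ r = 1 := (smul_left_injective F hv ((one_smul F v).trans h4)).symm
    exact congrArg Units.val (hunit (Units.mk0 t ht0) (Units.ext (by simpa using h5)))
  rw [ht1, one_smul] at ht
  obtain ⟨e, f, z, hfr, a, hva⟩ := exists_frame_z hF hvv
  have ha : a ≠ 0 := fun h => hv (by rw [hva, h, zero_smul])
  have hgz : act g z = z := by
    rw [hva, map_smul] at ht
    exact smul_right_injective _ ha ht
  -- the isotropic points orthogonal to `z`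
  set S := Option {c : F // Adm hF 0 c}
  let ψ : S → isoPts (n := 3) hF := fun o => o.elim (pt hF (fr_e0 hF hfr) hfr.ee)
    fun c => R hF hfr 0 c.1 • pt hF (fr_f0 hF hfr) hfr.ff
  have hψinj : Function.Injective ψ := by
    have hne : pt hF (fr_f0 hF hfr) hfr.ff ≠ pt hF (fr_e0 hF hfr) hfr.ee := fun h => by
      obtain ⟨a, ha⟩ := (pt_eq_iff hF _ _ _ _).1 h
      have := congrArg (B e) ha
      rw [ub_smul_right hF, hfr.ee, hfr.ef, mul_zero] at this
      exact zero_ne_one this
    have hfe : ∀ c : {c : F // Adm hF 0 c}, R hF hfr 0 c.1 • pt hF (fr_e0 hF hfr) hfr.ee =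
        pt hF (fr_e0 hF hfr) hfr.ee := fun c => (mem_bor_iff hF _ _ _).1 (R_mem_bor hF hfr c.2)
    intro o o' h
    rcases o with _ | c <;> rcases o' with _ | c' <;> simp only [ψ, Option.elim] at h
    · rfl
    · exact absurd (MulAction.injective _ (h.symm.trans (hfe c').symm)) hne
    · exact absurd (MulAction.injective _ (h.trans (hfe c).symm)) hne
    · have hm := adm_mul hF (adm_neg hF c'.2) c.2
      have h6 : R hF hfr (-0 + 0) (-c'.1 - σ 0 * 0 + c.1 - σ (-0) * 0) • pt hF (fr_f0 hF hfr) hfr.ff =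
          pt hF (fr_f0 hF hfr) hfr.ff := by
        rw [← R_mul hF hfr (adm_neg hF c'.2) c.2, ← R_inv hF hfr c'.2, mul_smul, h, inv_smul_smul]
      have h7 := (R_fix_eq_one hF hfr hm hne h6).2
      simp only [map_zero, map_neg, neg_zero, mul_zero, sub_zero] at h7
      exact congrArg some (Subtype.ext (by linear_combination h7))
  have hcard : Nat.card (Set.range ψ) = q + 1 := by
    rw [Nat.card_range_of_injective hψinj, Finite.card_option]
    congr 1
    exact (Nat.card_congr (Equiv.subtypeEquivRight fun c => adm_zero_iff hF c)).trans (card_skew hF)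
  have hmem : ∀ (p : isoPts (n := 3) hF), p ∈ Set.range ψ ↔ B z p.1.rep = 0 := by
    intro p
    constructor
    · rintro ⟨o, rfl⟩
      have key : ∀ (w : V) (hw0 : w ≠ 0) (hw : B w w = 0), B z w = 0 → B z (pt hF hw0 hw).1.rep = 0 := by
        intro w hw0 hw hzw
        obtain ⟨u, hu⟩ := Projectivization.exists_smul_eq_mk_rep F w hw0
        show B z (Projectivization.mk F w hw0).rep = 0
        rw [← hu, Units.smul_def, ub_smul_right hF, hzw, mul_zero]
      rcases o with _ | c
      · exact key _ _ hfr.ee (fr_ze hF hfr)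
      · simp only [ψ, Option.elim]
        rw [smul_pt hF]
        refine key _ _ _ ?_
        rw [(act_R hF hfr c.2).2.2]
        simp [ub_add_right hF, ub_smul_right hF, fr_zf hF hfr, fr_ze hF hfr]
    · intro hzp
      by_cases hpe : p = pt hF (fr_e0 hF hfr) hfr.ee
      · exact ⟨none, hpe.symm⟩
      obtain ⟨b, c, hbc, rfl⟩ := exists_R_smul hF hfr p hpe
      rw [smul_pt hF] at hzp
      obtain ⟨u, hu⟩ := Projectivization.exists_smul_eq_mk_rep F _
        (act_ne_zero (R hF hfr b c) (fr_f0 hF hfr))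
      change B z (Projectivization.mk F _ _).rep = 0 at hzp
      rw [← hu, Units.smul_def, ub_smul_right hF, (act_R hF hfr hbc).2.2] at hzp
      simp only [ub_add_right hF, ub_smul_right hF, fr_zf hF hfr, fr_ze hF hfr, hfr.zz, mul_zero, mul_one,
        zero_add, add_zero, mul_eq_zero, Units.ne_zero, false_or] at hzp
      subst hzp
      exact ⟨some ⟨c, hbc⟩, rfl⟩
  let SS : SubMulAction (Subgroup.zpowers g) (isoPts (n := 3) hF) :=
    { carrier := Set.range ψ
      smul_mem' := by
        intro u p hp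
        rw [hmem] at hp ⊢
        obtain ⟨w, hw0, hw, rfl⟩ := exists_pt hF p
        have huz : act (u : Cfsg.SU 3 F q) z = z := by
          obtain ⟨j, hj⟩ := Subgroup.mem_zpowers_iff.1 u.2
          have hS : (u : Cfsg.SU 3 F q) ∈ (⟨⟨⟨{k | act k z = z}, fun {a b} ha hb => by
              show act (a * b) z = z; rw [act_mul_apply, hb, ha]⟩, by show act 1 z = z; rw [act_one]; rfl⟩,
              fun {a} ha => by
                show act a⁻¹ z = z
                conv_lhs => rw [← (ha : act a z = z)]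
                rw [← act_mul_apply, inv_mul_cancel, act_one]; rfl⟩ : Subgroup (Cfsg.SU 3 F q)) := by
            rw [← hj]
            exact Subgroup.zpow_mem _ hgz j
          exact hS
        obtain ⟨u1, hu1⟩ := Projectivization.exists_smul_eq_mk_rep F w hw0
        obtain ⟨u2, hu2⟩ := Projectivization.exists_smul_eq_mk_rep F _
          (act_ne_zero (u : Cfsg.SU 3 F q) hw0)
        change B z (Projectivization.mk F w hw0).rep = 0 at hp
        show B z ((u : Cfsg.SU 3 F q) • pt hF hw0 hw).1.rep = 0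
        rw [smul_pt hF]
        show B z (Projectivization.mk F _ _).rep = 0
        rw [← hu2, Units.smul_def, ub_smul_right hF, ← huz, act_ub hF]
        rw [← hu1, Units.smul_def, ub_smul_right hF, mul_eq_zero] at hp
        rw [hp.resolve_left u1.ne_zero, mul_zero] }
  have hP : IsPGroup r (Subgroup.zpowers g) := IsPGroup.of_card (n := 1) (by
    rw [Nat.card_zpowers, hg, pow_one])
  have hSScard : Nat.card SS = q + 1 := hcard
  haveI : Finite SS := Nat.finite_of_card_ne_zero (by omega)
  obtain ⟨⟨p, hp⟩, hpfix⟩ := hP.nonempty_fixed_point_of_prime_not_dvd_card SS (by rw [hSScard]; exact h2)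
  exact hpoint p (congrArg Subtype.val (hpfix ⟨g, Subgroup.mem_zpowers g⟩))

end Cfsg.Agent.Forms.SUThree.MinIdx
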