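import Cfsg.Agent.Forms.SUThreeMinIndexSub
import Cfsg.Agent.Forms.SUThreeMinIndexIrred

/-!
# Counting the elements with fixed points, and Singer elements
-/

set_option autoImplicit false

namespace Cfsg.Agent.Forms.SUThree.MinIdx

open Cfsg.Agent.KnownA
open Cfsg.Agent.Forms (frobQ isoPts)
open scoped LinearAlgebra.Projectivization

variable {F : Type*} [Field F] [Fintype F] {q : ℕ} (hF : Fintype.card F = q ^ 2)
include hF

local notation "B" => ub hF
local notation "σ" => frobQ hF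

theorem pow_eq_one_of_sChar {t : Fˣ} (h : sChar hF t = 1) :
    t ^ Nat.card (Subgroup.center (Cfsg.SU 3 F q)) = 1 := by
  have ht := t.ne_zero
  have h1 : σ t * σ t = (t : F) := by
    have := congrArg Units.val h
    rw [sChar_coe, Units.val_one, div_eq_one_iff_eq ht] at this
    exact this
  have h2 : (t : F) * t = σ t := by
    have := congrArg (σ) h1
    rwa [map_mul, sig_sig hF] at this
  have h3 : t ^ 3 = 1 := Units.ext (by
    rw [Units.val_pow_eq_pow_val, Units.val_one]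
    refine mul_right_cancel₀ ht ?_
    rw [one_mul]
    calc (t : F) ^ 3 * t = ((t : F) * t) * ((t : F) * t) := by ring
      _ = t := by rw [h2, h1])
  have h4 : t ^ (q + 1) = 1 := Units.ext (by
    rw [Units.val_pow_eq_pow_val, Units.val_one, pow_succ, ← Forms.frobQ_apply hF, ← h2]
    have := congrArg Units.val h3
    rw [Units.val_pow_eq_pow_val, Units.val_one] at this
    linear_combination this)
  rw [Forms.card_center_SU hF (n := 3) (by norm_num)]
  exact pow_gcd_eq_one.2 ⟨h3, h4⟩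

theorem card_roots_unity_le (n : ℕ) (hn : 0 < n) : Nat.card {t : Fˣ // t ^ n = 1} ≤ n := by
  classical
  rw [Nat.card_eq_fintype_card, Fintype.card_subtype]
  exact IsCyclic.card_pow_eq_one_le hn

variable (H : Subgroup (Cfsg.SU 3 F q))

/-- The kernel of the middle multiplier on `T₀` is small. -/
theorem card_tc_le {e f z : Fin 3 → F} (hfr : Frame hF e f z) :
    Nat.card (tc hF H hfr) = Nat.card ((sChar hF).comp (tc hF H hfr).subtype).ker *
        Nat.card ((tc hF H hfr).map (sChar hF)) ∧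
      Nat.card ((sChar hF).comp (tc hF H hfr).subtype).ker ≤
        Nat.card (Subgroup.center (Cfsg.SU 3 F q)) := by
  classical
  haveI : Finite (Cfsg.SU 3 F q) := Subtype.finite
  set φ := (sChar hF).comp (tc hF H hfr).subtype
  refine ⟨?_, ?_⟩
  · rw [← Subgroup.card_mul_index φ.ker, Subgroup.index_ker, MonoidHom.range_comp, Subgroup.range_subtype]
  · refine le_trans (Nat.card_le_card_of_injective
      (fun t : φ.ker => (⟨((t : tc hF H hfr) : Fˣ), pow_eq_one_of_sChar hF t.2⟩ :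
        {t : Fˣ // t ^ Nat.card (Subgroup.center (Cfsg.SU 3 F q)) = 1})) fun a b h => ?_)
      (card_roots_unity_le hF _ Nat.card_pos)
    have h1 := congrArg (fun u : {t : Fˣ // t ^ Nat.card (Subgroup.center (Cfsg.SU 3 F q)) = 1} =>
      (u : Fˣ)) h
    exact Subtype.ext (Subtype.ext h1)

theorem center_chi {e f z : Fin 3 → F} (hfr : Frame hF e f z) (g : bor hF e)
    (hg : (g : Cfsg.SU 3 F q) ∈ Subgroup.center (Cfsg.SU 3 F q)) :
    sChar hF (chi hF hfr g) = 1 := by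
  obtain ⟨c, hc⟩ := (Forms.su_mem_center_iff hF (by norm_num) _).1 hg
  have hchi : (chi hF hfr g : F) = c := chi_eq hF hfr g (hc e)
  have hN : σ c * c = 1 := by
    have := act_ub hF (g : Cfsg.SU 3 F q) e f
    rwa [hc, hc, ub_smul_left hF, ub_smul_right hF, hfr.ef, mul_one] at this
  have hc3 : c ^ 3 = 1 := by
    have h := det_act (g : Cfsg.SU 3 F q)
    rw [show act (g : Cfsg.SU 3 F q) = c • (LinearMap.id : (Fin 3 → F) →ₗ[F] (Fin 3 → F)) from
      LinearMap.ext hc, LinearMap.det_smul, LinearMap.det_id, mul_one, Module.finrank_fin_fun] at h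
    exact h
  refine Units.ext ?_
  rw [sChar_coe, hchi, Units.val_one, div_eq_one_iff_eq (fun h => by simp [h] at hc3)]
  linear_combination (-(σ c * σ c)) * hc3 + c * (σ c * c + 1) * hN

theorem center_smul (g : Cfsg.SU 3 F q) (hg : g ∈ Subgroup.center (Cfsg.SU 3 F q))
    (y : isoPts (n := 3) hF) : g • y = y := by
  obtain ⟨v, hv0, hv, rfl⟩ := exists_pt hF y
  obtain ⟨c, hc⟩ := (Forms.su_mem_center_iff hF (by norm_num) _).1 hg
  exact smul_pt_eq hF _ _ _ _ _ (hc v)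

/-- At a point: the elements with at most two fixed points. -/
theorem point_bound (hZ : Subgroup.center (Cfsg.SU 3 F q) ≤ H)
    (hd : Nat.card (Subgroup.center (Cfsg.SU 3 F q)) = 3) {e f z : Fin 3 → F} (hfr : Frame hF e f z)
    {τ : ℕ} (hpc : (pc hF H hfr).ncard = q) (hτ : Nat.card (tc hF H hfr) = τ)
    (hs : ∀ t ∈ tc hF H hfr, σ (sChar hF t : F) = sChar hF t) :
    3 * (q - 1) ≤ {g : Cfsg.SU 3 F q | g ∈ H ∧ g ∉ Subgroup.center (Cfsg.SU 3 F q) ∧
        {y : isoPts (n := 3) hF | g • y = y} = {pt hF (fr_e0 hF hfr) hfr.ee}}.ncard ∧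
    q * (τ - 6) + 3 * (q - 1) ≤ {g : Cfsg.SU 3 F q | g ∈ H ∧ g ∉ Subgroup.center (Cfsg.SU 3 F q) ∧
        g • pt hF (fr_e0 hF hfr) hfr.ee = pt hF (fr_e0 hF hfr) hfr.ee ∧
        {y : isoPts (n := 3) hF | g • y = y}.ncard ≤ 2}.ncard := by
  classical
  haveI : Finite (Cfsg.SU 3 F q) := Subtype.finite
  haveI : Finite (isoPts (n := 3) hF) := Nat.finite_of_card_ne_zero (by rw [card_isoPts hF hfr]; omega)
  set x := pt hF (fr_e0 hF hfr) hfr.ee with hxdef
  set Z := Subgroup.center (Cfsg.SU 3 F q)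
  set A := {g : Cfsg.SU 3 F q | g ∈ H ∧ g ∉ Z ∧ {y : isoPts (n := 3) hF | g • y = y} = {x}} with hA
  set Bs := {g : Cfsg.SU 3 F q | g ∈ H ∧ g ∉ Z ∧ g • x = x ∧
      {y : isoPts (n := 3) hF | g • y = y}.ncard ≤ 2} with hBs
  set P1 := pc hF H hfr \ {((0 : F), (0 : F))}
  set E1 := (fun w : (F × F) × Cfsg.SU 3 F q => R hF hfr w.1.1 w.1.2 * w.2) ''
    (P1 ×ˢ (Z : Set (Cfsg.SU 3 F q))) with hE1
  have h00 : ((0 : F), (0 : F)) ∈ pc hF H hfr := ⟨adm_zero hF, by rw [R_zero]; exact H.one_mem⟩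
  have hE1card : E1.ncard = 3 * (q - 1) := by
    rw [hE1, Set.InjOn.ncard_image, Set.ncard_prod, Set.ncard_sdiff_singleton_of_mem h00, hpc,
      ← Nat.card_coe_set_eq (Z : Set (Cfsg.SU 3 F q)),
      show Nat.card (Z : Set (Cfsg.SU 3 F q)) = 3 from hd, mul_comm]
    rintro ⟨⟨a, c⟩, u⟩ ⟨⟨hp, -⟩, hu⟩ ⟨⟨b, d⟩, v⟩ ⟨⟨hr, -⟩, hv⟩ h
    simp only at h
    have h1 : (R hF hfr b d)⁻¹ * R hF hfr a c = v * u⁻¹ := by
      rw [eq_mul_inv_iff_mul_eq, mul_assoc, h, inv_mul_cancel_left]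
    rw [R_inv hF hfr hr.1, R_mul hF hfr (adm_neg hF hr.1) hp.1] at h1
    obtain ⟨h2, h3⟩ := R_central hF hfr (adm_mul hF (adm_neg hF hr.1) hp.1)
      (by rw [h1]; exact Z.mul_mem hv (Z.inv_mem hu))
    simp only at h2 h3 ⊢
    have h4 : a = b := by linear_combination h2
    subst h4
    rw [map_neg] at h3
    have h5 : c = d := by linear_combination h3
    subst h5
    exact Prod.ext rfl (mul_left_cancel h)
  have hE1A : E1 ⊆ A := by
    rintro _ ⟨⟨⟨a, c⟩, u⟩, ⟨⟨⟨hadm, hRH⟩, hne⟩, hu⟩, rfl⟩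
    have hnc : ¬(a = 0 ∧ c = 0) := fun h => hne (by rw [h.1, h.2]; rfl)
    refine ⟨H.mul_mem hRH (hZ hu), fun hz => hnc (R_central hF hfr hadm ?_), ?_⟩
    · have := Z.mul_mem hz (Z.inv_mem hu)
      rwa [mul_inv_cancel_right] at this
    · ext y
      simp only [Set.mem_setOf_eq, Set.mem_singleton_iff, mul_smul, center_smul hF u hu]
      refine ⟨fun hy => ?_, fun hy => ?_⟩
      · by_contra hyx
        exact hnc (R_fix_eq_one hF hfr hadm hyx hy)
      · rw [hy]; exact (mem_bor_iff hF _ _ _).1 (R_mem_bor hF hfr hadm)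
  refine ⟨hE1card ▸ Set.ncard_le_ncard hE1A (Set.toFinite _), ?_⟩
  have hAB : A ⊆ Bs := fun g ⟨h1, h2, h3⟩ => ⟨h1, h2, by
    have : x ∈ {y : isoPts (n := 3) hF | g • y = y} := h3 ▸ rfl
    exact this, by rw [h3, Set.ncard_singleton]; omega⟩
  set T' := {t : Fˣ | t ∈ tc hF H hfr ∧ sChar hF t * sChar hF t ≠ 1}
  have hT' : τ - 6 ≤ T'.ncard := by
    have h1 : ((tc hF H hfr : Set Fˣ) \ T').ncard ≤ 6 := by
      refine le_trans (Set.ncard_le_ncard (t := {t : Fˣ | t ^ 6 = 1}) ?_ (Set.toFinite _)) ?_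
      · rintro t ⟨ht, ht'⟩
        simp only [T', Set.mem_setOf_eq, not_and, not_not] at ht'
        have h2 := pow_eq_one_of_sChar hF (t := t * t) (by rw [map_mul]; exact ht' ht)
        rw [hd] at h2
        show t ^ 6 = 1
        rw [← h2, ← pow_two, ← pow_mul]
      · rw [← Nat.card_coe_set_eq]; exact card_roots_unity_le hF 6 (by norm_num)
    have h3 := Set.ncard_le_ncard_sdiff_add_ncard (tc hF H hfr : Set Fˣ) T' (Set.toFinite _)
    have h4 : (tc hF H hfr : Set Fˣ).ncard = τ := by rw [← Nat.card_coe_set_eq]; exact hτ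
    omega
  set E2 := {g : Cfsg.SU 3 F q | g ∈ H ∧ ∃ hg : g ∈ bor hF e, chi hF hfr ⟨g, hg⟩ ∈ T'}
  have hE2card : q * (τ - 6) ≤ E2.ncard := by
    refine le_trans (Nat.mul_le_mul_left q hT') ?_
    refine le_trans (le_of_eq (congrArg (fun k => k * T'.ncard) hpc.symm)) ?_
    rw [← Nat.card_coe_set_eq, ← Nat.card_coe_set_eq, ← Nat.card_coe_set_eq, ← Nat.card_prod]
    have hrep : ∀ t : T', ∃ g : bor hF e, (g : Cfsg.SU 3 F q) ∈ H ∧ chi hF hfr g = t := fun t =>
      (mem_tc hF hfr H).1 t.2.1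
    choose gr hgr1 hgr2 using hrep
    have hchi : ∀ (t : T') (p : pc hF H hfr),
        chi hF hfr (gr t * ⟨R hF hfr p.1.1 p.1.2, R_mem_bor hF hfr p.2.1⟩) = t := fun t p => by
      rw [map_mul, hgr2, (chi_eq_one_iff hF hfr _).2 ⟨_, _, p.2.1, rfl⟩, mul_one]
    refine Nat.card_le_card_of_injective (fun w : pc hF H hfr × T' =>
      (⟨(gr w.2 * ⟨R hF hfr w.1.1.1 w.1.1.2, R_mem_bor hF hfr w.1.2.1⟩ : bor hF e),
        H.mul_mem (hgr1 w.2) w.1.2.2, SetLike.coe_mem _, by rw [Subtype.coe_eta, hchi]; exact w.2.2⟩ : E2))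
      fun w w' h => ?_
    have h1 : gr w.2 * ⟨R hF hfr w.1.1.1 w.1.1.2, R_mem_bor hF hfr w.1.2.1⟩ =
        gr w'.2 * ⟨R hF hfr w'.1.1.1 w'.1.1.2, R_mem_bor hF hfr w'.1.2.1⟩ :=
      Subtype.ext (congrArg (fun g : E2 => (g : Cfsg.SU 3 F q)) h)
    have h2 : w.2 = w'.2 := by
      have := congrArg (chi hF hfr) h1
      rw [hchi, hchi] at this
      exact Subtype.ext this
    rw [h2] at h1
    obtain ⟨h3, h4⟩ := R_inj hF hfr w.1.2.1 w'.1.2.1 (congrArg Subtype.val (mul_left_cancel h1))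
    exact Prod.ext (Subtype.ext (Prod.ext h3 h4)) h2
  have hdisj : Disjoint E1 E2 := by
    rw [Set.disjoint_left]
    rintro _ ⟨⟨⟨a, c⟩, u⟩, ⟨⟨⟨hadm, -⟩, -⟩, hu⟩, rfl⟩ ⟨-, hb, -, hT⟩
    refine hT ?_
    set ub' : bor hF e := ⟨u, center_le_bor hF hfr hu⟩
    have e1 : (⟨R hF hfr a c * u, hb⟩ : bor hF e) = ⟨R hF hfr a c, R_mem_bor hF hfr hadm⟩ * ub' := rfl
    rw [e1, map_mul, (chi_eq_one_iff hF hfr _).2 ⟨_, _, hadm, rfl⟩, one_mul,
      center_chi hF hfr ub' hu, one_mul]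
  have hE2B : E2 ⊆ Bs := by
    rintro g ⟨hgH, hgb, htT, hT⟩
    set gb : bor hF e := ⟨g, hgb⟩
    set t := chi hF hfr gb
    refine ⟨hgH, fun hz => hT (by rw [center_chi hF hfr gb hz, one_mul]),
      (mem_bor_iff hF _ _ _).1 hgb, ?_⟩
    have huniq : ∀ y y' : isoPts (n := 3) hF, y ≠ x → y' ≠ x → g • y = y → g • y' = y' → y = y' := by
      intro y y' hy hy' hgy hgy'
      obtain ⟨a, c, hadm, rfl⟩ := exists_R_smul hF hfr y hy
      obtain ⟨a', c', hadm', rfl⟩ := exists_R_smul hF hfr y' hy'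
      rw [smul_pt hF (R hF hfr a c)] at hgy ⊢
      rw [smul_pt hF (R hF hfr a' c')] at hgy' ⊢
      set w := act (R hF hfr a c) f
      set w' := act (R hF hfr a' c') f
      have hev : ∀ (a c : F), Adm hF a c → B e (act (R hF hfr a c) f) = 1 := fun a c h => by
        rw [(act_R hF hfr h).2.2]
        simp [ub_add_right hF, ub_smul_right hF, hfr.ef, hfr.ez, hfr.ee]
      have heig : ∀ (v : Fin 3 → F) (hv0 : v ≠ 0) (hv : B v v = 0), B e v = 1 →
          g • pt hF hv0 hv = pt hF hv0 hv → σ t * (0 + 1) ≠ 0 ∧ act g v = (σ t)⁻¹ • v := by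
        intro v hv0 hv hev1 hfix
        obtain ⟨k, hk⟩ := (mem_bor_iff hF hv0 hv g).2 hfix
        have h1 := ub_act_left hF g (act_chi hF hfr gb) v
        rw [hk, ub_smul_right hF, hev1, mul_one] at h1
        have hst := sig_ne_zero hF t.ne_zero
        refine ⟨by rwa [zero_add, mul_one], ?_⟩
        rw [hk]
        congr 1
        exact eq_inv_of_mul_eq_one_right h1
      obtain ⟨-, h1⟩ := heig w _ _ (hev a c hadm) hgy
      obtain ⟨-, h2⟩ := heig w' _ _ (hev a' c' hadm') hgy'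
      set u := w - w'
      have hgu : act g u = (σ t)⁻¹ • u := by rw [map_sub, h1, h2, smul_sub]
      have heu : B e u = 0 := by rw [ub_sub_right hF, hev a c hadm, hev a' c' hadm', sub_self]
      obtain ⟨μ, -, -, hgz, -⟩ := act_bor hF hfr gb
      have hu : u = B f u • e + B z u • z := by
        conv_lhs => rw [hfr.span u, heu, zero_smul, add_zero]
      have hst := sig_ne_zero hF t.ne_zero
      have ht0 := t.ne_zero
      have hs1 : sChar hF t ≠ 1 := fun h => hT (by rw [h, one_mul])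
      have hs2 : (t : F) * σ t ≠ 1 := fun h => hT (Units.ext (by
        have h4 := sChar_norm hF t
        rw [hs t htT] at h4
        rw [Units.val_mul, Units.val_one, h4, h]))
      have hgu' := hgu
      rw [hu, map_add, map_smul, map_smul, act_chi hF hfr gb, hgz] at hgu'
      have hz' := congrArg (B z) hgu'
      simp only [ub_add_right hF, ub_smul_right hF, fr_ze hF hfr, hfr.zz, mul_zero, mul_one, zero_add,
        add_zero] at hz'
      have hzu : B z u = 0 := by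
        by_contra h0
        refine hs1 (Units.ext ?_)
        rw [sChar_coe, Units.val_one]
        have h5 : σ t / t = (σ t)⁻¹ := mul_left_cancel₀ h0 (hz'.trans (mul_comm _ _))
        rw [mul_div_assoc, h5, mul_inv_cancel₀ hst]
      rw [hzu, zero_smul, add_zero] at hu
      have he' := congrArg (B f) hgu
      rw [hu, map_smul, act_chi hF hfr gb] at he'
      simp only [ub_smul_right hF, fr_fe hF hfr, mul_one] at he'
      have hfu : B f u = 0 := by
        by_contra h0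
        refine hs2 ?_
        have h5 : (t : F) = (σ t)⁻¹ := mul_left_cancel₀ h0 (he'.trans (mul_comm _ _))
        exact (congrArg (fun k => k * σ (t : F)) h5).trans (inv_mul_cancel₀ hst)
      rw [hfu, zero_smul] at hu
      rw [pt_eq_iff]
      exact ⟨1, by rw [one_smul]; exact (sub_eq_zero.1 hu).symm⟩
    by_cases hex : ∃ y : isoPts (n := 3) hF, y ≠ x ∧ g • y = y
    · obtain ⟨y₀, hy₀, hgy₀⟩ := hex
      refine le_trans (Set.ncard_le_ncard (t := {x, y₀}) (fun y hy => ?_) (Set.toFinite _))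
        ((Set.ncard_insert_le _ _).trans (by rw [Set.ncard_singleton]))
      by_cases hyx : y = x
      · exact Or.inl hyx
      · exact Or.inr (huniq y y₀ hyx hy₀ hy hgy₀)
    · push Not at hex
      refine le_trans (Set.ncard_le_ncard (t := {x}) (fun y hy => ?_) (Set.toFinite _))
        (by rw [Set.ncard_singleton]; omega)
      by_contra hyx
      exact hex y hyx hy
  have h5 := Set.ncard_union_eq hdisj (Set.toFinite _) (Set.toFinite _)
  have h6 := Set.ncard_le_ncard (Set.union_subset (hE1A.trans hAB) hE2B) (Set.toFinite _)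
  omega

omit H in
/-- Fixed-point-free elements fill at most about half of `H`. -/
theorem count_bound {H : Subgroup (Cfsg.SU 3 F q)} (hZ : Subgroup.center (Cfsg.SU 3 F q) ≤ H)
    (hd : Nat.card (Subgroup.center (Cfsg.SU 3 F q)) = 3) {τ : ℕ} (hτ6 : 6 ≤ τ) (hq : 1 ≤ q)
    (hcard : Nat.card H = (q ^ 3 + 1) * (q * τ))
    (hall : ∀ (e f z : Fin 3 → F) (hfr : Frame hF e f z), (pc hF H hfr).ncard = q ∧
      Nat.card (tc hF H hfr) = τ ∧ ∀ t ∈ tc hF H hfr, σ (sChar hF t : F) = sChar hF t)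
    {S : Set (Cfsg.SU 3 F q)} (hSH : S ⊆ H) (hS : ∀ g ∈ S, ∀ y : isoPts (n := 3) hF, g • y ≠ y) :
    2 * S.ncard ≤ Nat.card H + 6 * (q ^ 3 + 1) := by
  classical
  haveI : Finite (Cfsg.SU 3 F q) := Subtype.finite
  haveI : Fintype (Cfsg.SU 3 F q) := Fintype.ofFinite _
  obtain ⟨e₀, f₀, z₀, hfr₀⟩ := exists_frame hF
  haveI : Finite (isoPts (n := 3) hF) := Nat.finite_of_card_ne_zero (by rw [card_isoPts hF hfr₀]; omega)
  haveI : Fintype (isoPts (n := 3) hF) := Fintype.ofFinite _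
  set Z := Subgroup.center (Cfsg.SU 3 F q)
  let fx : Cfsg.SU 3 F q → Finset (isoPts (n := 3) hF) := fun g => Finset.univ.filter fun y => g • y = y
  let Φ : Finset (Cfsg.SU 3 F q) := Finset.univ.filter fun g => g ∈ H ∧ g ∉ Z ∧ (fx g).Nonempty
  let wA : isoPts (n := 3) hF → Cfsg.SU 3 F q → ℕ := fun y g => if fx g = {y} then 1 else 0
  let wB : isoPts (n := 3) hF → Cfsg.SU 3 F q → ℕ := fun y g =>
    if y ∈ fx g ∧ (fx g).card ≤ 2 then 1 else 0
  have hupper : ∀ g ∈ Φ, ∑ y, (wA y g + wB y g) ≤ 2 := by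
    intro g _
    rw [Finset.sum_add_distrib]
    simp only [wA, wB, Finset.sum_boole, Nat.cast_id]
    by_cases h1 : ∃ y₀, fx g = {y₀}
    · obtain ⟨y₀, hy₀⟩ := h1
      simp only [hy₀, Finset.singleton_inj, Finset.mem_singleton, Finset.card_singleton]
      have h2 : (Finset.univ.filter fun y => y₀ = y).card ≤ 1 := by rw [Finset.filter_eq]; simp
      have h3 : (Finset.univ.filter fun y => y = y₀ ∧ 1 ≤ 2).card ≤ 1 := by
        refine le_trans (Finset.card_le_card (t := {y₀}) fun y hy => ?_) (by simp)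
        simp only [Finset.mem_filter] at hy
        exact Finset.mem_singleton.2 hy.2.1
      omega
    · push Not at h1
      have h2 : (Finset.univ.filter fun y => fx g = {y}).card = 0 := by
        rw [Finset.card_eq_zero, Finset.filter_eq_empty_iff]; exact fun y _ => h1 y
      rw [h2, zero_add]
      by_cases h3 : (fx g).card ≤ 2
      · refine le_trans (Finset.card_le_card (t := fx g) fun y hy => ?_) h3
        exact (Finset.mem_filter.1 hy).2.1
      · refine le_trans (le_of_eq ?_) (Nat.zero_le 2)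
        rw [Finset.card_eq_zero, Finset.filter_eq_empty_iff]; exact fun y _ h => h3 h.2
  have hlower : ∀ y, q * (τ - 6) + 6 * (q - 1) ≤ ∑ g ∈ Φ, (wA y g + wB y g) := by
    intro y
    obtain ⟨e, f, z, hfr, rfl⟩ := exists_frame_at hF y
    obtain ⟨h1, h2, h3⟩ := hall e f z hfr
    obtain ⟨hA, hB⟩ := point_bound hF H hZ hd hfr h1 h2 h3
    rw [Finset.sum_add_distrib]
    simp only [wA, wB, Finset.sum_boole, Nat.cast_id]
    set x := pt hF (fr_e0 hF hfr) hfr.ee
    have hset : ∀ g, {y : isoPts (n := 3) hF | g • y = y} = (fx g : Set _) := fun g => by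
      ext y; simp [fx]
    simp only [hset, Finset.coe_eq_singleton, Set.ncard_coe_finset] at hA hB
    have hA' := hA.trans (le_of_eq ((congrArg Set.ncard (show {g : Cfsg.SU 3 F q | g ∈ H ∧ g ∉ Z ∧
        fx g = {x}} = ((Φ.filter fun g => fx g = {x}) : Finset _) by
      ext g
      simp only [Set.mem_setOf_eq, Finset.coe_filter, Φ, Finset.mem_filter, Finset.mem_univ, true_and]
      refine ⟨fun ⟨a, b, c⟩ => ⟨⟨a, b, c ▸ Finset.singleton_nonempty x⟩, c⟩,
        fun ⟨⟨a, b, _⟩, c⟩ => ⟨a, b, c⟩⟩)).trans (Set.ncard_coe_finset _)))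
    have hB' := hB.trans (le_of_eq ((congrArg Set.ncard (show {g : Cfsg.SU 3 F q | g ∈ H ∧ g ∉ Z ∧
        g • x = x ∧ (fx g).card ≤ 2} = ((Φ.filter fun g => x ∈ fx g ∧ (fx g).card ≤ 2) : Finset _) by
      ext g
      simp only [Set.mem_setOf_eq, Finset.coe_filter, Φ, Finset.mem_filter, Finset.mem_univ, true_and, fx]
      refine ⟨fun ⟨a, b, c, d⟩ => ⟨⟨a, b, ⟨x, by simp [c]⟩⟩, c, d⟩,
        fun ⟨⟨a, b, _⟩, c, d⟩ => ⟨a, b, c, d⟩⟩)).trans (Set.ncard_coe_finset _)))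
    omega
  have hsum : (q ^ 3 + 1) * (q * (τ - 6) + 6 * (q - 1)) ≤ Φ.card * 2 := by
    refine le_trans ?_ (Finset.sum_le_card_nsmul _ _ 2 hupper)
    rw [Finset.sum_comm, ← card_isoPts hF hfr₀, Nat.card_eq_fintype_card, ← Finset.card_univ]
    exact Finset.card_nsmul_le_sum _ _ _ fun y _ => hlower y
  have hΦS : (↑Φ ∪ S : Set (Cfsg.SU 3 F q)).ncard ≤ Nat.card H := by
    rw [← Nat.card_coe_set_eq]
    refine Nat.card_le_card_of_injective (fun g => (⟨g.1, ?_⟩ : H)) fun a b h =>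
      Subtype.ext (congrArg (fun k : H => (k : Cfsg.SU 3 F q)) h)
    rcases g.2 with h | h
    · exact (Finset.mem_filter.1 h).2.1
    · exact hSH h
  have hdis : Disjoint (↑Φ : Set (Cfsg.SU 3 F q)) S := by
    rw [Set.disjoint_left]
    intro g hg hgS
    obtain ⟨y, hy⟩ := (Finset.mem_filter.1 hg).2.2.2
    exact hS g hgS y (Finset.mem_filter.1 hy).2
  rw [Set.ncard_union_eq hdis (Set.toFinite _) (Set.toFinite _), Set.ncard_coe_finset] at hΦS
  have hlow : (q ^ 3 + 1) * (q * τ) ≤ (q ^ 3 + 1) * (q * (τ - 6) + 6 * (q - 1)) + 6 * (q ^ 3 + 1) := by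
    rw [mul_comm 6 (q ^ 3 + 1), ← mul_add]
    refine Nat.mul_le_mul_left _ ?_
    have e1 : q * τ = q * (τ - 6) + q * 6 := by rw [← mul_add, Nat.sub_add_cancel hτ6]
    omega
  omega

/-- The Singer number. -/
noncomputable def sNum (_hF : Fintype.card F = q ^ 2) : ℕ :=
  (q * (q - 1) + 1) / Nat.card (Subgroup.center (Cfsg.SU 3 F q))

omit H in
theorem sNum_spec : Nat.card (Subgroup.center (Cfsg.SU 3 F q)) * sNum hF = q * (q - 1) + 1 ∧
    q ^ 3 + 1 = Nat.card (Subgroup.center (Cfsg.SU 3 F q)) * sNum hF * (q + 1) ∧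
    (sNum hF).Coprime 3 ∧
    ∀ r, r.Prime → r ∣ sNum hF → ¬r ∣ q ^ 2 - 1 ∧ ¬r ∣ q + 1 ∧ ¬r ∣ q := by
  have hd := Forms.card_center_SU hF (n := 3) (by norm_num)
  set d := Nat.card (Subgroup.center (Cfsg.SU 3 F q)) with hdd
  set M := q * (q - 1) + 1 with hM
  obtain ⟨u, rfl⟩ : ∃ u, q = u + 1 := ⟨q - 1, by have := Forms.two_le_q hF; omega⟩
  simp only [Nat.add_sub_cancel] at hM
  have h3 : Nat.gcd 3 (u + 1 + 1) = 1 ∧ ¬3 ∣ (u + 1) + 1 ∨ Nat.gcd 3 (u + 1 + 1) = 3 ∧ 3 ∣ (u + 1) + 1 := by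
    by_cases h : 3 ∣ u + 1 + 1
    · exact Or.inr ⟨Nat.gcd_eq_left h, h⟩
    · exact Or.inl ⟨(Nat.prime_three.coprime_iff_not_dvd).2 h, h⟩
  have hsn : sNum hF = M / d := by simp [sNum, M, d]
  have key : d * (M / d) = M ∧ (M / d).Coprime 3 := by
    rcases h3 with ⟨e1, h⟩ | ⟨e1, ⟨k, hk⟩⟩
    · rw [e1] at hd
      rw [hd, Nat.div_one, one_mul]
      refine ⟨rfl, (Nat.Coprime.symm ((Nat.prime_three.coprime_iff_not_dvd).2 fun hdv => h ?_))⟩
      have h5 : ∀ w : ZMod 3, (w + 1) * w + 1 = 0 → w + 1 + 1 = 0 := by decide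
      rw [← CharP.cast_eq_zero_iff (ZMod 3) 3] at hdv ⊢
      rw [hM] at hdv
      push_cast at hdv ⊢
      exact h5 _ hdv
    · rw [e1] at hd
      rw [hd]
      obtain ⟨w, rfl⟩ : ∃ w, k = w + 1 := ⟨k - 1, by omega⟩
      have hu : u = 3 * w + 1 := by omega
      have hMe : M = 3 * (3 * w * w + 3 * w + 1) := by rw [hM, hu]; ring
      rw [hMe, Nat.mul_div_cancel_left _ (by norm_num)]
      refine ⟨rfl, Nat.Coprime.symm ((Nat.prime_three.coprime_iff_not_dvd).2 ?_)⟩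
      intro hdv
      have : 3 ∣ 1 := (Nat.dvd_add_right ⟨w * w + w, by ring⟩).1 hdv
      omega
  refine ⟨hsn ▸ key.1, ?_, hsn ▸ key.2, fun r hr hrm => ?_⟩
  · rw [hsn, key.1, hM]; ring
  · rw [hsn] at hrm
    have hrM : r ∣ M := key.1 ▸ hrm.mul_left d
    have hr3 : r ≠ 3 := fun e => by
      have := Nat.dvd_gcd hrm (e ▸ dvd_rfl : r ∣ 3)
      rw [key.2] at this
      exact hr.one_lt.ne' (Nat.dvd_one.1 this)
    have hq1 : ¬r ∣ u + 1 + 1 := by
      intro h
      have h1 : r ∣ M + 2 * (u + 1 + 1) := dvd_add hrM (h.mul_left 2)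
      rw [show M + 2 * (u + 1 + 1) = (u + 1 + 1) * (u + 1) + (2 + 1) + 0 by rw [hM]; ring] at h1
      exact hr3 ((Nat.prime_dvd_prime_iff_eq hr Nat.prime_three).1
        ((Nat.dvd_add_right (h.mul_right _)).1 h1))
    have hq : ¬r ∣ u + 1 := by
      intro h
      rw [hM] at hrM
      exact hr.one_lt.ne' (Nat.dvd_one.1 ((Nat.dvd_add_right (h.mul_right _)).1 hrM))
    have hq' : ¬r ∣ u := by
      intro h
      rw [hM] at hrM
      exact hr.one_lt.ne' (Nat.dvd_one.1 ((Nat.dvd_add_right (h.mul_left _)).1 hrM))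
    refine ⟨fun h => ?_, hq1, hq⟩
    rw [show (u + 1) ^ 2 - 1 = u * (u + 1 + 1) by
      rw [show (u + 1) ^ 2 = u * (u + 1 + 1) + 1 by ring, Nat.add_sub_cancel]] at h
    rcases hr.dvd_mul.1 h with h | h
    · exact hq' h
    · exact hq1 h

omit H in
/-- A Singer element in `H`. -/
theorem exists_singer {H : Subgroup (Cfsg.SU 3 F q)} {r : ℕ} (hr : r.Prime) (hrm : r ∣ sNum hF)
    (hrH : r ∣ Nat.card H) :
    ∃ x ∈ H, Simp (act x) ∧ r ∣ Nat.card (cen H x) := by
  haveI : Finite (Cfsg.SU 3 F q) := Subtype.finite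
  haveI := Fact.mk hr
  obtain ⟨x, hx⟩ := exists_prime_orderOf_dvd_card' r hrH
  obtain ⟨h1, h2, h3⟩ := (sNum_spec hF).2.2.2 r hr hrm
  refine ⟨x, x.2, simp_of_orderOf hF (r := r) (by rw [Subgroup.orderOf_coe, hx]) h1 h2 h3, ?_⟩
  have := orderOf_dvd_natCard (⟨(x : Cfsg.SU 3 F q), mem_cen.2 ⟨x.2, Commute.refl _⟩⟩ : cen H x)
  rwa [← Subgroup.orderOf_coe, Subgroup.orderOf_coe x, hx] at this

omit H in
/-- If the centraliser carries the whole Singer number, little else is left. -/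
theorem cen_card_eq {H : Subgroup (Cfsg.SU 3 F q)} (hZ : Subgroup.center (Cfsg.SU 3 F q) ≤ H)
    {x : Cfsg.SU 3 F q} (hx : Simp (act x)) (hm : sNum hF ∣ Nat.card (cen H x)) :
    ∃ k, Nat.card (cen H x) = Nat.card (Subgroup.center (Cfsg.SU 3 F q)) * sNum hF * k ∧
      k ∣ Nat.card (Subgroup.center (Cfsg.SU 3 F q)) * Nat.card (Subgroup.center (Cfsg.SU 3 F q)) := by
  haveI : Finite (Cfsg.SU 3 F q) := Subtype.finite
  obtain ⟨-, h2, h3, -⟩ := sNum_spec hF
  set d := Nat.card (Subgroup.center (Cfsg.SU 3 F q))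
  have hd3 : d ∣ 3 := by
    rw [show d = _ from Forms.card_center_SU hF (n := 3) (by norm_num)]; exact Nat.gcd_dvd_left _ _
  have hd : d * sNum hF ∣ Nat.card (cen H x) :=
    ((h3.coprime_dvd_right hd3).symm).mul_dvd_of_dvd_of_dvd
      (Subgroup.card_dvd_of_le (center_le_cen hZ x)) hm
  obtain ⟨k, hk⟩ := hd
  refine ⟨k, hk, ?_⟩
  have h4 := card_cen_dvd hF hZ hx
  rw [hk, h2] at h4
  have hm0 : 0 < sNum hF := Nat.pos_of_ne_zero fun h => by
    rw [h, mul_zero, zero_mul] at h2; exact absurd h2 (by positivity)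
  have h5 : k ∣ d * (q + 1) := by
    refine Nat.dvd_of_mul_dvd_mul_left (Nat.mul_pos Nat.card_pos hm0) (k := d * sNum hF) ?_
    refine h4.trans (dvd_of_eq ?_); ring
  have h6 : Nat.gcd k (q + 1) ∣ d := by
    refine dvd_center_of_dvd hF hZ hx ((Nat.gcd_dvd_left _ _).trans ⟨d * sNum hF, by rw [hk]; ring⟩) ?_
    refine (Nat.gcd_dvd_right _ _).trans ⟨q - 1, ?_⟩
    simpa using Nat.sq_sub_sq q 1
  calc k ∣ Nat.gcd k (d * (q + 1)) := Nat.dvd_gcd dvd_rfl h5
    _ ∣ Nat.gcd k d * Nat.gcd k (q + 1) := Nat.gcd_mul_right_dvd_mul_gcd _ _ _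
    _ ∣ d * d := Nat.mul_dvd_mul (Nat.gcd_dvd_right _ _) h6

end Cfsg.Agent.Forms.SUThree.MinIdx
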