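import Cfsg.Agent.Forms.SUThreeMinIndexFrames

/-!
# Characteristic two: no unipotent elements in a subgroup of small index
-/

set_option autoImplicit false

namespace Cfsg.Agent.Forms.SUThree.MinIdx

open Cfsg.Agent.KnownA
open Cfsg.Agent.Forms (frobQ isoPts)
open scoped LinearAlgebra.Projectivization

variable {F : Type*} [Field F] [Fintype F] {q : ℕ} (hF : Fintype.card F = q ^ 2)

omit [Fintype F] in
/-- Two involutions are conjugate or centralise a common third. -/
theorem invol_fusion {G : Type*} [Group G] [Finite G] {a b : G} (ha : a * a = 1) (hb : b * b = 1) :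
    (∃ k : ℕ, (a * b) ^ k * a * ((a * b) ^ k)⁻¹ = b) ∨
      ∃ t : G, t ∈ Subgroup.closure {a, b} ∧ t ≠ 1 ∧ t * t = 1 ∧ Commute t a ∧ Commute t b := by
  have ha' : a⁻¹ = a := inv_eq_of_mul_eq_one_right ha
  have hb' : b⁻¹ = b := inv_eq_of_mul_eq_one_right hb
  have hinv : ∀ k : ℕ, a * (a * b) ^ k = ((a * b) ^ k)⁻¹ * a := by
    intro k
    have h1 : SemiconjBy a (a * b) (a * b)⁻¹ := by
      rw [SemiconjBy, mul_inv_rev, ha', hb', ← mul_assoc, ha, one_mul, mul_assoc, ha, mul_one]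
    have := (h1.pow_right k).eq
    rwa [inv_pow] at this
  have hinvb : ∀ k : ℕ, b * (a * b) ^ k = ((a * b) ^ k)⁻¹ * b := by
    intro k
    have h1 : SemiconjBy b (a * b) (a * b)⁻¹ := by
      rw [SemiconjBy, mul_inv_rev, ha', hb', mul_assoc]
    have := (h1.pow_right k).eq
    rwa [inv_pow] at this
  have hn := orderOf_pos (a * b)
  set n := orderOf (a * b) with hn'
  rcases Nat.even_or_odd n with ⟨k, hk⟩ | ⟨k, hk⟩
  · right
    refine ⟨(a * b) ^ k, Subgroup.pow_mem _ (Subgroup.mul_mem _ (Subgroup.subset_closure (by simp))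
      (Subgroup.subset_closure (by simp))) k, pow_ne_one_of_lt_orderOf (by omega) (by omega), ?_, ?_, ?_⟩
    · rw [← pow_add, ← hk, hn', pow_orderOf_eq_one]
    all_goals
      have h2 : ((a * b) ^ k)⁻¹ = (a * b) ^ k := inv_eq_of_mul_eq_one_right (by
        rw [← pow_add, ← hk, hn', pow_orderOf_eq_one])
    · exact ((hinv k).trans (by rw [h2])).symm
    · exact ((hinvb k).trans (by rw [h2])).symm
  · left
    refine ⟨k, ?_⟩
    rw [mul_inv_eq_iff_eq_mul, hinvb k]
    refine (mul_left_cancel (a := (a * b) ^ k) ?_)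
    rw [← mul_assoc ((a * b) ^ k) (((a * b) ^ k)⁻¹), mul_inv_cancel, one_mul, ← mul_assoc, ← pow_add]
    refine mul_right_cancel (b := a⁻¹) ?_
    rw [mul_inv_cancel_right, ha']
    refine mul_left_cancel (a := a * b) ?_
    rw [← pow_succ', show k + k + 1 = n by omega, hn', pow_orderOf_eq_one]
    simp [mul_assoc, ← mul_assoc b b, hb, ha]

include hF

local notation "B" => ub hF
local notation "σ" => frobQ hF

variable {H : Subgroup (Cfsg.SU 3 F q)} (hZ : Subgroup.center (Cfsg.SU 3 F q) ≤ H) (hH : H ≠ ⊤)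
  (htr : ∀ x y : isoPts (n := 3) hF, ∃ h ∈ H, h • x = y)
include hZ hH htr

/-- In characteristic two a subgroup of small index has no unipotent elements. -/
theorem even_case [CharP F 2] (hq : 3 ≤ q) {r : ℕ} (hqp : q = 2 ^ r)
    (hord : ∀ (e f z : Fin 3 → F) (hfr : Frame hF e f z),
      Nat.card H = (q ^ 3 + 1) * ((pc hF H hfr).ncard * Nat.card (tc hF H hfr)) ∧
        q ^ 2 - 1 ≤ (pc hF H hfr).ncard * Nat.card (tc hF H hfr))
    (hne : ∀ (e f z : Fin 3 → F) (hfr : Frame hF e f z), (pc hF H hfr).ncard ≠ 1) : False := by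
  classical
  haveI : Finite (Cfsg.SU 3 F q) := Subtype.finite
  haveI := Fact.mk Nat.prime_two
  have h2 : (2 : F) = 0 := CharTwo.two_eq_zero
  obtain ⟨e, f, z, hfr⟩ := exists_frame hF
  haveI : Finite (isoPts (n := 3) hF) := Nat.finite_of_card_ne_zero (by rw [card_isoPts hF hfr]; omega)
  obtain ⟨hcard, hineq⟩ := hord e f z hfr
  have hex : ∀ (e f z : Fin 3 → F) (hfr : Frame hF e f z), ∃ c, c ∈ zc hF H hfr ∧ c ≠ 0 := by
    intro e f z hfr
    have h00 : ((0 : F), (0 : F)) ∈ pc hF H hfr := ⟨adm_zero hF, by rw [R_zero]; exact H.one_mem⟩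
    obtain ⟨⟨a, c⟩, hac, hne0⟩ : ∃ p ∈ pc hF H hfr, p ≠ ((0 : F), (0 : F)) := by
      by_contra hcon
      push Not at hcon
      exact hne e f z hfr (Set.ncard_eq_one.2 ⟨_, Set.eq_singleton_iff_unique_mem.2 ⟨h00, hcon⟩⟩)
    by_cases ha : a = 0
    · subst ha
      exact ⟨c, ⟨hac.1, hac.2⟩, fun h => hne0 (by rw [h])⟩
    · have h1 := mul_mem_pc hF hfr H hac hac
      rw [show a + a = 0 by linear_combination a * h2,
        show c + c - σ a * a = -(σ a * a) by linear_combination c * h2] at h1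
      exact ⟨_, ⟨h1.1, h1.2⟩, neg_ne_zero.2 (mul_ne_zero (sig_ne_zero hF ha) ha)⟩
  have hinv : ∀ (e f z : Fin 3 → F) (hfr : Frame hF e f z) (c : F), c ∈ zc hF H hfr →
      R hF hfr 0 c * R hF hfr 0 c = 1 := by
    intro e f z hfr c hc
    rw [R_mul hF hfr hc.1 hc.1, ← R_zero hF hfr]
    congr 1 <;> simp only [add_zero, map_zero, zero_mul, sub_zero] <;> linear_combination c * h2
  have hfix1 : ∀ (e f z : Fin 3 → F) (hfr : Frame hF e f z) (c : F), c ∈ zc hF H hfr → c ≠ 0 →
      ∀ y, R hF hfr 0 c • y = y → y = pt hF (fr_e0 hF hfr) hfr.ee := by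
    intro e f z hfr c hc hc0 y hy
    by_contra hne'
    exact hc0 (R_fix_eq_one hF hfr hc.1 hne' hy).2
  -- involutions at different points are conjugate
  have hfus : ∀ (e f z : Fin 3 → F) (hfr : Frame hF e f z) (e' f' z' : Fin 3 → F)
      (hfr' : Frame hF e' f' z') (c c' : F), c ∈ zc hF H hfr → c ≠ 0 → c' ∈ zc hF H hfr' → c' ≠ 0 →
      pt hF (fr_e0 hF hfr) hfr.ee ≠ pt hF (fr_e0 hF hfr') hfr'.ee →
      ∃ g ∈ H, g * R hF hfr 0 c * g⁻¹ = R hF hfr' 0 c' := by
    intro e f z hfr e' f' z' hfr' c c' hc hc0 hc' hc0' hxy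
    rcases invol_fusion (hinv e f z hfr c hc) (hinv e' f' z' hfr' c' hc') with ⟨k, hk⟩ | ⟨t, htH, ht1, ht2, hta, htb⟩
    · exact ⟨_, H.pow_mem (H.mul_mem hc.2 hc'.2) k, hk⟩
    · exfalso
      set x := pt hF (fr_e0 hF hfr) hfr.ee
      set y := pt hF (fr_e0 hF hfr') hfr'.ee
      have hx : t • x = x := hfix1 e f z hfr c hc hc0 _ (by
        rw [← mul_smul, ← hta.eq, mul_smul, (mem_bor_iff hF _ _ _).1 (R_mem_bor hF hfr hc.1)])
      have hy : t • y = y := hfix1 e' f' z' hfr' c' hc' hc0' _ (by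
        rw [← mul_smul, ← htb.eq, mul_smul, (mem_bor_iff hF _ _ _).1 (R_mem_bor hF hfr' hc'.1)])
      set tb : bor hF e := ⟨t, (mem_bor_iff hF _ _ _).2 hx⟩
      have h1 : chi hF hfr tb = 1 := chi_eq_one_of_pow hF hfr (p := 2) (k := 1) (Subtype.ext (by
        rw [pow_one, pow_two]; exact ht2))
      obtain ⟨a, d, had, htR⟩ := (chi_eq_one_iff hF hfr tb).1 h1
      change t = _ at htR
      rw [htR] at hy
      obtain ⟨ha, hd⟩ := R_fix_eq_one hF hfr had (Ne.symm hxy) hy
      exact ht1 (by rw [htR, ha, hd, R_zero])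
  obtain ⟨c₀, hc₀, hc00⟩ := hex e f z hfr
  have hKsurj : ∀ c ∈ zc hF H hfr, c ≠ 0 → ∃ t ∈ tc hF H hfr, c = c₀ * ((t : F) * σ t) := by
    intro c hc hc0
    have hy : ∃ y : isoPts (n := 3) hF, y ≠ pt hF (fr_e0 hF hfr) hfr.ee :=
      ⟨pt hF (fr_f0 hF hfr) hfr.ff, fun h => by
        obtain ⟨a, ha⟩ := (pt_eq_iff hF _ _ _ _).1 h
        have := congrArg (B e) ha
        rw [ub_smul_right hF, hfr.ee, hfr.ef, mul_zero] at this
        exact zero_ne_one this⟩
    obtain ⟨y, hy⟩ := hy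
    obtain ⟨e', f', z', hfr', rfl⟩ := exists_frame_at hF y
    obtain ⟨c', hc', hc0'⟩ := hex e' f' z' hfr'
    obtain ⟨g1, hg1, he1⟩ := hfus e f z hfr e' f' z' hfr' c₀ c' hc₀ hc00 hc' hc0' (Ne.symm hy)
    obtain ⟨g2, hg2, he2⟩ := hfus e' f' z' hfr' e f z hfr c' c hc' hc0' hc hc0 hy
    set g := g2 * g1
    have hg : g * R hF hfr 0 c₀ * g⁻¹ = R hF hfr 0 c := by
      rw [← he2, ← he1]; simp only [g]; group
    have hgx : g • pt hF (fr_e0 hF hfr) hfr.ee = pt hF (fr_e0 hF hfr) hfr.ee := hfix1 e f z hfr c hc hc0 _ (by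
      rw [← hg, mul_smul, mul_smul, inv_smul_smul, (mem_bor_iff hF _ _ _).1 (R_mem_bor hF hfr hc₀.1)])
    set gb : bor hF e := ⟨g, (mem_bor_iff hF _ _ _).2 hgx⟩
    have h3 := conj_central hF hfr (act_chi hF hfr gb) hc₀.1
    change g * _ * g⁻¹ = _ at h3
    rw [hg] at h3
    refine ⟨_, (mem_tc hF hfr H).2 ⟨gb, H.mul_mem hg2 hg1, rfl⟩, (R_inj hF hfr hc.1 ?_ h3).2⟩
    have := (adm_zero_iff hF c₀).1 hc₀.1
    rw [adm_zero_iff, map_mul, map_mul, this, sig_sig hF]; ring
  have hNmem : ∀ t ∈ tc hF H hfr, ∀ c ∈ zc hF H hfr, c * ((t : F) * σ t) ∈ zc hF H hfr := by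
    intro t ht c hc
    obtain ⟨g, hg, hgt⟩ := (mem_tc hF hfr H).1 ht
    exact zc_conj hF hfr H hg (t := (t : F)) (by rw [← hgt]; exact act_chi hF hfr g) hc
  -- the subfield
  let K : Subfield F :=
    { carrier := {k | c₀ * k ∈ zc hF H hfr}
      mul_mem' := fun {a b} ha hb => by
        rcases eq_or_ne a 0 with rfl | ha0
        · simpa using (zc hF H hfr).zero_mem
        obtain ⟨t, ht, hta⟩ := hKsurj _ ha (mul_ne_zero hc00 ha0)
        have : c₀ * (a * b) = c₀ * b * ((t : F) * σ t) := by rw [← mul_left_cancel₀ hc00 hta]; ring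
        show c₀ * (a * b) ∈ zc hF H hfr
        rw [this]; exact hNmem t ht _ hb
      one_mem' := by show c₀ * 1 ∈ zc hF H hfr; rw [mul_one]; exact hc₀
      add_mem' := fun {a b} ha hb => by
        show c₀ * (a + b) ∈ zc hF H hfr; rw [mul_add]; exact (zc hF H hfr).add_mem ha hb
      zero_mem' := by show c₀ * 0 ∈ zc hF H hfr; rw [mul_zero]; exact (zc hF H hfr).zero_mem
      neg_mem' := fun {a} ha => by
        show c₀ * -a ∈ zc hF H hfr; rw [mul_neg]; exact (zc hF H hfr).neg_mem ha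
      inv_mem' := fun a ha => by
        show c₀ * a⁻¹ ∈ zc hF H hfr
        rcases eq_or_ne a 0 with rfl | ha0
        · rw [inv_zero, mul_zero]; exact (zc hF H hfr).zero_mem
        obtain ⟨t, ht, hta⟩ := hKsurj _ ha (mul_ne_zero hc00 ha0)
        rw [mul_left_cancel₀ hc00 hta, mul_inv]
        have := hNmem t⁻¹ ((tc hF H hfr).inv_mem ht) _ hc₀
        rwa [Units.val_inv_eq_inv_val, map_inv₀] at this }
  set q0 := Nat.card K with hq0
  have hKfix : ∀ k ∈ K, σ k = k := by
    intro k hk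
    have h1 := (adm_zero_iff hF c₀).1 hc₀.1
    have h3 := (adm_zero_iff hF _).1 hk.1
    rw [map_mul, h1, neg_mul, neg_inj] at h3
    exact mul_left_cancel₀ hc00 h3
  have hKN : ∀ t ∈ tc hF H hfr, (t : F) * σ t ∈ K := fun t ht => hNmem t ht _ hc₀
  have hzK : Nat.card (zc hF H hfr) = q0 := by
    refine (Nat.card_congr (Equiv.ofBijective
      (fun k : K => (⟨c₀ * k, k.2⟩ : zc hF H hfr)) ⟨fun a b h => ?_, fun c => ?_⟩)).symm
    · exact Subtype.ext (mul_left_cancel₀ hc00 (congrArg Subtype.val h))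
    · have : c₀ * ((c : F) / c₀) = c := mul_div_cancel₀ _ hc00
      exact ⟨⟨(c : F) / c₀, show c₀ * _ ∈ zc hF H hfr by rw [this]; exact c.2⟩, Subtype.ext this⟩
  have hq02 : 2 ≤ q0 := Finite.one_lt_card
  -- `K` is a proper subfield of the fixed field
  have hKlt : q0 ≠ q := by
    intro hq0q
    refine hH (eq_top_of_conj_mem hF hq hZ (x := R hF hfr 0 c₀)
      (fun hz => hc00 (R_central hF hfr hc₀.1 hz).2) fun g => ?_)
    have hfull : ∀ c, σ c = -c → c ∈ zc hF H hfr := by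
      intro c hc
      have hsub : (zc hF H hfr : Set F) ⊆ {c | σ c = -c} := fun c hc => (adm_zero_iff hF c).1 hc.1
      have heq := Set.eq_of_subset_of_ncard_le hsub (by
        rw [← Nat.card_coe_set_eq, ← Nat.card_coe_set_eq]
        exact le_of_eq ((card_skew hF).trans (hq0q.symm.trans hzK.symm))) (Set.toFinite _)
      exact (Set.ext_iff.1 heq c).2 hc
    obtain ⟨h, hh, hhx⟩ := htr (pt hF (fr_e0 hF hfr) hfr.ee)
      (g • pt hF (fr_e0 hF hfr) hfr.ee)
    rw [smul_pt hF, smul_pt hF, pt_eq_iff] at hhx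
    obtain ⟨k, hk⟩ := hhx
    have hk0 : k ≠ 0 := fun h0 => act_ne_zero h (fr_e0 hF hfr) (by rw [← hk, h0, zero_smul])
    set N := k * σ k
    have hN0 : N ≠ 0 := mul_ne_zero hk0 (sig_ne_zero hF hk0)
    have hcN : c₀ / N ∈ zc hF H hfr := hfull _ (by
      rw [map_div₀, (adm_zero_iff hF c₀).1 hc₀.1, show σ N = N by simp only [N, map_mul, sig_sig hF]; ring,
        neg_div])
    have h0 : B e ((0 : F) • z) = 0 := by rw [zero_smul, ub_zero_right]
    have hge : B (act g e) (act g e) = 0 := by rw [act_ub hF, hfr.ee]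
    have e1 : g * R hF hfr 0 c₀ * g⁻¹ = h * R hF hfr 0 (c₀ / N) * h⁻¹ := by
      rw [R, R, root_conj hF g hfr.ee hge h0 (adm_root hF hfr hc₀.1) (one_smul F _).symm,
        root_conj hF h hfr.ee hge h0 (adm_root hF hfr hcN.1) hk.symm]
      rw [show c₀ / N * (k * σ k) = c₀ from div_mul_cancel₀ _ hN0]
      simp only [zero_smul, map_zero, smul_zero, map_one, mul_one]
    rw [e1]
    exact H.mul_mem (H.mul_mem hh hcN.2) (H.inv_mem hh)
  have hKle : K ≤ Linear.fixedQ hF := fun k hk => (Linear.mem_fixedQ hF).2 (hKfix k hk)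
  letI : Algebra K (Linear.fixedQ hF) := (Subfield.inclusion hKle).toAlgebra
  haveI : Finite (Linear.fixedQ hF) := inferInstance
  set rr := Module.finrank K (Linear.fixedQ hF)
  have hqr : q = q0 ^ rr := by
    rw [← Linear.card_fixedQ hF]
    exact Module.natCard_eq_pow_finrank
  have hrr : 2 ≤ rr := by
    by_contra hlt
    rcases (by omega : rr = 0 ∨ rr = 1) with h | h <;> rw [h] at hqr
    · rw [pow_zero] at hqr; omega
    · rw [pow_one] at hqr; exact hKlt hqr.symm
  have hperfect : ∀ x : F, x * x ∈ K → x ∈ K := by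
    intro x hx
    have hinj : Function.Injective (fun k : K => k * k) := fun a b h => by
      refine Subtype.ext ?_
      have h3 : (a : F) * a = (b : F) * b := congrArg Subtype.val h
      have h4 : ((a : F) - b) * ((a : F) - b) = 0 := by
        linear_combination h3 + ((b : F) * b - (a : F) * b) * h2
      exact sub_eq_zero.1 (mul_self_eq_zero.1 h4)
    obtain ⟨k, hk⟩ := (Finite.injective_iff_surjective.1 hinj) ⟨x * x, hx⟩
    have h3 : (k : F) * k = x * x := congrArg Subtype.val hk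
    have h4 : ((k : F) - x) * ((k : F) - x) = 0 := by
      linear_combination h3 + (x * x - (k : F) * x) * h2
    exact sub_eq_zero.1 (mul_self_eq_zero.1 h4) ▸ k.2
  set W := wc hF H hfr
  have hpcW : (pc hF H hfr).ncard = q0 * Nat.card W := by rw [card_pc_eq hF hfr H, hzK]
  set τ := Nat.card (tc hF H hfr)
  have hNleq : (q0 ^ 2) ≤ q := by rw [hqr]; exact Nat.pow_le_pow_right (by omega) hrr
  have hq0sq : q0 ^ 2 = q0 * q0 := pow_two q0
  by_cases hW : ∀ a ∈ W, a = 0
  · rw [hpcW, (AddSubgroup.eq_bot_iff_forall _).2 hW, AddSubgroup.card_bot, mul_one] at hineq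
    let φ : tc hF H hfr →* Kˣ :=
      { toFun := fun t => Units.mk0 ⟨((t : Fˣ) : F) * σ ((t : Fˣ) : F), hKN t t.2⟩
          (fun h => mul_ne_zero (t : Fˣ).ne_zero (sig_ne_zero hF (t : Fˣ).ne_zero) (congrArg Subtype.val h))
        map_one' := Units.ext (Subtype.ext (by simp [q_ne_zero hF]))
        map_mul' := fun a b => Units.ext (Subtype.ext (by simp [map_mul]; ring)) }
    have hker : Nat.card φ.ker ≤ q + 1 := by
      refine le_trans (Nat.card_le_card_of_injective
        (fun t : φ.ker => (⟨((t : tc hF H hfr) : Fˣ), ?_⟩ : {t : Fˣ // t ^ (q + 1) = 1})) fun a b h => ?_)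
        (card_roots_unity_le hF _ (by omega))
      · have h1 := congrArg (fun u : Kˣ => ((u : K) : F)) t.2
        simp only [φ, MonoidHom.coe_mk, OneHom.coe_mk, Units.val_mk0, Units.val_one, OneMemClass.coe_one] at h1
        refine Units.ext ?_
        rw [Units.val_pow_eq_pow_val, Units.val_one, pow_succ', ← Forms.frobQ_apply hF]
        exact h1
      · exact Subtype.ext (Subtype.ext (congrArg
          (fun u : {t : Fˣ // t ^ (q + 1) = 1} => (u : Fˣ)) h))
    have hran : Nat.card φ.range ≤ q0 - 1 := by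
      refine le_trans (Nat.card_le_card_of_injective _ Subtype.val_injective) ?_
      rw [Nat.card_units]
    have hτ : τ ≤ (q + 1) * (q0 - 1) := by
      show Nat.card _ ≤ _
      rw [← Subgroup.card_mul_index φ.ker, Subgroup.index_ker]
      exact Nat.mul_le_mul hker hran
    have h3 : (q + 1) * (q - 1) ≤ (q + 1) * (q0 * (q0 - 1)) := by
      calc (q + 1) * (q - 1) = q ^ 2 - 1 := by simpa using (Nat.sq_sub_sq q 1).symm
        _ ≤ q0 * τ := hineq
        _ ≤ q0 * ((q + 1) * (q0 - 1)) := Nat.mul_le_mul_left _ hτ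
        _ = _ := by ring
    have h4 := Nat.le_of_mul_le_mul_left h3 (by omega)
    have h5 : q0 * (q0 - 1) + q0 = q0 ^ 2 := by
      rw [hq0sq]; nth_rw 4 [show q0 = (q0 - 1) + 1 by omega]; ring
    omega
  push Not at hW
  obtain ⟨a₀, ha₀, ha0⟩ := hW
  have hNa : ∀ a ∈ W, σ a * a / c₀ ∈ K := by
    rintro a ⟨c, hc, hcH⟩
    have h1 := mul_mem_pc hF hfr H (a := a) (c := c) ⟨hc, hcH⟩ ⟨hc, hcH⟩
    rw [show a + a = 0 by linear_combination a * h2,
      show c + c - σ a * a = σ a * a by linear_combination (c - σ a * a) * h2] at h1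
    show c₀ * _ ∈ zc hF H hfr
    rw [mul_div_cancel₀ _ hc00]
    exact ⟨h1.1, h1.2⟩
  have hdel : ∀ a ∈ W, ∀ b ∈ W, (σ b * a - σ a * b) / c₀ ∈ K := by
    rintro a ⟨c, hc, hcH⟩ b ⟨d, hd, hdH⟩
    show c₀ * _ ∈ zc hF H hfr
    rw [mul_div_cancel₀ _ hc00]
    exact comm_mem_zc hF hfr H (a := a) (c := c) (b := b) (d := d) ⟨hc, hcH⟩ ⟨hd, hdH⟩
  have hN0 : σ a₀ * a₀ ≠ 0 := mul_ne_zero (sig_ne_zero hF ha0) ha0
  have hrfix : ∀ x : F, x * x * (σ a₀ * a₀) / c₀ ∈ K → x ∈ K := by
    intro x hx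
    refine hperfect x ?_
    have h3 := K.div_mem hx (hNa a₀ ha₀)
    rwa [div_div_div_cancel_right₀ hc00, mul_div_cancel_right₀ _ hN0] at h3
  have hWle : Nat.card W ≤ q0 * q0 := by
    let δ : W →+ K :=
      { toFun := fun b => ⟨(σ (b : F) * a₀ - σ a₀ * b) / c₀, hdel a₀ ha₀ b b.2⟩
        map_zero' := Subtype.ext (by simp [q_ne_zero hF])
        map_add' := fun a b => Subtype.ext (by simp only [AddSubgroup.coe_add, map_add, Subfield.coe_add]; ring) }
    have hker : Nat.card δ.ker ≤ q0 := by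
      refine Nat.card_le_card_of_injective (fun b : δ.ker => (⟨((b : W) : F) / a₀, ?_⟩ : K)) fun b b' h => ?_
      · have h1 := congrArg Subtype.val b.2
        simp only [δ, AddMonoidHom.coe_mk, ZeroHom.coe_mk, ZeroMemClass.coe_zero, div_eq_zero_iff, hc00,
          or_false, sub_eq_zero] at h1
        set x : F := ((b : W) : F) / a₀
        have hb : ((b : W) : F) = x * a₀ := (div_mul_cancel₀ _ ha0).symm
        rw [hb, map_mul] at h1
        have hx : σ x = x := mul_right_cancel₀ hN0 (by linear_combination h1)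
        refine hrfix x ?_
        have h3 := hNa _ (b : W).2
        rwa [hb, map_mul, hx, show x * σ a₀ * (x * a₀) = x * x * (σ a₀ * a₀) by ring] at h3
      · refine Subtype.ext (Subtype.ext ?_)
        exact mul_right_cancel₀ (inv_ne_zero ha0)
          (by simpa [div_eq_mul_inv] using congrArg Subtype.val h)
    rw [← AddSubgroup.card_mul_index δ.ker, AddSubgroup.index_ker]
    exact Nat.mul_le_mul hker (Nat.card_le_card_of_injective _ Subtype.val_injective)
  set A := (tc hF H hfr).map (sChar hF)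
  obtain ⟨hτA, hk0⟩ := card_tc_le hF H hfr
  set d := Nat.card (Subgroup.center (Cfsg.SU 3 F q))
  have hd3 : d ∣ 3 := by
    rw [show d = _ from Forms.card_center_SU hF (n := 3) (by norm_num)]; exact Nat.gcd_dvd_left _ _
  have hdle : d ≤ 3 := Nat.le_of_dvd (by norm_num) hd3
  have hτle : τ ≤ d * Nat.card A := by
    show Nat.card _ ≤ _
    rw [hτA]; exact Nat.mul_le_mul_right _ hk0
  have hAW : ∀ s ∈ A, (s : F) * a₀ ∈ W := by
    rintro _ ⟨t, ht, rfl⟩
    obtain ⟨g, hg, hgt⟩ := (mem_tc hF hfr H).1 ht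
    rw [← hgt]; exact wc_conj hF hfr H hg ha₀
  have hAN : ∀ s ∈ A, (s : F) * σ (s : F) ∈ K := by
    rintro _ ⟨t, ht, rfl⟩
    rw [sChar_norm]; exact hKN t ht
  have hineq2 : q ^ 2 - 1 ≤ q0 * (q0 * q0) * (d * Nat.card A) := by
    refine hineq.trans (Nat.mul_le_mul ?_ hτle)
    rw [hpcW]; exact Nat.mul_le_mul_left _ hWle
  have hqd : rr = 2 → d = 1 := by
    intro h
    rcases (Nat.dvd_prime Nat.prime_three).1 hd3 with h1 | h1
    · exact h1
    exfalso
    have h3 : 3 ∣ q + 1 := by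
      rw [← h1, show d = _ from Forms.card_center_SU hF (n := 3) (by norm_num)]; exact Nat.gcd_dvd_right _ _
    rw [hqr, h] at h3
    have hmod : ∀ w : ZMod 3, w ^ 2 + 1 ≠ 0 := by decide
    refine hmod (q0 : ZMod 3) ?_
    rw [← CharP.cast_eq_zero_iff (ZMod 3) 3] at h3
    push_cast at h3
    exact h3
  have hpow6 : 3 ≤ rr → q0 ^ 6 ≤ q ^ 2 := fun h => by
    rw [hqr, ← pow_mul]; exact Nat.pow_le_pow_right (by omega) (by omega)
  have hA1 : 1 ≤ Nat.card A := Nat.card_pos
  by_cases hAfix : ∀ s ∈ A, σ (s : F) = s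
  · have hAle : Nat.card A ≤ q0 - 1 := by
      rw [show q0 - 1 = Nat.card Kˣ by rw [Nat.card_units]]
      refine Nat.card_le_card_of_injective (fun s : A => (Units.mk0 (⟨((s : Fˣ) : F), ?_⟩ : K)
        (fun h => (s : Fˣ).ne_zero (congrArg Subtype.val h)))) fun a b h => ?_
      · refine hperfect _ ?_
        have := hAN s s.2
        rwa [hAfix s s.2] at this
      · exact Subtype.ext (Units.ext (congrArg (fun u : Kˣ => ((u : K) : F)) h))
    rcases (by omega : rr = 2 ∨ 3 ≤ rr) with h | h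
    · rw [hqd h, one_mul] at hineq2
      have h4 : q0 * (q0 * q0) * Nat.card A ≤ q0 * (q0 * q0) * (q0 - 1) := Nat.mul_le_mul_left _ hAle
      have h5 : q0 * (q0 * q0) * (q0 - 1) + q0 * (q0 * q0) = q0 ^ 4 := by
        calc q0 * (q0 * q0) * (q0 - 1) + q0 * (q0 * q0) = q0 * (q0 * q0) * ((q0 - 1) + 1) := by ring
          _ = q0 ^ 4 := by rw [Nat.sub_add_cancel (by omega)]; ring
      have h6 : q ^ 2 = q0 ^ 4 := by rw [hqr, h, ← pow_mul]
      have h7 : 8 ≤ q0 * (q0 * q0) := Nat.mul_le_mul hq02 (Nat.mul_le_mul hq02 hq02)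
      omega
    · have h4 : q0 * (q0 * q0) * (d * Nat.card A) ≤ q0 * (q0 * q0) * (3 * q0) :=
        Nat.mul_le_mul_left _ (Nat.mul_le_mul hdle (by omega))
      have h5 : q0 * (q0 * q0) * (3 * q0) = 3 * q0 ^ 4 := by ring
      have h6 : q0 ^ 6 = q0 ^ 2 * q0 ^ 4 := by ring
      have h7 : 4 * q0 ^ 4 ≤ q0 ^ 6 := by
        rw [h6]; exact Nat.mul_le_mul_right _ (Nat.pow_le_pow_left hq02 2)
      have h8 : 16 ≤ q0 ^ 4 := Nat.pow_le_pow_left hq02 4
      have := hpow6 h
      omega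
  push Not at hAfix
  obtain ⟨s, hsA, hsfix⟩ := hAfix
  have htrs : (s : F) + σ (s : F) ∈ K := by
    have h3 := K.div_mem (hdel _ (hAW s hsA) a₀ ha₀) (hNa a₀ ha₀)
    rw [div_div_div_cancel_right₀ hc00, map_mul,
      show σ a₀ * ((s : F) * a₀) - σ (s : F) * σ a₀ * a₀ = ((s : F) - σ (s : F)) * (σ a₀ * a₀) by ring,
      mul_div_cancel_right₀ _ hN0] at h3
    rwa [show (s : F) + σ (s : F) = (s : F) - σ (s : F) by linear_combination σ (s : F) * h2]
  have hpowK : ∀ k ∈ K, k ^ q0 = k := by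
    intro k hk
    haveI : Fintype K := Fintype.ofFinite K
    have := FiniteField.pow_card (⟨k, hk⟩ : K)
    rw [← Nat.card_eq_fintype_card] at this
    exact congrArg Subtype.val this
  obtain ⟨i, -, hi⟩ : ∃ i, i ≤ r ∧ q0 = 2 ^ i := by
    refine (Nat.dvd_prime_pow Nat.prime_two).1 ?_
    rw [← hqp, hqr]
    exact dvd_pow_self q0 (by omega)
  have hfrobroot : ∀ w : F, (w - (s : F)) * (w - σ (s : F)) = 0 →
      (w ^ q0 - (s : F)) * (w ^ q0 - σ (s : F)) = 0 := by
    intro w hw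
    have h1 : w * w = ((s : F) + σ (s : F)) * w - (s : F) * σ (s : F) := by linear_combination hw
    have h3 := congrArg (fun y : F => y ^ q0) h1
    simp only [hi, sub_pow_char_pow, mul_pow] at h3
    rw [← mul_pow (s : F)] at h3
    rw [← hi, hpowK _ htrs, hpowK _ (hAN s hsA)] at h3
    linear_combination h3
  have hs1 : (s : F) ^ q0 = σ (s : F) := by
    rcases mul_eq_zero.1 (hfrobroot s (by rw [sub_self, zero_mul])) with h | h
    · exfalso
      refine hsfix ?_
      have hs' : (s : F) ^ q0 = s := sub_eq_zero.1 h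
      rw [Forms.frobQ_apply hF, hqr]
      have : ∀ n : ℕ, (s : F) ^ q0 ^ n = s := fun n => by
        induction n with
        | zero => rw [pow_zero, pow_one]
        | succ n ih => rw [pow_succ, pow_mul, ih, hs']
      exact this rr
    · exact sub_eq_zero.1 h
  have hs2 : σ (s : F) ^ q0 = s := by
    rcases mul_eq_zero.1 (hfrobroot (σ (s : F)) (by rw [sub_self, mul_zero])) with h | h
    · exact sub_eq_zero.1 h
    · exfalso
      refine hsfix ?_
      have h' : σ (s : F) ^ q0 = σ (s : F) := sub_eq_zero.1 h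
      have h'' := congrArg σ h'
      rw [map_pow, sig_sig hF, hs1] at h''
      exact h''
  have hodd : rr % 2 = 1 := by
    by_contra hev
    obtain ⟨j, hj⟩ : ∃ j, rr = 2 * j := ⟨rr / 2, by omega⟩
    refine hsfix ?_
    rw [Forms.frobQ_apply hF, hqr, hj, pow_mul]
    clear hj
    induction j with
    | zero => rw [pow_zero, pow_one]
    | succ j ih => rw [pow_succ (q0 ^ 2), pow_mul, ih, pow_two q0, pow_mul, hs1, hs2]
  have hAle : Nat.card A ≤ q0 * q0 - 1 := by
    refine le_trans ?_ (Nat.sub_le_sub_right hWle 1)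
    have h0 : (0 : F) ∈ (W : Set F) := W.zero_mem
    rw [show Nat.card W - 1 = ((W : Set F) \ {0}).ncard by
      rw [Set.ncard_sdiff_singleton_of_mem h0, ← Nat.card_coe_set_eq]; rfl, ← Nat.card_coe_set_eq]
    refine Nat.card_le_card_of_injective (fun s : A => (⟨((s : Fˣ) : F) * a₀, hAW s s.2,
      mul_ne_zero (s : Fˣ).ne_zero ha0⟩ : ((W : Set F) \ {0} : Set F))) fun a b h => ?_
    exact Subtype.ext (Units.ext (mul_right_cancel₀ ha0
      (congrArg (fun u : ((W : Set F) \ {0} : Set F) => (u : F)) h)))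
  have hrr3 : 3 ≤ rr := by omega
  have hq06 := hpow6 hrr3
  have hq0two : q0 = 2 := by
    by_contra hne'
    have h4 : q0 * (q0 * q0) * (d * Nat.card A) ≤ q0 * (q0 * q0) * (3 * (q0 * q0)) :=
      Nat.mul_le_mul_left _ (Nat.mul_le_mul hdle (by omega))
    have h5 : q0 * (q0 * q0) * (3 * (q0 * q0)) = 3 * q0 ^ 5 := by ring
    have h6 : q0 ^ 6 = q0 * q0 ^ 5 := by ring
    have h7 : 4 * q0 ^ 5 ≤ q0 ^ 6 := by
      rw [h6]; refine Nat.mul_le_mul_right _ ?_
      rcases (by omega : q0 = 3 ∨ 4 ≤ q0) with h | h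
      · exfalso
        rw [h] at hi
        rcases i with _ | i
        · norm_num at hi
        · rw [pow_succ] at hi; omega
      · exact h
    have h8 : 32 ≤ q0 ^ 5 := Nat.pow_le_pow_left hq02 5
    omega
  have hq8 : q = 8 := by
    by_contra hne'
    have h5 : rr ≠ 3 := fun h => hne' (by rw [hqr, h, hq0two]; norm_num)
    have h6 : 2 ^ 4 ≤ q := by rw [hqr, hq0two]; exact Nat.pow_le_pow_right (by norm_num) (by omega)
    have h7 : 256 ≤ q ^ 2 := Nat.pow_le_pow_left h6 2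
    rw [hq0two] at hineq2 hAle
    have h8 : d * Nat.card A ≤ 9 := (Nat.mul_le_mul hdle hAle).trans (by norm_num)
    omega
  -- `q = 8`
  have hsub : q ^ 2 - 1 = 63 := by rw [hq8]; norm_num
  rw [hsub] at hineq
  have hτ9 : τ ≤ 9 := hτle.trans ((Nat.mul_le_mul hdle hAle).trans (by rw [hq0two]))
  have hτdvd : τ ∣ 63 := by
    rw [← hsub, ← Forms.card_units_sq hF]; exact Subgroup.card_subgroup_dvd_card _
  have hP8 : (pc hF H hfr).ncard ≤ 8 := by
    rw [hpcW]; refine le_trans (Nat.mul_le_mul_left _ hWle) ?_; rw [hq0two]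
  have hval : (pc hF H hfr).ncard * τ = 72 := by
    set P := (pc hF H hfr).ncard
    have hP7 : 7 ≤ P := by
      by_contra hlt
      have : P * τ ≤ 6 * 9 := Nat.mul_le_mul (by omega) hτ9
      omega
    have hPdvd : P ∣ 2 ^ 9 := by
      refine (card_pc_dvd hF hfr H).1.trans (dvd_of_eq ?_); rw [hq8]; norm_num
    have hP : P = 8 := by
      rcases (by omega : P = 7 ∨ P = 8) with h | h
      · rw [h] at hPdvd; norm_num at hPdvd
      · exact h
    rw [hP] at hineq ⊢
    rcases (by omega : τ = 8 ∨ τ = 9) with h | h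
    · rw [h] at hτdvd; norm_num at hτdvd
    · rw [h]
  have hH' : Nat.card H = 36936 := by rw [hcard, hval, hq8]; norm_num
  have hd' : d = 3 := by
    rw [show d = _ from Forms.card_center_SU hF (n := 3) (by norm_num), hq8]; norm_num
  obtain ⟨hm1, -, -, -⟩ := sNum_spec hF
  have hm : sNum hF = 19 := by
    rw [show Nat.card (Subgroup.center (Cfsg.SU 3 F q)) = 3 from hd'] at hm1
    have : q * (q - 1) + 1 = 57 := by rw [hq8]
    omega
  obtain ⟨x, hxH, hx, hrx⟩ := exists_singer hF (r := 19) (by norm_num) (dvd_of_eq hm.symm)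
    (by rw [hH']; norm_num)
  obtain ⟨k, hk, hk9⟩ := cen_card_eq hF hZ hx (by rw [hm]; exact hrx)
  change _ = d * _ * k at hk
  change k ∣ d * d at hk9
  rw [hd', hm] at hk
  rw [hd'] at hk9
  obtain ⟨-, hc2⟩ := cls_card hF hZ hx hxH
  have hI := nor_index_modEq hF hZ hx hxH (m := 19) (by norm_num) hrx
  have h9 : ¬9 ∣ Nat.card (cen H x) := fun h => by
    have := dvd_center_of_dvd hF hZ hx h (by rw [hsub]; norm_num)
    change 9 ∣ d at this
    rw [hd'] at this; norm_num at this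
  have hk1 : k = 1 := by
    have hkle := Nat.le_of_dvd (by norm_num) hk9
    rw [hk] at h9
    interval_cases k <;> first | rfl | omega
  rw [hk, hk1, hH'] at hc2
  set I := ((nor H x).subgroupOf H).index
  rw [Nat.ModEq] at hI
  rcases nor_index_cases hF hx hxH with h | h <;> rw [h] at hc2 <;> omega

end Cfsg.Agent.Forms.SUThree.MinIdx
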