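import Cfsg.Agent.Forms.SUThreeMinIndexCount

/-!
# Moving parameters between frames
-/

set_option autoImplicit false

namespace Cfsg.Agent.Forms.SUThree.MinIdx

open Cfsg.Agent.KnownA
open Cfsg.Agent.Forms (frobQ isoPts)
open scoped LinearAlgebra.Projectivization

variable {F : Type*} [Field F] [Fintype F] {q : ℕ} (hF : Fintype.card F = q ^ 2)
include hF

local notation "B" => ub hF
local notation "σ" => frobQ hF

variable {e f z : Fin 3 → F} (hfr : Frame hF e f z)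
include hfr

theorem frame_swap : Frame hF f e z :=
  ⟨hfr.ff, hfr.ee, fr_fe hF hfr, hfr.fz, hfr.ez, hfr.zz, fun x => by
    conv_lhs => rw [hfr.span x]
    abel⟩

variable (H : Subgroup (Cfsg.SU 3 F q))

theorem sub_mem_zc {a c c' : F} (hc : (a, c) ∈ pc hF H hfr) (hc' : (a, c') ∈ pc hF H hfr) :
    c - c' ∈ zc hF H hfr := by
  have hm := adm_mul hF hc.1 (adm_neg hF hc'.1)
  have hmem := H.mul_mem hc.2 (H.inv_mem hc'.2)
  simp only at hm hmem
  rw [R_inv hF hfr hc'.1, R_mul hF hfr hc.1 (adm_neg hF hc'.1)] at hmem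
  have e1 : c + (-c' - σ a * a) - σ a * -a = c - c' := by ring
  rw [add_neg_cancel, e1] at hm hmem
  exact ⟨hm, hmem⟩

theorem mul_mem_pc {a c b d : F} (h : (a, c) ∈ pc hF H hfr) (h' : (b, d) ∈ pc hF H hfr) :
    (a + b, c + d - σ a * b) ∈ pc hF H hfr :=
  ⟨adm_mul hF h.1 h'.1, by
    show R hF hfr (a + b) (c + d - σ a * b) ∈ H
    rw [← R_mul hF hfr h.1 h'.1]; exact H.mul_mem h.2 h'.2⟩

/-- The commutator pairing lands in the central parameters. -/
theorem comm_mem_zc {a c b d : F} (h : (a, c) ∈ pc hF H hfr) (h' : (b, d) ∈ pc hF H hfr) :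
    σ b * a - σ a * b ∈ zc hF H hfr := by
  have h1 := mul_mem_pc hF hfr H h h'
  have h2 := mul_mem_pc hF hfr H h' h
  rw [add_comm b a] at h2
  have := sub_mem_zc hF hfr H h1 h2
  rwa [show c + d - σ a * b - (d + c - σ b * a) = σ b * a - σ a * b by ring] at this

theorem zc_conj {g : Cfsg.SU 3 F q} (hg : g ∈ H) {t : F} (hge : act g e = t • e) {c : F}
    (hc : c ∈ zc hF H hfr) : c * (t * σ t) ∈ zc hF H hfr := by
  refine ⟨?_, ?_⟩
  · have h1 := (adm_zero_iff hF c).1 hc.1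
    rw [adm_zero_iff, map_mul, map_mul, h1, sig_sig hF]; ring
  · show R hF hfr 0 _ ∈ H
    rw [← conj_central hF hfr hge hc.1]
    exact H.mul_mem (H.mul_mem hg hc.2) (H.inv_mem hg)

theorem wc_conj {g : bor hF e} (hg : (g : Cfsg.SU 3 F q) ∈ H) {a : F} (ha : a ∈ wc hF H hfr) :
    (sChar hF (chi hF hfr g) : F) * a ∈ wc hF H hfr := by
  obtain ⟨c, hc, hcH⟩ := ha
  obtain ⟨c', hc', e1⟩ := conj_R hF hfr g hc
  exact ⟨c', hc', by rw [← e1]; exact H.mul_mem (H.mul_mem hg hcH) (H.inv_mem hg)⟩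

/-- Central parameters travel with the point. -/
theorem zc_transfer {e' f' z' : Fin 3 → F} (hfr' : Frame hF e' f' z')
    (htr : ∀ x y : isoPts (n := 3) hF, ∃ h ∈ H, h • x = y) {c : F} (hc : c ∈ zc hF H hfr) (hc0 : c ≠ 0) :
    ∃ c', c' ∈ zc hF H hfr' ∧ c' ≠ 0 := by
  obtain ⟨h, hh, hhx⟩ := htr (pt hF (fr_e0 hF hfr) hfr.ee) (pt hF (fr_e0 hF hfr') hfr'.ee)
  rw [smul_pt hF, pt_eq_iff] at hhx
  obtain ⟨k, hk⟩ := hhx
  have hk0 : k ≠ 0 := fun h0 => act_ne_zero h (fr_e0 hF hfr) (by rw [← hk, h0, zero_smul])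
  refine ⟨c * (k * σ k), ⟨?_, ?_⟩, mul_ne_zero hc0 (mul_ne_zero hk0 (sig_ne_zero hF hk0))⟩
  · have h1 := (adm_zero_iff hF c).1 hc.1
    rw [adm_zero_iff, map_mul, map_mul, h1, sig_sig hF]; ring
  · have h0 : B e ((0 : F) • z) = 0 := by rw [zero_smul, ub_zero_right]
    have e1 : h * R hF hfr 0 c * h⁻¹ = R hF hfr' 0 (c * (k * σ k)) := by
      rw [R, R, root_conj hF h hfr.ee hfr'.ee h0 (adm_root hF hfr hc.1) hk.symm]
      simp
    rw [← e1]
    exact H.mul_mem (H.mul_mem hh hc.2) (H.inv_mem hh)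

end Cfsg.Agent.Forms.SUThree.MinIdx
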