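import Cfsg.Agent.Forms.SUThreeMinIndexFrames
import Cfsg.Agent.Dickson.Count

/-!
# Odd characteristic: no unipotent elements in a subgroup of small index
-/

set_option autoImplicit false

namespace Cfsg.Agent.Forms.SUThree.MinIdx

open Cfsg.Agent.KnownA
open Cfsg.Agent.Forms (frobQ isoPts)
open Cfsg.Agent.Dickson (SL2 uel lel)
open scoped LinearAlgebra.Projectivization

variable {F : Type*} [Field F] [Fintype F] {q : ℕ} (hF : Fintype.card F = q ^ 2)
include hF

local notation "B" => ub hF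
local notation "σ" => frobQ hF

section
variable {e f z : Fin 3 → F} (hfr : Frame hF e f z) (H : Subgroup (Cfsg.SU 3 F q))

/-- What `H` induces on the plane of `e` and `f`. -/
def plane (_hfr : Frame hF e f z) : Set (SL2 F) :=
  {M | ∃ h ∈ H, act h z = z ∧ act h e = M 0 0 • e + M 1 0 • f ∧ act h f = M 0 1 • e + M 1 1 • f}

include hfr in
theorem neg_one_mem {p : ℕ} [Fact p.Prime] [CharP F p] (hp : p ≠ 2) {c d : F}
    (hc : c ∈ zc hF H hfr) (hc0 : c ≠ 0) (hd : d ∈ zc hF H (frame_swap hF hfr)) (hd0 : d ≠ 0) :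
    T hF hfr (-1) ∈ H := by
  classical
  let M : Submonoid (SL2 F) :=
    { carrier := plane hF H hfr
      one_mem' := ⟨1, H.one_mem, by rw [act_one]; rfl, by simp [act_one], by simp [act_one]⟩
      mul_mem' := by
        rintro A C ⟨a, ha, az, ae, af⟩ ⟨b, hb, bz, be, bf⟩
        refine ⟨a * b, H.mul_mem ha hb, by rw [act_mul_apply, bz, az], ?_, ?_⟩
        · rw [act_mul_apply, be, map_add, map_smul, map_smul, ae, af, Dickson.mul_apply2,
            Dickson.mul_apply2]
          module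
        · rw [act_mul_apply, bf, map_add, map_smul, map_smul, ae, af, Dickson.mul_apply2,
            Dickson.mul_apply2]
          module }
  haveI : Finite (SL2 F) := inferInstance
  let L : Subgroup (SL2 F) :=
    { M with
      inv_mem' := fun {A} hA => by
        rw [inv_eq_of_mul_eq_one_right (show A * A ^ (orderOf A - 1) = 1 by
          rw [← pow_succ', Nat.sub_add_cancel (orderOf_pos A), pow_orderOf_eq_one])]
        exact M.pow_mem hA _ }
  obtain ⟨c1, c2, c3⟩ := act_R hF hfr hc.1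
  obtain ⟨d1, d2, d3⟩ := act_R hF (frame_swap hF hfr) hd.1
  have hu : uel c ∈ L := ⟨_, hc.2, by rw [c2]; simp [q_ne_zero hF], by rw [c1]; simp,
    by rw [c3]; simp [add_comm]⟩
  have hl : lel d ∈ L := ⟨_, hd.2, by rw [d2]; simp [q_ne_zero hF], by rw [d3]; simp,
    by rw [d1]; simp⟩
  have hN : 1 < Nat.card (Sylow p L) := by
    by_contra hle
    haveI : Finite (Sylow p L) := inferInstance
    haveI : Subsingleton (Sylow p L) := Finite.card_le_one_iff_subsingleton.1 (by omega)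
    obtain ⟨P, hP⟩ := Dickson.exists_sylow_mem (p := p) (x := (⟨_, hu⟩ : L)) (by simp [Dickson.tr]; norm_num)
    obtain ⟨Q, hQ⟩ := Dickson.exists_sylow_mem (p := p) (x := (⟨_, hl⟩ : L)) (by simp [Dickson.tr]; norm_num)
    rw [Subsingleton.elim Q P] at hQ
    have h2 := Dickson.tr_of_mem_sylow P (P.mul_mem hP hQ)
    have h3 : c * d = 0 := by
      simp only [Subgroup.coe_mul, Dickson.tr, Dickson.mul_apply2] at h2
      simp at h2
      linear_combination h2
    rcases mul_eq_zero.1 h3 with h | h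
    · exact hc0 h
    · exact hd0 h
  obtain ⟨⟨M0, h, hh, hz, he, hf⟩, hM0⟩ := Dickson.exists_negOne hp hN
  rw [show M0 = (-1 : SL2 F) from hM0] at he hf
  obtain ⟨t1, t2, t3⟩ := act_T hF hfr (-1)
  have hs1 : σ ((-1 : Fˣ) : F) = -1 := by rw [Units.val_neg, Units.val_one, map_neg, map_one]
  have hTh : T hF hfr (-1) = h := by
    refine frame_ext hF hfr ?_ ?_ ?_
    · rw [t1, he]; simp
    · rw [t3, hs1, hf]; simp [inv_neg]
    · rw [t2, hs1, hz]; simp
  rw [hTh]
  exact hh

include hfr in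
theorem T_neg_map (g : Cfsg.SU 3 F q) :
    g * T hF hfr (-1) * g⁻¹ = T hF (frame_map hF hfr g) (-1) := by
  obtain ⟨t1, t2, t3⟩ := act_T hF hfr (-1)
  obtain ⟨u1, u2, u3⟩ := act_T hF (frame_map hF hfr g) (-1)
  refine frame_ext hF (frame_map hF hfr g) ?_ ?_ ?_ <;>
    rw [← act_mul_apply, inv_mul_cancel_right, act_mul_apply]
  · rw [t1, map_smul, u1]
  · rw [t3, map_smul, u3]
  · rw [t2, map_smul, u2]

end

variable {H : Subgroup (Cfsg.SU 3 F q)} (hZ : Subgroup.center (Cfsg.SU 3 F q) ≤ H) (hH : H ≠ ⊤)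
  (htr : ∀ x y : isoPts (n := 3) hF, ∃ h ∈ H, h • x = y)
include hZ hH htr

theorem odd_zc_eq_bot {p : ℕ} [Fact p.Prime] [CharP F p] (hp : p ≠ 2) (hq : 3 ≤ q)
    {e f z : Fin 3 → F} (hfr : Frame hF e f z) : ∀ c ∈ zc hF H hfr, c = 0 := by
  by_contra hcon
  push Not at hcon
  obtain ⟨c, hc, hc0⟩ := hcon
  have hall : ∀ (e f z : Fin 3 → F) (hfr : Frame hF e f z), T hF hfr (-1) ∈ H := by
    intro e' f' z' hfr'
    obtain ⟨c', hc', hc0'⟩ := zc_transfer hF hfr H hfr' htr hc hc0
    obtain ⟨d', hd', hd0'⟩ := zc_transfer hF hfr H (frame_swap hF hfr') htr hc hc0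
    exact neg_one_mem hF hfr' H hp hc' hc0' hd' hd0'
  refine hH (eq_top_of_conj_mem hF hq hZ (x := T hF hfr (-1)) (fun hz => ?_) fun g => ?_)
  · obtain ⟨t1, t2, -⟩ := act_T hF hfr (-1)
    obtain ⟨k, hk⟩ := (Forms.su_mem_center_iff hF (by norm_num) _).1 hz
    rw [hk] at t1 t2
    have h1 : k = ((-1 : Fˣ) : F) := smul_left_injective F (fr_e0 hF hfr) t1
    have h2 : k = σ ((-1 : Fˣ) : F) / ((-1 : Fˣ) : F) := smul_left_injective F (fr_z0 hF hfr) t2
    rw [h1] at h2
    simp only [Units.val_neg, Units.val_one, map_neg, map_one, neg_div_neg_eq, div_one] at h2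
    exact Ring.neg_one_ne_one_of_char_ne_two (by rw [ringChar.eq F p]; exact hp) h2
  · rw [T_neg_map hF hfr g]; exact hall _ _ _ _

/-- In odd characteristic a subgroup of small index has no unipotent elements. -/
theorem odd_case {p r : ℕ} [Fact p.Prime] [CharP F p] (hp : p ≠ 2) (hqp : q = p ^ r) (hq : 3 ≤ q)
    (h5 : q ≠ 5)
    (hord : ∀ (e f z : Fin 3 → F) (hfr : Frame hF e f z),
      Nat.card H = (q ^ 3 + 1) * ((pc hF H hfr).ncard * Nat.card (tc hF H hfr)) ∧
        q ^ 2 - 1 ≤ (pc hF H hfr).ncard * Nat.card (tc hF H hfr))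
    (hne : ∀ (e f z : Fin 3 → F) (hfr : Frame hF e f z), (pc hF H hfr).ncard ≠ 1) : False := by
  classical
  haveI : Finite (Cfsg.SU 3 F q) := Subtype.finite
  have hpp : p.Prime := Fact.out
  have hp3 : 3 ≤ p := by have := hpp.two_le; omega
  set d := Nat.card (Subgroup.center (Cfsg.SU 3 F q)) with hd
  have hd' : d = Nat.gcd 3 (q + 1) := Forms.card_center_SU hF (n := 3) (by norm_num)
  have hsub : (q ^ 2 - 1) = (q - 1) * (q + 1) := by rw [mul_comm]; simpa using Nat.sq_sub_sq q 1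
  -- the local structure at every frame
  have hloc : ∀ (e f z : Fin 3 → F) (hfr : Frame hF e f z), d = 3 ∧ (pc hF H hfr).ncard = q ∧
      (∀ t ∈ tc hF H hfr, σ (sChar hF t : F) = sChar hF t) ∧
      ∃ α j, Nat.card (tc hF H hfr) = 3 * α ∧ j * α = q - 1 ∧ 1 ≤ j ∧ j ≤ 2 := by
    intro e f z hfr
    have hz0 := odd_zc_eq_bot hF hZ hH htr hp hq hfr
    have hzbot : Nat.card (zc hF H hfr) = 1 := by
      rw [(AddSubgroup.eq_bot_iff_forall _).2 hz0, AddSubgroup.card_bot]
    have hpw : (pc hF H hfr).ncard = Nat.card (wc hF H hfr) := by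
      rw [card_pc_eq hF hfr H, hzbot, one_mul]
    have hcomm : ∀ a b, a ∈ wc hF H hfr → b ∈ wc hF H hfr → σ b * a = σ a * b := by
      rintro a b ⟨c, hc, hcH⟩ ⟨d, hd, hdH⟩
      exact sub_eq_zero.1 (hz0 _ (comm_mem_zc hF hfr H (a := a) (c := c) (b := b) (d := d)
        ⟨hc, hcH⟩ ⟨hd, hdH⟩))
    obtain ⟨a₀, ha₀, ha0⟩ : ∃ a ∈ wc hF H hfr, a ≠ 0 := by
      by_contra hcon
      push Not at hcon
      exact hne e f z hfr (by rw [hpw, (AddSubgroup.eq_bot_iff_forall _).2 hcon, AddSubgroup.card_bot])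
    have hfix : ∀ b ∈ wc hF H hfr, σ (b / a₀) = b / a₀ := by
      intro b hb
      rw [map_div₀, div_eq_div_iff (sig_ne_zero hF ha0) ha0, mul_comm b]
      exact hcomm a₀ b ha₀ hb
    have hwle : Nat.card (wc hF H hfr) ≤ q := by
      refine le_of_le_of_eq ?_ (Linear.card_fixedQ hF)
      refine Nat.card_le_card_of_injective
        (fun b : wc hF H hfr => (⟨(b : F) / a₀, (Linear.mem_fixedQ hF).2 (hfix b b.2)⟩ : Linear.fixedQ hF))
        fun b b' h => ?_
      exact Subtype.ext (mul_right_cancel₀ (inv_ne_zero ha0)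
        (by simpa [div_eq_mul_inv] using congrArg Subtype.val h))
    have hsfix : ∀ t ∈ tc hF H hfr, σ (sChar hF t : F) = sChar hF t := by
      intro t ht
      obtain ⟨g, hg, hgt⟩ := (mem_tc hF hfr H).1 ht
      have h1 := hfix _ (wc_conj hF hfr H hg ha₀)
      rwa [hgt, mul_div_cancel_right₀ _ ha0] at h1
    set α := Nat.card ((tc hF H hfr).map (sChar hF)) with hα
    obtain ⟨hτ, hk0le⟩ := card_tc_le hF H hfr
    set k0 := Nat.card ((sChar hF).comp (tc hF H hfr).subtype).ker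
    have hα_dvd : α ∣ q - 1 := by
      obtain ⟨g, hg⟩ := IsCyclic.exists_ofOrder_eq_natCard (α := ((tc hF H hfr).map (sChar hF)))
      rw [hα, ← hg]
      obtain ⟨t, ht, htg⟩ := g.2
      refine orderOf_dvd_of_pow_eq_one (Subtype.ext (Units.ext ?_))
      have h1 : ((g : Fˣ) : F) ^ q = (g : Fˣ) := by
        rw [← htg, ← Forms.frobQ_apply hF]; exact hsfix t ht
      rw [SubmonoidClass.coe_pow, Units.val_pow_eq_pow_val, OneMemClass.coe_one, Units.val_one]
      refine mul_right_cancel₀ (g : Fˣ).ne_zero ?_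
      rw [← pow_succ, Nat.sub_add_cancel (by omega), h1, one_mul]
    have hk0 : k0 ∣ d := by
      obtain ⟨g, hg⟩ := IsCyclic.exists_ofOrder_eq_natCard
        (α := ((sChar hF).comp (tc hF H hfr).subtype).ker)
      show Nat.card _ ∣ d
      rw [← hg]
      exact orderOf_dvd_of_pow_eq_one (Subtype.ext (Subtype.ext (pow_eq_one_of_sChar hF g.2)))
    obtain ⟨j, hj⟩ := hα_dvd
    have hα0 : 0 < α := Nat.card_pos
    have hαle : α ≤ q - 1 := Nat.le_of_dvd (by omega) ⟨j, hj⟩
    have hj0 : 1 ≤ j := Nat.pos_of_ne_zero fun h => by rw [h, mul_zero] at hj; omega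
    have hineq := (hord e f z hfr).2
    rw [hpw, hτ, hsub] at hineq
    set w := Nat.card (wc hF H hfr)
    have hkd : k0 = 3 ∧ d = 3 := by
      rcases (Nat.dvd_prime Nat.prime_three).1 (hd' ▸ Nat.gcd_dvd_left 3 (q + 1) : d ∣ 3) with h | h
      · exfalso
        have hk : k0 ≤ 1 := h ▸ hk0le
        have h1 : (q - 1) * (q + 1) ≤ (q - 1) * q := by
          calc (q - 1) * (q + 1) ≤ w * (k0 * α) := hineq
            _ ≤ q * (1 * (q - 1)) := Nat.mul_le_mul hwle (Nat.mul_le_mul hk hαle)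
            _ = (q - 1) * q := by ring
        have := Nat.le_of_mul_le_mul_left h1 (by omega)
        omega
      · refine ⟨?_, h⟩
        rcases (Nat.dvd_prime Nat.prime_three).1 (h ▸ hk0) with h' | h'
        · exfalso
          have h1 : (q - 1) * (q + 1) ≤ (q - 1) * q := by
            calc (q - 1) * (q + 1) ≤ w * (k0 * α) := hineq
              _ ≤ q * (1 * (q - 1)) := Nat.mul_le_mul hwle (Nat.mul_le_mul h'.le hαle)
              _ = (q - 1) * q := by ring
          have := Nat.le_of_mul_le_mul_left h1 (by omega)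
          omega
        · exact h'
    obtain ⟨hk3, hd3⟩ := hkd
    rw [hk3] at hineq hτ
    have hwq : w = q := by
      obtain ⟨i, hi, hwi⟩ := (Nat.dvd_prime_pow hpp).1
        ((hpw ▸ (card_pc_dvd hF hfr H).1 : w ∣ q ^ 3).trans (dvd_of_eq
          (show q ^ 3 = p ^ (r * 3) by rw [hqp, pow_mul])))
      by_contra hne'
      have hir : i < r := by
        by_contra hge
        have h2 := Nat.pow_le_pow_right hpp.pos (show r ≤ i by omega)
        rw [← hwi, ← hqp] at h2
        omega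
      have h1 : 3 * w ≤ q := by
        calc 3 * w ≤ p * p ^ i := by rw [hwi]; exact Nat.mul_le_mul_right _ hp3
          _ = p ^ (i + 1) := by rw [pow_succ']
          _ ≤ p ^ r := Nat.pow_le_pow_right hpp.pos hir
          _ = q := hqp.symm
      have h2 : (q - 1) * (q + 1) ≤ (q - 1) * q := by
        calc (q - 1) * (q + 1) ≤ w * (3 * α) := hineq
          _ = (3 * w) * α := by ring
          _ ≤ q * (q - 1) := Nat.mul_le_mul h1 hαle
          _ = (q - 1) * q := by ring
      have := Nat.le_of_mul_le_mul_left h2 (by omega)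
      omega
    refine ⟨hd3, hpw.trans hwq, hsfix, α, j, hτ, by rw [hj, mul_comm], hj0, ?_⟩
    rw [hwq, hj] at hineq
    have h3 : j * (q + 1) ≤ 3 * q := Nat.le_of_mul_le_mul_left (a := j * (q + 1)) (b := 3 * q) (c := α)
      (by calc α * (j * (q + 1)) = α * j * (q + 1) := by ring
            _ ≤ q * (3 * α) := hineq
            _ = α * (3 * q) := by ring) hα0
    by_contra hj3
    have : 3 * (q + 1) ≤ j * (q + 1) := Nat.mul_le_mul_right _ (by omega)
    omega
  obtain ⟨e₀, f₀, z₀, hfr₀⟩ := exists_frame hF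
  obtain ⟨hd3, hw₀, -, α, j, hτ₀, hj, hj1, hj2⟩ := hloc _ _ _ hfr₀
  have hH0 := (hord _ _ _ hfr₀).1
  rw [hw₀, hτ₀] at hH0
  have h3q : 3 ∣ q + 1 := by rw [← hd3, hd']; exact Nat.gcd_dvd_right _ _
  have hodd : ¬2 ∣ q := fun h => hp ((Nat.prime_dvd_prime_iff_eq Nat.prime_two hpp).1
    (Nat.prime_two.dvd_of_dvd_pow (hqp ▸ h : 2 ∣ p ^ r))).symm
  have hq11 : 11 ≤ q := by omega
  have hα5 : 5 ≤ α := by
    rcases (by omega : j = 1 ∨ j = 2) with h | h <;> subst h <;> omega
  have hall : ∀ (e f z : Fin 3 → F) (hfr : Frame hF e f z), (pc hF H hfr).ncard = q ∧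
      Nat.card (tc hF H hfr) = 3 * α ∧ ∀ t ∈ tc hF H hfr, σ (sChar hF t : F) = sChar hF t := by
    intro e f z hfr
    obtain ⟨-, h1, h2, -⟩ := hloc _ _ _ hfr
    refine ⟨h1, ?_, h2⟩
    have h4 := (hord _ _ _ hfr).1
    rw [hH0, h1] at h4
    exact (Nat.eq_of_mul_eq_mul_left (by omega) (Nat.eq_of_mul_eq_mul_left (Nat.succ_pos _) h4)).symm
  obtain ⟨hm1, hm2, hm3, hm4⟩ := sNum_spec hF
  rw [← hd, hd3] at hm1 hm2
  set m := sNum hF
  set Q := q ^ 3 + 1
  have hH' : Nat.card H = Q * (q * (3 * α)) := hH0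
  have hrH : ∀ r, r ∣ m → r ∣ Nat.card H := fun r hr => by
    rw [hH', hm2]; exact (((hr.mul_left 3).mul_right _).mul_right _)
  have hqa : 55 ≤ q * α := by
    calc 55 = 11 * 5 := rfl
      _ ≤ q * α := Nat.mul_le_mul hq11 hα5
  have hQ : Q * 55 ≤ Q * (q * α) := Nat.mul_le_mul_left Q hqa
  have hH'' : Nat.card H = 3 * (Q * (q * α)) := by rw [hH']; ring
  -- each Singer centraliser has a normaliser of index three
  have hbig : ∀ {x : Cfsg.SU 3 F q} {r : ℕ}, r.Prime → r ∣ m → r ∣ Nat.card (cen H x) →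
      15 ≤ Nat.card (cen H x) := by
    intro x r hr hrm hrx
    have hr3 : r ≠ 3 := fun e => by
      have := Nat.dvd_gcd hrm (e ▸ dvd_rfl : r ∣ 3)
      rw [hm3] at this
      exact hr.one_lt.ne' (Nat.dvd_one.1 this)
    have hr2 : r ≠ 2 := fun e => (hm4 r hr hrm).1 (by
      rw [e, hsub]
      exact Dvd.dvd.mul_left (by omega : 2 ∣ q + 1) _)
    have hr5 : 5 ≤ r := by
      have h1 := hr.two_le
      have h4 : r ≠ 4 := fun e => by rw [e] at hr; norm_num at hr
      omega
    have h := (Nat.coprime_primes Nat.prime_three hr).2 (Ne.symm hr3) |>.mul_dvd_of_dvd_of_dvd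
      ((dvd_of_eq hd3.symm).trans (Subgroup.card_dvd_of_le (center_le_cen hZ x)) : 3 ∣ Nat.card (cen H x)) hrx
    have := Nat.le_of_dvd Nat.card_pos h
    omega
  have hnu : ∀ {x : Cfsg.SU 3 F q}, x ∈ H → Simp (act x) → 15 ≤ Nat.card (cen H x) →
      ((cen H x).subgroupOf (nor H x)).index = 3 := by
    intro x hxH hx h15
    refine (nor_index_cases hF hx hxH).resolve_left fun h1 => ?_
    obtain ⟨hc1, hc2⟩ := cls_card hF hZ hx hxH
    have hb := count_bound hF hZ hd3 (τ := 3 * α) (by omega) (by omega) hH' hall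
      (S := cls H x) (fun g hg => by
        obtain ⟨-, h, hh, hgh⟩ := hg
        have := H.mul_mem (H.mul_mem hh (mem_cen.1 hgh).1) (H.inv_mem hh)
        simpa [mul_assoc] using this) (fun g hg => cls_no_fix hF hx hg)
    rw [h1, one_mul] at hc2
    rw [← hd, hd3] at hc1
    rw [hc1] at hb
    set I := ((nor H x).subgroupOf H).index
    set C := Nat.card (cen H x)
    have h4 : 4 * (I * C) ≤ 5 * (I * (C - 3)) := by
      calc 4 * (I * C) = I * (4 * C) := by ring
        _ ≤ I * (5 * (C - 3)) := Nat.mul_le_mul_left _ (by omega)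
        _ = _ := by ring
    omega
  obtain ⟨r, hr, hrm⟩ := Nat.exists_prime_and_dvd (show m ≠ 1 by
    intro h
    rw [h] at hm1
    have : 10 * 10 ≤ q * (q - 1) := Nat.mul_le_mul (by omega) (by omega)
    omega)
  obtain ⟨x, hxH, hx, hrx⟩ := exists_singer hF hr hrm (hrH r hrm)
  have hx3 := hnu hxH hx (hbig hr hrm hrx)
  have hmx : ∀ s, s.Prime → s ∣ m → s ∣ Nat.card (cen H x) := by
    intro s hs hsm
    by_contra hsx
    obtain ⟨y, hyH, hy, hsy⟩ := exists_singer hF hs hsm (hrH s hsm)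
    have hy3 := hnu hyH hy (hbig hs hsm hsy)
    have hdis := cls_disjoint hF (H := H) hx hy (fun h => hsx (h ▸ hsy))
    have hsub' : ∀ u : Cfsg.SU 3 F q, cls H u ⊆ H := fun u g hg => by
      obtain ⟨-, h, hh, hgh⟩ := hg
      have := H.mul_mem (H.mul_mem hh (mem_cen.1 hgh).1) (H.inv_mem hh)
      simpa [mul_assoc] using this
    have hb := count_bound hF hZ hd3 (τ := 3 * α) (by omega) (by omega) hH' hall
      (S := cls H x ∪ cls H y) (Set.union_subset (hsub' x) (hsub' y)) (fun g hg => by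
        rcases hg with hg | hg
        · exact cls_no_fix hF hx hg
        · exact cls_no_fix hF hy hg)
    rw [Set.ncard_union_eq hdis (Set.toFinite _) (Set.toFinite _)] at hb
    obtain ⟨hc1, hc2⟩ := cls_card hF hZ hx hxH
    obtain ⟨hd1, hd2⟩ := cls_card hF hZ hy hyH
    rw [hx3] at hc2
    rw [hy3] at hd2
    rw [← hd, hd3] at hc1 hd1
    rw [hc1, hd1] at hb
    have hC := hbig hr hrm hrx
    have hD := hbig hs hsm hsy
    set I := ((nor H x).subgroupOf H).index
    set C := Nat.card (cen H x)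
    set J := ((nor H y).subgroupOf H).index
    set D := Nat.card (cen H y)
    have h4 : 4 * (I * C) ≤ 5 * (I * (C - 3)) := by
      calc 4 * (I * C) = I * (4 * C) := by ring
        _ ≤ I * (5 * (C - 3)) := Nat.mul_le_mul_left _ (by omega)
        _ = _ := by ring
    have h5 : 4 * (J * D) ≤ 5 * (J * (D - 3)) := by
      calc 4 * (J * D) = J * (4 * D) := by ring
        _ ≤ J * (5 * (D - 3)) := Nat.mul_le_mul_left _ (by omega)
        _ = _ := by ring
    rw [show I * (3 * C) = 3 * (I * C) by ring] at hc2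
    rw [show J * (3 * D) = 3 * (J * D) by ring] at hd2
    omega
  obtain ⟨hc1, hc2⟩ := cls_card hF hZ hx hxH
  rw [hx3] at hc2
  set I := ((nor H x).subgroupOf H).index
  have hmC : m ∣ Nat.card (cen H x) := by
    rw [Nat.dvd_iff_prime_pow_dvd_dvd]
    intro s k hs hsk
    rcases Nat.eq_zero_or_pos k with rfl | hk
    · simp
    have hsm : s ∣ m := (dvd_pow_self s hk.ne').trans hsk
    have hs3 : s.Coprime 3 := hm3.coprime_dvd_left hsm
    have hI := nor_index_modEq hF hZ hx hxH hs3 (hmx s hs hsm)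
    have hsI : s.Coprime I := hs.coprime_iff_not_dvd.2 fun h => hs.one_lt.ne' (Nat.dvd_one.1
      (Nat.modEq_zero_iff_dvd.1 (hI.symm.trans (Nat.modEq_zero_iff_dvd.2 h))))
    have h1 : s ^ k ∣ I * (3 * Nat.card (cen H x)) := by
      rw [hc2]; exact hrH _ hsk
    exact (Nat.Coprime.pow_left k hs3).dvd_of_dvd_mul_left ((Nat.Coprime.pow_left k hsI).dvd_of_dvd_mul_left h1)
  obtain ⟨k, hk, hk9⟩ := cen_card_eq hF hZ hx hmC
  rw [← hd, hd3] at hk hk9
  have hI := nor_index_modEq hF hZ hx hxH hm3 hmC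
  have hm0 : 0 < m := Nat.pos_of_ne_zero fun h => by rw [h] at hm1; omega
  have hIk : I * k = α * q * (q + 1) := by
    refine Nat.eq_of_mul_eq_mul_right (show 0 < 9 * m by omega) ?_
    calc I * k * (9 * m) = I * (3 * Nat.card (cen H x)) := by rw [hk]; ring
      _ = Q * (q * (3 * α)) := hc2.trans hH'
      _ = α * q * (q + 1) * (9 * m) := by rw [hm2]; ring
  have hmod : m ∣ k * j + (q + 1) := by
    rw [← Nat.modEq_zero_iff_dvd]
    have h1 : k * j ≡ q * (q + 1) * (q - 1) [MOD m] := by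
      have h2 : I * (k * j) = q * (q + 1) * (q - 1) := by rw [← hj, ← mul_assoc, hIk]; ring
      rw [← h2]
      simpa using (hI.symm.mul_right (k * j))
    refine (h1.add_right (q + 1)).trans (Nat.modEq_zero_iff_dvd.2 ⟨3 * (q + 1), ?_⟩)
    obtain ⟨u, hu⟩ : ∃ u, q = u + 1 := ⟨q - 1, by omega⟩
    calc q * (q + 1) * (q - 1) + (q + 1) = (q + 1) * (q * (q - 1) + 1) := by ring
      _ = m * (3 * (q + 1)) := by rw [← hm1]; ring
  have hkj : k * j ≤ 18 := by
    calc k * j ≤ 9 * 2 := Nat.mul_le_mul (Nat.le_of_dvd (by norm_num) hk9) hj2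
      _ = 18 := rfl
  have := Nat.le_of_dvd (by omega) hmod
  have : 10 * q ≤ q * (q - 1) := by rw [mul_comm 10]; exact Nat.mul_le_mul_left _ (by omega)
  omega

end Cfsg.Agent.Forms.SUThree.MinIdx
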