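import Cfsg.Agent.Forms.SUThreeMinIndexBorel

/-!
# A subgroup of small index in `SU₃(q)` is transitive on isotropic points
-/

set_option autoImplicit false

namespace Cfsg.Agent.Forms.SUThree.MinIdx

open Cfsg.Agent.KnownA
open Cfsg.Agent.Forms (frobQ isoPts)
open scoped LinearAlgebra.Projectivization

variable {F : Type*} [Field F] [Fintype F] {q : ℕ} (hF : Fintype.card F = q ^ 2)
include hF

local notation "B" => ub hF
local notation "σ" => frobQ hF

theorem exists_prime_pow : ∃ p f : ℕ, p.Prime ∧ CharP F p ∧ q = p ^ f ∧ 0 < f := by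
  obtain ⟨n, hp, hn⟩ := FiniteField.card F (ringChar F)
  obtain ⟨f, -, hf⟩ := (Nat.dvd_prime_pow hp).1 (show q ∣ ringChar F ^ (n : ℕ) by
    rw [← hn, hF]; exact dvd_pow_self q two_ne_zero)
  refine ⟨_, f, hp, inferInstance, hf, Nat.pos_of_ne_zero fun h => ?_⟩
  have := Forms.two_le_q hF
  rw [hf, h, pow_zero] at this
  omega

theorem eq_top_of_conj_mem (hq : 3 ≤ q) {H : Subgroup (Cfsg.SU 3 F q)}
    (hZ : Subgroup.center (Cfsg.SU 3 F q) ≤ H) {x : Cfsg.SU 3 F q}
    (hx : x ∉ Subgroup.center (Cfsg.SU 3 F q)) (h : ∀ g, g * x * g⁻¹ ∈ H) : H = ⊤ := by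
  have := Forms.psu_simple hF (n := 3) le_rfl (by omega)
  set π := QuotientGroup.mk' (Subgroup.center (Cfsg.SU 3 F q))
  set N := Subgroup.normalClosure {x} with hN
  have hxN : x ∈ N := Subgroup.subset_normalClosure rfl
  have hNH : N ≤ H := by
    rw [hN, Subgroup.normalClosure, Subgroup.closure_le]
    intro y hy
    obtain ⟨a, ha, hc⟩ := Group.mem_conjugatesOfSet_iff.1 hy
    rw [Set.mem_singleton_iff] at ha
    subst ha
    obtain ⟨g, rfl⟩ := isConj_iff.1 hc
    exact h g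
  have hnorm : (N.map π).Normal := Subgroup.Normal.map inferInstance π (QuotientGroup.mk'_surjective _)
  rcases hnorm.eq_bot_or_eq_top with h1 | h1
  · exfalso
    apply hx
    have h2 : π x ∈ N.map π := ⟨x, hxN, rfl⟩
    rw [h1, Subgroup.mem_bot] at h2
    exact (QuotientGroup.eq_one_iff x).1 h2
  · rw [eq_top_iff]
    intro g _
    obtain ⟨y, hy, hyg⟩ : π g ∈ N.map π := by rw [h1]; trivial
    have h2 : y⁻¹ * g ∈ Subgroup.center (Cfsg.SU 3 F q) := (QuotientGroup.eq).1 hyg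
    have := H.mul_mem (hNH hy) (hZ h2)
    rwa [mul_inv_cancel_left] at this

variable {e f z : Fin 3 → F} (hfr : Frame hF e f z)
include hfr

theorem center_le_bor : Subgroup.center (Cfsg.SU 3 F q) ≤ bor hF e := by
  intro g hg
  obtain ⟨c, hc⟩ := (Forms.su_mem_center_iff hF (by norm_num) g).1 hg
  have hc0 : c ≠ 0 := fun h => act_ne_zero g (fr_e0 hF hfr) (by rw [hc, h, zero_smul])
  exact ⟨Units.mk0 c hc0, hc e⟩

theorem R_central {a c : F} (h : Adm hF a c)
    (hZ : R hF hfr a c ∈ Subgroup.center (Cfsg.SU 3 F q)) : a = 0 ∧ c = 0 := by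
  obtain ⟨k, hk⟩ := (Forms.su_mem_center_iff hF (by norm_num) _).1 hZ
  obtain ⟨h1, -, -⟩ := act_R hF hfr h
  rw [hk] at h1
  have hk1 : k = 1 := smul_left_injective F (fr_e0 hF hfr) (h1.trans (one_smul F e).symm)
  obtain ⟨h2, h3⟩ := R_eval hF hfr h
  rw [hk, hk1, one_smul] at h2 h3
  exact ⟨by rw [← h2, fr_zf hF hfr], by rw [← h3, hfr.ff]⟩

theorem chi_eq_one_of_pow {p : ℕ} [Fact p.Prime] [CharP F p] {g : bor hF e} {k : ℕ}
    (hg : g ^ p ^ k = 1) : chi hF hfr g = 1 := by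
  have h1 := congrArg (fun u : Fˣ => (u : F)) (congrArg (chi hF hfr) hg)
  simp only [map_pow, map_one, Units.val_pow_eq_pow_val, Units.val_one] at h1
  have h2 : ((chi hF hfr g : F) - 1) ^ p ^ k = 0 := by rw [sub_pow_char_pow, h1, one_pow, sub_self]
  exact Units.ext (sub_eq_zero.1 (pow_eq_zero_iff (pow_ne_zero _ (Nat.Prime.ne_zero Fact.out)) |>.1 h2))

variable (H : Subgroup (Cfsg.SU 3 F q))

/-- The unipotent parameters in `H`. -/
def pc (hfr : Frame hF e f z) : Set (F × F) :=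
  {p | Adm hF p.1 p.2 ∧ R hF hfr p.1 p.2 ∈ H}

/-- The central parameters in `H`. -/
def zc (hfr : Frame hF e f z) : AddSubgroup F where
  carrier := {c | Adm hF 0 c ∧ R hF hfr 0 c ∈ H}
  zero_mem' := ⟨adm_zero hF, by rw [R_zero]; exact H.one_mem⟩
  add_mem' := by
    rintro c d ⟨hc, hcH⟩ ⟨hd, hdH⟩
    have h1 := adm_mul hF hc hd
    have h2 := H.mul_mem hcH hdH
    rw [R_mul hF hfr hc hd] at h2
    simp only [map_zero, zero_mul, sub_zero, add_zero] at h1 h2
    exact ⟨h1, h2⟩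
  neg_mem' := by
    rintro c ⟨hc, hcH⟩
    have h1 := adm_neg hF hc
    have h2 := H.inv_mem hcH
    rw [R_inv hF hfr hc] at h2
    simp only [map_zero, zero_mul, sub_zero, neg_zero] at h1 h2
    exact ⟨h1, h2⟩

/-- The middle parameters in `H`. -/
def wc (hfr : Frame hF e f z) : AddSubgroup F where
  carrier := {a | ∃ c, Adm hF a c ∧ R hF hfr a c ∈ H}
  zero_mem' := ⟨0, adm_zero hF, by rw [R_zero]; exact H.one_mem⟩
  add_mem' := by
    rintro a b ⟨c, hc, hcH⟩ ⟨d, hd, hdH⟩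
    exact ⟨_, adm_mul hF hc hd, by rw [← R_mul hF hfr hc hd]; exact H.mul_mem hcH hdH⟩
  neg_mem' := by
    rintro a ⟨c, hc, hcH⟩
    exact ⟨_, adm_neg hF hc, by rw [← R_inv hF hfr hc]; exact H.inv_mem hcH⟩

/-- The multipliers in `H`. -/
noncomputable def tc (hfr : Frame hF e f z) : Subgroup Fˣ :=
  (H.subgroupOf (bor hF e)).map (chi hF hfr)

theorem mem_tc {t : Fˣ} : t ∈ tc hF H hfr ↔
    ∃ g : bor hF e, (g : Cfsg.SU 3 F q) ∈ H ∧ chi hF hfr g = t := by
  simp [tc, Subgroup.mem_map, Subgroup.mem_subgroupOf]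

theorem card_pc_eq : (pc hF H hfr).ncard = Nat.card (zc hF H hfr) * Nat.card (wc hF H hfr) := by
  classical
  have hsec : ∀ a : wc hF H hfr, ∃ c, Adm hF (a : F) c ∧ R hF hfr (a : F) c ∈ H := fun a => a.2
  choose sec hsec1 hsec2 using hsec
  rw [← Nat.card_coe_set_eq, ← Nat.card_prod]
  refine (Nat.card_congr (Equiv.ofBijective
    (fun x : zc hF H hfr × wc hF H hfr => (⟨((x.2 : F), (x.1 : F) + sec x.2), ?_⟩ : pc hF H hfr))
    ⟨fun x y h => ?_, fun p => ?_⟩)).symm
  · have h1 := adm_mul hF x.1.2.1 (hsec1 x.2)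
    have h2 := H.mul_mem x.1.2.2 (hsec2 x.2)
    rw [R_mul hF hfr x.1.2.1 (hsec1 x.2)] at h2
    simp only [map_zero, zero_mul, sub_zero, zero_add] at h1 h2
    exact ⟨h1, h2⟩
  · have h1 := congrArg (fun p : pc hF H hfr => (p : F × F)) h
    simp only [Prod.mk.injEq] at h1
    obtain ⟨h2, h3⟩ := h1
    have h4 : x.2 = y.2 := Subtype.ext h2
    rw [h4, add_left_inj] at h3
    exact Prod.ext (Subtype.ext h3) h4
  · obtain ⟨⟨a, c⟩, hc, hcH⟩ := p
    set a' : wc hF H hfr := ⟨a, c, hc, hcH⟩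
    have h1 : c - sec a' ∈ zc hF H hfr := by
      have hs := hsec1 a'
      have hm := adm_mul hF hc (adm_neg hF hs)
      have hmem := H.mul_mem hcH (H.inv_mem (hsec2 a'))
      rw [R_inv hF hfr hs, R_mul hF hfr hc (adm_neg hF hs)] at hmem
      have e1 : c + (-sec a' - σ a * a) - σ a * -a = c - sec a' := by ring
      rw [add_neg_cancel, e1] at hm hmem
      exact ⟨hm, hmem⟩
    exact ⟨(⟨_, h1⟩, a'), Subtype.ext (by simp [a'])⟩

theorem card_pc_dvd : (pc hF H hfr).ncard ∣ q ^ 3 ∧ (pc hF H hfr).ncard ∣ Nat.card H := by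
  classical
  set K := H.subgroupOf (bor hF e) ⊓ (chi hF hfr).ker
  have hK : Nat.card K = (pc hF H hfr).ncard := by
    rw [← Nat.card_coe_set_eq]
    refine (Nat.card_congr (Equiv.ofBijective
      (fun p : pc hF H hfr => (⟨⟨R hF hfr p.1.1 p.1.2, R_mem_bor hF hfr p.2.1⟩,
        Subgroup.mem_subgroupOf.2 p.2.2, (chi_eq_one_iff hF hfr _).2 ⟨_, _, p.2.1, rfl⟩⟩ : K))
      ⟨fun p r h => ?_, fun g => ?_⟩)).symm
    · obtain ⟨h1, h2⟩ := R_inj hF hfr p.2.1 r.2.1
        (congrArg (fun x : K => ((x.1 : bor hF e) : Cfsg.SU 3 F q)) h)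
      exact Subtype.ext (Prod.ext h1 h2)
    · obtain ⟨a, c, h, e1⟩ := (chi_eq_one_iff hF hfr g.1).1 g.2.2
      exact ⟨⟨(a, c), h, e1 ▸ Subgroup.mem_subgroupOf.1 g.2.1⟩, Subtype.ext (Subtype.ext e1.symm)⟩
  rw [← hK]
  refine ⟨?_, ?_⟩
  · rw [← card_ker_chi hF hfr]
    exact Subgroup.card_dvd_of_le inf_le_right
  · refine Subgroup.card_dvd_of_injective
      (((bor hF e).subtype.comp K.subtype).codRestrict H fun g => Subgroup.mem_subgroupOf.1 g.2.1)
      fun g h e1 => ?_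
    exact Subtype.ext (Subtype.ext (congrArg (fun x : H => (x : Cfsg.SU 3 F q)) e1))

theorem card_stab : Nat.card (MulAction.stabilizer H (pt hF (fr_e0 hF hfr) hfr.ee)) =
    (pc hF H hfr).ncard * Nat.card (tc hF H hfr) := by
  classical
  haveI : Finite (Cfsg.SU 3 F q) := Subtype.finite
  set K := H.subgroupOf (bor hF e)
  set φ := (chi hF hfr).comp K.subtype
  have e1 : Nat.card (MulAction.stabilizer H (pt hF (fr_e0 hF hfr) hfr.ee)) = Nat.card K := by
    refine Nat.card_congr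
      { toFun := fun g => ⟨⟨(g.1 : Cfsg.SU 3 F q), (mem_bor_iff hF _ _ _).2 g.2⟩,
          Subgroup.mem_subgroupOf.2 g.1.2⟩
        invFun := fun g => ⟨⟨(g.1 : Cfsg.SU 3 F q), Subgroup.mem_subgroupOf.1 g.2⟩,
          (mem_bor_iff hF _ _ _).1 g.1.2⟩
        left_inv := fun g => rfl
        right_inv := fun g => rfl }
  have e2 : Nat.card φ.ker = (pc hF H hfr).ncard := by
    rw [← Nat.card_coe_set_eq]
    refine (Nat.card_congr (Equiv.ofBijective
      (fun p : pc hF H hfr => (⟨⟨⟨R hF hfr p.1.1 p.1.2, R_mem_bor hF hfr p.2.1⟩,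
        Subgroup.mem_subgroupOf.2 p.2.2⟩, (chi_eq_one_iff hF hfr _).2 ⟨_, _, p.2.1, rfl⟩⟩ : φ.ker))
      ⟨fun p r h => ?_, fun g => ?_⟩)).symm
    · obtain ⟨h1, h2⟩ := R_inj hF hfr p.2.1 r.2.1
        (congrArg (fun x : φ.ker => (((x.1 : K) : bor hF e) : Cfsg.SU 3 F q)) h)
      exact Subtype.ext (Prod.ext h1 h2)
    · obtain ⟨a, c, h, e1⟩ := (chi_eq_one_iff hF hfr g.1.1).1 g.2
      exact ⟨⟨(a, c), h, e1 ▸ Subgroup.mem_subgroupOf.1 g.1.2⟩,
        Subtype.ext (Subtype.ext (Subtype.ext e1.symm))⟩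
  have e3 : φ.range = tc hF H hfr := by
    rw [MonoidHom.range_comp, Subgroup.range_subtype]; rfl
  rw [e1, ← Subgroup.card_mul_index φ.ker, e2, Subgroup.index_ker, e3]

omit hfr in
set_option maxHeartbeats 800000 in
set_option synthInstance.maxHeartbeats 100000 in
/-- A subgroup of small index is transitive. -/
theorem transitive_of_index_le (hn : H.index ≤ q ^ 3) :
    (∀ x y : isoPts (n := 3) hF, ∃ h ∈ H, h • x = y) ∧
    ∀ (e f z : Fin 3 → F) (hfr : Frame hF e f z),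
      Nat.card H = (q ^ 3 + 1) * ((pc hF H hfr).ncard * Nat.card (tc hF H hfr)) ∧
        q ^ 2 - 1 ≤ (pc hF H hfr).ncard * Nat.card (tc hF H hfr) := by
  classical
  haveI : Finite (Cfsg.SU 3 F q) := Subtype.finite
  obtain ⟨p, r, hp, hcp, hqp, hr⟩ := exists_prime_pow hF
  haveI := Fact.mk hp
  obtain ⟨e₀, f₀, z₀, hfr₀⟩ := exists_frame hF
  have hX := card_isoPts hF hfr₀
  haveI : Finite (isoPts (n := 3) hF) := Nat.finite_of_card_ne_zero (by rw [hX]; omega)
  have hq0 := Forms.two_le_q hF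
  have hq3 : q ^ 3 = p ^ (r * 3) := by rw [hqp, pow_mul]
  have hq1 : 1 ≤ q ^ 2 - 1 := by
    have : 4 ≤ q ^ 2 := by nlinarith
    omega
  have hn0 : H.index ≠ 0 := Subgroup.index_ne_zero_of_finite
  have hGcard := (Subgroup.card_mul_index H).trans (card_G hF hfr₀)
  have hbig : (q ^ 2 - 1) * (q ^ 3 + 1) ≤ Nat.card H := by
    refine Nat.le_of_mul_le_mul_left (c := q ^ 3) ?_ (pow_pos (show 0 < q by omega) 3)
    calc q ^ 3 * ((q ^ 2 - 1) * (q ^ 3 + 1)) = Nat.card H * H.index := by rw [hGcard, mul_assoc]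
      _ ≤ Nat.card H * q ^ 3 := Nat.mul_le_mul_left _ hn
      _ = q ^ 3 * Nat.card H := mul_comm _ _
  -- it is enough to find one orbit of full length
  suffices ∃ x : isoPts (n := 3) hF, Nat.card (MulAction.orbit H x) = q ^ 3 + 1 by
    obtain ⟨x₀, hx₀⟩ := this
    have hall : ∀ y, y ∈ MulAction.orbit H x₀ := by
      intro y
      have h1 : MulAction.orbit H x₀ = Set.univ :=
        Set.eq_of_subset_of_ncard_le (Set.subset_univ _)
          (by rw [Set.ncard_univ, hX, ← Nat.card_coe_set_eq, hx₀]) (Set.toFinite _)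
      rw [h1]; trivial
    have htrans : ∀ x y : isoPts (n := 3) hF, ∃ h : H, h • x = y := by
      intro x y
      obtain ⟨a, ha⟩ := hall x
      obtain ⟨b, hb⟩ := hall y
      exact ⟨b * a⁻¹, by rw [← ha, ← hb]; simp [mul_smul]⟩
    haveI : MulAction.IsPretransitive H (isoPts (n := 3) hF) := ⟨htrans⟩
    refine ⟨fun x y => ?_, fun e f z hfr => ?_⟩
    · obtain ⟨h, hh⟩ := htrans x y
      exact ⟨h, h.2, hh⟩
    · have h1 : Nat.card H = (q ^ 3 + 1) * ((pc hF H hfr).ncard * Nat.card (tc hF H hfr)) := by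
        rw [← card_stab hF hfr H, ← hX,
          ← MulAction.index_stabilizer_of_transitive H (pt hF (fr_e0 hF hfr) hfr.ee), mul_comm,
          Subgroup.card_mul_index]
      refine ⟨h1, Nat.le_of_mul_le_mul_right ?_ (Nat.succ_pos (q ^ 3))⟩
      rw [h1, mul_comm (q ^ 3 + 1)] at hbig
      exact hbig
  have horb : ∀ (e f z : Fin 3 → F) (hfr : Frame hF e f z),
      Nat.card (MulAction.orbit H (pt hF (fr_e0 hF hfr) hfr.ee)) *
        ((pc hF H hfr).ncard * Nat.card (tc hF H hfr)) = Nat.card H := by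
    intro e f z hfr
    rw [← card_stab hF hfr H, Nat.card_coe_set_eq, ← MulAction.index_stabilizer, mul_comm,
      Subgroup.card_mul_index]
  have hle : ∀ x : isoPts (n := 3) hF, Nat.card (MulAction.orbit H x) ≤ q ^ 3 + 1 := fun x => by
    rw [← hX]; exact Nat.card_le_card_of_injective _ Subtype.val_injective
  have htdvd : ∀ (e f z : Fin 3 → F) (hfr : Frame hF e f z),
      Nat.card (tc hF H hfr) ∣ q ^ 2 - 1 := fun e f z hfr => by
    rw [← Forms.card_units_sq hF]; exact Subgroup.card_subgroup_dvd_card _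
  by_cases hpH : p ∣ Nat.card H
  swap
  · refine ⟨pt hF (fr_e0 hF hfr₀) hfr₀.ee, le_antisymm (hle _) ?_⟩
    have h1 : (pc hF H hfr₀).ncard = 1 := by
      obtain ⟨h1, h2⟩ := card_pc_dvd hF hfr₀ H
      obtain ⟨b, -, hb⟩ := (Nat.dvd_prime_pow hp).1 (h1.trans (dvd_of_eq hq3))
      rw [hb] at h2 ⊢
      rcases Nat.eq_zero_or_pos b with rfl | hb0
      · rw [pow_zero]
      · exact absurd ((dvd_pow_self p hb0.ne').trans h2) hpH
    have h2 := horb _ _ _ hfr₀
    rw [h1, one_mul] at h2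
    have h3 : Nat.card (tc hF H hfr₀) ≤ q ^ 2 - 1 := Nat.le_of_dvd hq1 (htdvd _ _ _ hfr₀)
    refine Nat.le_of_mul_le_mul_left ?_ hq1
    calc (q ^ 2 - 1) * (q ^ 3 + 1) ≤ _ := hbig
      _ = _ := h2.symm
      _ ≤ _ := by rw [mul_comm]; exact Nat.mul_le_mul_right _ h3
  -- a Sylow subgroup fixes exactly one point
  obtain ⟨P⟩ := (inferInstance : Nonempty (Sylow p H))
  have hPX : ¬p ∣ Nat.card (isoPts (n := 3) hF) := by
    rw [hX, hqp]
    intro h
    exact hp.one_lt.ne' (Nat.dvd_one.1 ((Nat.dvd_add_right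
      (dvd_pow (dvd_pow_self p hr.ne') (by norm_num))).1 h))
  obtain ⟨x, hx⟩ := P.isPGroup'.nonempty_fixed_point_of_prime_not_dvd_card (isoPts (n := 3) hF) hPX
  obtain ⟨e, f, z, hfr, rfl⟩ := exists_frame_at hF x
  set x := pt hF (fr_e0 hF hfr) hfr.ee
  refine ⟨x, ?_⟩
  have hPb : ∀ u : P, (((u : H) : Cfsg.SU 3 F q)) ∈ bor hF e := fun u =>
    (mem_bor_iff hF _ _ _).2 (hx u)
  have hPR : ∀ u : P, ∃ a c, Adm hF a c ∧ (((u : H) : Cfsg.SU 3 F q)) = R hF hfr a c := by
    intro u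
    obtain ⟨k, hk⟩ := P.isPGroup' u
    refine (chi_eq_one_iff hF hfr ⟨_, hPb u⟩).1 (chi_eq_one_of_pow hF hfr (k := k) ?_)
    exact Subtype.ext (congrArg (fun v : P => (((v : H) : Cfsg.SU 3 F q))) hk)
  choose pa pb hpab hpR using hPR
  have hfree : ∀ (u : P) (y : isoPts (n := 3) hF), y ≠ x → u • y = y → u = 1 := by
    intro u y hy huy
    obtain ⟨h1, h2⟩ := R_fix_eq_one hF hfr (hpab u) hy (by rw [← hpR]; exact huy)
    refine Subtype.ext (Subtype.ext ?_)
    rw [hpR u, h1, h2, R_zero]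
    rfl
  have hPcard : Nat.card P = p ^ (Nat.card H).factorization p := Sylow.card_eq_multiplicity P
  set a := (Nat.card H).factorization p with ha
  have ha0 : 1 ≤ a := hp.factorization_pos_of_dvd Nat.card_pos.ne' hpH
  have hpc : (pc hF H hfr).ncard = p ^ a := by
    obtain ⟨h1, h2⟩ := card_pc_dvd hF hfr H
    obtain ⟨b, -, hb⟩ := (Nat.dvd_prime_pow hp).1 (h1.trans (dvd_of_eq hq3))
    refine le_antisymm ?_ ?_
    · rw [hb] at h2 ⊢
      exact Nat.pow_le_pow_right hp.pos ((hp.pow_dvd_iff_le_factorization Nat.card_pos.ne').1 h2)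
    · rw [← hPcard, ← Nat.card_coe_set_eq (pc hF H hfr)]
      refine Nat.card_le_card_of_injective
        (fun u : P => (⟨(pa u, pb u), hpab u, by rw [← hpR]; exact (u : H).2⟩ : pc hF H hfr))
        fun u v h => ?_
      have h' := congrArg (fun w : pc hF H hfr => (w : F × F)) h
      simp only [Prod.mk.injEq] at h'
      refine Subtype.ext (Subtype.ext ?_)
      rw [hpR u, hpR v, h'.1, h'.2]
  -- the other points of the orbit fall into regular orbits
  set k := Nat.card (MulAction.orbit H x) with hk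
  have hkmod : p ^ a ∣ k - 1 := by
    let O : SubMulAction P (isoPts (n := 3) hF) :=
      { carrier := MulAction.orbit H x \ {x}
        smul_mem' := by
          rintro u y ⟨⟨h, hy⟩, hyx⟩
          refine ⟨⟨(u : H) * h, ?_⟩, ?_⟩
          · show ((u : H) * h) • x = _
            rw [mul_smul, show h • x = y from hy]; rfl
          · intro he
            rw [Set.mem_singleton_iff] at he hyx
            exact hyx (MulAction.injective u (he.trans (hx u).symm)) }
    have hO : Nat.card O = k - 1 := by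
      rw [hk, Nat.card_coe_set_eq,
        ← Set.ncard_sdiff_singleton_of_mem (MulAction.mem_orbit_self (M := H) x)]
      exact Nat.card_coe_set_eq _
    haveI : Finite O := Subtype.finite
    haveI : Fintype (MulAction.orbitRel.Quotient P O) := Fintype.ofFinite _
    rw [← hO, Nat.card_congr (MulAction.selfEquivSigmaOrbits P O), Nat.card_sigma, ← hPcard]
    refine Finset.dvd_sum fun ω _ => ?_
    rw [Nat.card_coe_set_eq, ← MulAction.index_stabilizer]
    have hbot : MulAction.stabilizer P ω.out = ⊥ := by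
      rw [eq_bot_iff]
      intro u hu
      refine hfree u ω.out ?_ (congrArg Subtype.val hu)
      exact fun h => ω.out.2.2 h
    rw [hbot, Subgroup.index_bot]
  have hk1 : 1 ≤ k := by
    haveI : Nonempty (MulAction.orbit H x) := ⟨⟨x, MulAction.mem_orbit_self x⟩⟩
    exact Nat.card_pos
  have hkle : k ≤ q ^ 3 + 1 := hle x
  obtain ⟨A, hA⟩ := hkmod
  obtain ⟨ee', hee'⟩ := htdvd _ _ _ hfr
  set τ := Nat.card (tc hF H hfr)
  have hk' := horb _ _ _ hfr
  rw [hpc] at hk'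
  have ha3 : a ≤ 3 * r := by
    have h1 := (card_pc_dvd hF hfr H).1
    rw [hpc, hq3, Nat.pow_dvd_pow_iff_le_right hp.one_lt] at h1
    linarith
  set M := p ^ (3 * r - a) with hM
  have hQ : q ^ 3 = p ^ a * M := by
    rw [hq3, hM, ← pow_add]; congr 1; omega
  have hcancel : H.index * k = M * (ee' * (q ^ 3 + 1)) := by
    have h1 : (H.index * k) * (p ^ a * τ) = (M * (ee' * (q ^ 3 + 1))) * (p ^ a * τ) := by
      rw [mul_assoc, hk', mul_comm, hGcard, hee', hQ]; ring
    refine Nat.eq_of_mul_eq_mul_right ?_ h1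
    exact Nat.mul_pos (pow_pos hp.pos _) Nat.card_pos
  have hcop : M.Coprime k := by
    refine Nat.Coprime.pow_left _ ((hp.coprime_iff_not_dvd).2 fun h => hp.one_lt.ne' (Nat.dvd_one.1 ?_))
    have h2 : p ∣ p ^ a * A := dvd_mul_of_dvd_left (dvd_pow_self p (by omega)) A
    rw [show k = p ^ a * A + 1 by omega] at h
    exact (Nat.dvd_add_right h2).1 h
  obtain ⟨s, hs⟩ := hcop.dvd_of_dvd_mul_right ⟨_, hcancel⟩
  have hM0 : 0 < M := pow_pos hp.pos _
  have hsk : s * k = ee' * (q ^ 3 + 1) := by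
    rw [hs, mul_assoc] at hcancel
    exact Nat.eq_of_mul_eq_mul_left hM0 hcancel
  have hsle : s ≤ p ^ a := by
    rw [hs, hQ, mul_comm (p ^ a)] at hn
    exact Nat.le_of_mul_le_mul_left hn hM0
  have he0 : 1 ≤ ee' := Nat.pos_of_ne_zero fun h => by rw [h, mul_zero] at hee'; omega
  have hes : ee' ≤ s := by
    refine Nat.le_of_mul_le_mul_right ?_ (Nat.succ_pos (q ^ 3))
    rw [← hsk]
    exact Nat.mul_le_mul_left _ hkle
  have hmod : s ≡ ee' [MOD p ^ a] := by
    have h1 : s * k ≡ s * 1 [MOD p ^ a] := Nat.ModEq.mul_left _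
      ((Nat.modEq_iff_dvd' hk1).2 ⟨A, hA⟩).symm
    have h2 : ee' * (q ^ 3 + 1) ≡ ee' * 1 [MOD p ^ a] := Nat.ModEq.mul_left _
      ((Nat.modEq_iff_dvd' (by omega)).2 ⟨M, by rw [Nat.add_sub_cancel]; exact hQ⟩).symm
    rw [mul_one] at h1 h2
    rw [hsk] at h1
    exact h1.symm.trans h2
  have hse : s = ee' := by
    refine Nat.ModEq.eq_of_abs_lt hmod ?_
    rw [abs_lt]
    constructor <;> omega
  rw [hse] at hsk
  exact Nat.eq_of_mul_eq_mul_left he0 hsk

end Cfsg.Agent.Forms.SUThree.MinIdx
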