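import Cfsg.Agent.Forms.SUThreeMinIndexFrames

/-!
# A point stabiliser cannot be a torus
-/

set_option autoImplicit false

namespace Cfsg.Agent.Forms.SUThree.MinIdx

open Cfsg.Agent.KnownA
open Cfsg.Agent.Forms (frobQ isoPts)
open scoped LinearAlgebra.Projectivization

variable {F : Type*} [Field F] [Fintype F] {q : ℕ} (hF : Fintype.card F = q ^ 2)
include hF

local notation "B" => ub hF
local notation "σ" => frobQ hF

variable {e f z : Fin 3 → F} (hfr : Frame hF e f z)
include hfr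

/-- The point of `f`. -/
noncomputable def fpt (hfr : Frame hF e f z) : isoPts (n := 3) hF := pt hF (fr_f0 hF hfr) hfr.ff

theorem fpt_ne : fpt hF hfr ≠ pt hF (fr_e0 hF hfr) hfr.ee := fun h => by
  obtain ⟨a, ha⟩ := (pt_eq_iff hF _ _ _ _).1 h
  have := congrArg (B e) ha
  rw [ub_smul_right hF, hfr.ee, hfr.ef, mul_zero] at this
  exact zero_ne_one this

theorem R_fpt_ne {a c : F} (h : Adm hF a c) :
    R hF hfr a c • fpt hF hfr ≠ pt hF (fr_e0 hF hfr) hfr.ee := fun h' =>
  fpt_ne hF hfr (MulAction.injective _ (h'.trans ((mem_bor_iff hF _ _ _).1 (R_mem_bor hF hfr h)).symm))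

theorem R_fpt_inj {a c b d : F} (h : Adm hF a c) (h' : Adm hF b d)
    (he : R hF hfr a c • fpt hF hfr = R hF hfr b d • fpt hF hfr) : a = b ∧ c = d := by
  have hm := adm_mul hF (adm_neg hF h') h
  have h1 : R hF hfr (-b + a) (-d - σ b * b + c - σ (-b) * a) • fpt hF hfr = fpt hF hfr := by
    rw [← R_mul hF hfr (adm_neg hF h') h, ← R_inv hF hfr h', mul_smul, he, inv_smul_smul]
  obtain ⟨h2, h3⟩ := R_fix_eq_one hF hfr hm (fpt_ne hF hfr) h1
  have h4 : a = b := by linear_combination h2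
  subst h4
  rw [map_neg] at h3
  exact ⟨rfl, by linear_combination h3⟩

theorem T_conj (t : Fˣ) {a c : F} (h : Adm hF a c) :
    Adm hF ((sChar hF t : F) * a) (c * ((t : F) * σ t)) ∧
      T hF hfr t * R hF hfr a c * (T hF hfr t)⁻¹ = R hF hfr ((sChar hF t : F) * a) (c * ((t : F) * σ t)) := by
  have hw : B e (a • z) = 0 := by rw [ub_smul_right hF, hfr.ez, mul_zero]
  refine ⟨?_, ?_⟩
  · simp only [Adm] at h ⊢
    rw [map_mul (σ) (sChar hF t : F) a, map_mul (σ) c, map_mul, sig_sig hF]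
    linear_combination ((t : F) * σ t) * h + σ a * a * sChar_norm hF t
  · rw [R, root_conj hF _ hfr.ee hfr.ee hw (adm_root hF hfr h) (act_T hF hfr t).1, R,
      map_smul, (act_T hF hfr t).2.1, smul_smul, smul_smul]
    congr 2
    rw [sChar_coe]
    ring

theorem T_smul_fpt (t : Fˣ) : T hF hfr t • fpt hF hfr = fpt hF hfr :=
  smul_pt_eq hF _ _ _ _ _ (act_T hF hfr t).2.2

theorem T_smul_e (t : Fˣ) : T hF hfr t • pt hF (fr_e0 hF hfr) hfr.ee = pt hF (fr_e0 hF hfr) hfr.ee :=
  (mem_bor_iff hF _ _ _).1 (T_mem_bor hF hfr t)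

theorem T_smul_R_fpt (t : Fˣ) {a c : F} (h : Adm hF a c) :
    T hF hfr t • (R hF hfr a c • fpt hF hfr) =
      R hF hfr ((sChar hF t : F) * a) (c * ((t : F) * σ t)) • fpt hF hfr := by
  rw [← (T_conj hF hfr t h).2, mul_smul, mul_smul, inv_smul_eq_iff.2 (T_smul_fpt hF hfr t).symm]

theorem T_fix_iff (t : Fˣ) {a c : F} (h : Adm hF a c) :
    T hF hfr t • (R hF hfr a c • fpt hF hfr) = R hF hfr a c • fpt hF hfr ↔
      (sChar hF t : F) * a = a ∧ c * ((t : F) * σ t) = c := by
  rw [T_smul_R_fpt hF hfr t h]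
  exact ⟨fun h' => R_fpt_inj hF hfr (T_conj hF hfr t h).1 h h', fun h' => by rw [h'.1, h'.2]⟩

theorem adm0_mul {c k : F} (hc : Adm hF 0 c) (hk : σ k = k) : Adm hF 0 (c * k) := by
  rw [adm_zero_iff, map_mul, (adm_zero_iff hF c).1 hc, hk, neg_mul]

variable (H : Subgroup (Cfsg.SU 3 F q))

omit hfr in
/-- A frame whose full torus lies in `H`. -/
theorem exists_adapted (hq : 3 ≤ q) (hpc : ∀ (e f z : Fin 3 → F) (hfr : Frame hF e f z),
      (pc hF H hfr).ncard = 1 ∧ tc hF H hfr = ⊤) (x : isoPts (n := 3) hF) :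
    ∃ e f z : Fin 3 → F, ∃ hfr : Frame hF e f z, pt hF (fr_e0 hF hfr) hfr.ee = x ∧
      ∀ t, T hF hfr t ∈ H := by
  classical
  obtain ⟨e, f, z, hfr, rfl⟩ := exists_frame_at hF x
  obtain ⟨t0, ht0⟩ := IsCyclic.exists_generator (α := Fˣ)
  have hord : orderOf t0 = q ^ 2 - 1 := by
    rw [orderOf_eq_card_of_forall_mem_zpowers ht0, Forms.card_units_sq hF]
  have hq2 : 9 ≤ q ^ 2 := Nat.pow_le_pow_left hq 2
  have hqq : 3 * q ≤ q ^ 2 := by rw [pow_two]; exact Nat.mul_le_mul_right _ hq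
  have hN : (t0 : F) * σ t0 ≠ 1 := by
    intro h
    have h1 : t0 ^ (q + 1) = 1 := Units.ext (by
      rw [Units.val_pow_eq_pow_val, Units.val_one, pow_succ', ← Forms.frobQ_apply hF]; exact h)
    have := Nat.le_of_dvd (by omega) (orderOf_dvd_of_pow_eq_one h1)
    omega
  have hs : σ (t0 : F) * σ t0 ≠ t0 := by
    intro h
    have h1 : t0 ^ Nat.card (Subgroup.center (Cfsg.SU 3 F q)) = 1 := pow_eq_one_of_sChar hF (Units.ext (by
      rw [sChar_coe, h, div_self t0.ne_zero, Units.val_one]))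
    have h3 : Nat.card (Subgroup.center (Cfsg.SU 3 F q)) ≤ 3 := by
      rw [Forms.card_center_SU hF (n := 3) (by norm_num)]
      exact Nat.le_of_dvd (by norm_num) (Nat.gcd_dvd_left _ _)
    haveI : Finite (Cfsg.SU 3 F q) := Subtype.finite
    have := Nat.le_of_dvd Nat.card_pos (orderOf_dvd_of_pow_eq_one h1)
    omega
  obtain ⟨g, hg, hgt⟩ := (mem_tc hF hfr H).1 (show t0 ∈ tc hF H hfr by rw [(hpc e f z hfr).2]; trivial)
  obtain ⟨μ, ν, ρ, hgz, hgf⟩ := act_bor hF hfr g
  have hge := act_chi hF hfr g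
  rw [hgt] at hgz hgf hge
  set l := σ (t0 : F) / t0
  set i := (σ (t0 : F))⁻¹
  have hst := sig_ne_zero hF t0.ne_zero
  have hil : i - l ≠ 0 := by
    intro h
    refine hs ?_
    have h1 : (σ (t0 : F))⁻¹ = σ t0 / t0 := sub_eq_zero.1 h
    rw [eq_div_iff t0.ne_zero, inv_mul_eq_iff_eq_mul₀ hst] at h1
    exact h1.symm
  have hit : i - t0 ≠ 0 := by
    intro h
    refine hN ?_
    have h1 : (σ (t0 : F))⁻¹ = t0 := sub_eq_zero.1 h
    exact (congrArg (fun k => k * σ (t0 : F)) h1.symm).trans (inv_mul_cancel₀ hst)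
  set a' := ν / (i - l) with ha'
  set b' := (ρ + μ * a') / (i - t0) with hb'
  set v := f + a' • z + b' • e
  have hgv : act (g : Cfsg.SU 3 F q) v = i • v := by
    have e1 : ν + a' * l = i * a' := by
      rw [ha']; field_simp; ring
    have e2 : ρ + a' * μ + b' * (t0 : F) = i * b' := by
      rw [hb']; field_simp; ring
    simp only [v, map_add, map_smul, hgf, hgz, hge, smul_add, smul_smul]
    rw [← e1, ← e2]
    module
  have hvv : B v v = 0 := by
    have h1 := act_ub hF (g : Cfsg.SU 3 F q) v v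
    rw [hgv, ub_smul_left hF, ub_smul_right hF, ← mul_assoc] at h1
    have h2 : σ i * i ≠ 1 := by
      simp only [i, map_inv₀, sig_sig hF, ← mul_inv]
      exact fun h => hN (inv_eq_one.1 h)
    by_contra h0
    exact h2 (mul_right_cancel₀ h0 (h1.trans (one_mul _).symm))
  have hadm : Adm hF a' b' := by
    simp only [v, ub_add_left hF, ub_add_right hF, ub_smul_left hF, ub_smul_right hF, hfr.ff, hfr.fz,
      fr_fe hF hfr, hfr.ef, fr_zf hF hfr, fr_ze hF hfr, hfr.ez, hfr.zz, hfr.ee] at hvv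
    simp only [Adm]
    linear_combination hvv
  obtain ⟨r1, -, r3⟩ := act_R hF hfr hadm
  have key : ∀ (e' f' z' : Fin 3 → F) (hfr' : Frame hF e' f' z'), e' = e → f' = v →
      pt hF (fr_e0 hF hfr') hfr'.ee = pt hF (fr_e0 hF hfr) hfr.ee ∧ ∀ t, T hF hfr' t ∈ H := by
    intro e' f' z' hfr' he' hf'
    subst he'
    refine ⟨rfl, fun t => ?_⟩
    have hchi : chi hF hfr' g = t0 := Units.ext (chi_eq hF hfr' g hge)
    obtain ⟨a, c, hac, e1⟩ := bor_decomp hF hfr' g
    rw [hchi] at e1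
    have hfix : R hF hfr' a c • fpt hF hfr' = fpt hF hfr' := by
      have h1 : (g : Cfsg.SU 3 F q) • fpt hF hfr' = fpt hF hfr' :=
        smul_pt_eq hF _ _ _ _ _ (by rw [hf']; exact hgv)
      rw [e1, mul_smul] at h1
      exact MulAction.injective _ (h1.trans (T_smul_fpt hF hfr' t0).symm)
    obtain ⟨ha, hc⟩ := R_fix_eq_one hF hfr' hac (fpt_ne hF hfr') hfix
    rw [ha, hc, R_zero, mul_one] at e1
    obtain ⟨k, hk⟩ := Subgroup.mem_zpowers_iff.1 (ht0 t)
    rw [← hk, map_zpow, ← e1]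
    exact H.zpow_mem hg k
  obtain ⟨h1, h2⟩ := key _ _ _ (frame_map hF hfr (R hF hfr a' b')) r1 r3
  exact ⟨_, _, _, frame_map hF hfr (R hF hfr a' b'), h1, h2⟩

omit hfr in
/-- A subgroup of small index cannot meet a point stabiliser in a torus only. -/
theorem torus_case (hq : 3 ≤ q) (h5 : q ≠ 5) (hZ : Subgroup.center (Cfsg.SU 3 F q) ≤ H)
    (htr : ∀ x y : isoPts (n := 3) hF, ∃ h ∈ H, h • x = y)
    (hcard : Nat.card H = (q ^ 3 + 1) * (q ^ 2 - 1))
    (hpc : ∀ (e f z : Fin 3 → F) (hfr : Frame hF e f z), (pc hF H hfr).ncard = 1 ∧ tc hF H hfr = ⊤) :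
    False := by
  classical
  haveI : Finite (Cfsg.SU 3 F q) := Subtype.finite
  obtain ⟨e₀, f₀, z₀, hfr₀⟩ := exists_frame hF
  haveI : Finite (isoPts (n := 3) hF) := Nat.finite_of_card_ne_zero (by rw [card_isoPts hF hfr₀]; omega)
  let Pair : isoPts (n := 3) hF → isoPts (n := 3) hF → Prop := fun x y =>
    y ≠ x ∧ ∀ h ∈ H, h • x = x → h • y = y
  -- in an adapted frame the partner of `e` is `f`
  have hpair : ∀ (e f z : Fin 3 → F) (hfr : Frame hF e f z), (∀ t, T hF hfr t ∈ H) →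
      Pair (pt hF (fr_e0 hF hfr) hfr.ee) (fpt hF hfr) ∧
      ∀ y, Pair (pt hF (fr_e0 hF hfr) hfr.ee) y → y = fpt hF hfr := by
    intro e f z hfr hT
    refine ⟨⟨fpt_ne hF hfr, fun h hh hx => ?_⟩, fun y hy => ?_⟩
    · set hb : bor hF e := ⟨h, (mem_bor_iff hF _ _ _).2 hx⟩
      obtain ⟨a, c, hac, e1⟩ := bor_decomp hF hfr hb
      change h = _ at e1
      have hR : (a, c) ∈ pc hF H hfr := ⟨hac, by
        show R hF hfr a c ∈ H
        have : R hF hfr a c = (T hF hfr (chi hF hfr hb))⁻¹ * h := by rw [e1, inv_mul_cancel_left]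
        rw [this]; exact H.mul_mem (H.inv_mem (hT _)) hh⟩
      obtain ⟨w, hw⟩ := Set.ncard_eq_one.1 (hpc e f z hfr).1
      have h00 : ((0 : F), (0 : F)) ∈ pc hF H hfr := ⟨adm_zero hF, by rw [R_zero]; exact H.one_mem⟩
      rw [hw, Set.mem_singleton_iff] at hR h00
      obtain ⟨ha, hc⟩ := Prod.mk.inj (hR.trans h00.symm)
      rw [e1, ha, hc, R_zero, mul_one, T_smul_fpt]
    · obtain ⟨a, c, hac, rfl⟩ := exists_R_smul hF hfr y hy.1
      have hall : ∀ t, (sChar hF t : F) * a = a ∧ c * ((t : F) * σ t) = c := fun t =>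
        (T_fix_iff hF hfr t hac).1 (hy.2 _ (hT t) (T_smul_e hF hfr t))
      obtain ⟨t, ht⟩ := IsCyclic.exists_generator (α := Fˣ)
      have hord : orderOf t = q ^ 2 - 1 := by
        rw [orderOf_eq_card_of_forall_mem_zpowers ht, Forms.card_units_sq hF]
      have hq2 : 9 ≤ q ^ 2 := Nat.pow_le_pow_left hq 2
      have hqq : 3 * q ≤ q ^ 2 := by rw [pow_two]; exact Nat.mul_le_mul_right _ hq
      have hc : c = 0 := by
        by_contra hc0
        have h1 : t ^ (q + 1) = 1 := Units.ext (by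
          rw [Units.val_pow_eq_pow_val, Units.val_one, pow_succ', ← Forms.frobQ_apply hF]
          exact mul_left_cancel₀ hc0 (by rw [mul_one]; exact (hall t).2))
        have := Nat.le_of_dvd (by omega) (orderOf_dvd_of_pow_eq_one h1)
        omega
      have ha : a = 0 := by
        subst hc
        have h1 := hac
        simp only [Adm, map_zero, add_zero] at h1
        rcases mul_eq_zero.1 (show σ a * a = 0 by linear_combination h1) with h | h
        · exact (map_eq_zero _).1 h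
        · exact h
      rw [ha, hc, R_zero, one_smul]
      rfl
  have huniq : ∀ x y y', Pair x y → Pair x y' → y = y' := by
    intro x y y' hy hy'
    obtain ⟨e, f, z, hfr, rfl, hT⟩ := exists_adapted hF H hq hpc x
    rw [(hpair e f z hfr hT).2 y hy, (hpair e f z hfr hT).2 y' hy']
  have hsymm : ∀ x y, Pair x y → Pair y x := by
    intro x y hxy
    refine ⟨Ne.symm hxy.1, fun h hh hy => ?_⟩
    have hle : MulAction.stabilizer H x ≤ MulAction.stabilizer H y := fun g hg => hxy.2 g g.2 hg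
    have hst : ∀ w : isoPts (n := 3) hF, Nat.card (MulAction.stabilizer H w) = q ^ 2 - 1 := by
      intro w
      obtain ⟨e, f, z, hfr, rfl⟩ := exists_frame_at hF w
      rw [card_stab hF hfr H, (hpc e f z hfr).1, (hpc e f z hfr).2, one_mul, Subgroup.card_top,
        Forms.card_units_sq hF]
    have heq := Subgroup.eq_of_le_of_card_ge hle (by rw [hst, hst])
    have : (⟨h, hh⟩ : H) ∈ MulAction.stabilizer H x := by rw [heq]; exact hy
    exact this
  have hmap : ∀ g ∈ H, ∀ x y, Pair x y → Pair (g • x) (g • y) := by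
    intro g hg x y hxy
    refine ⟨fun h => hxy.1 (MulAction.injective g h), fun h hh hx => ?_⟩
    have h1 := hxy.2 (g⁻¹ * h * g) (H.mul_mem (H.mul_mem (H.inv_mem hg) hh) hg)
      (by rw [mul_smul, mul_smul, hx, inv_smul_smul])
    rw [mul_smul, mul_smul, inv_smul_eq_iff] at h1
    exact h1
  -- partners are harmonic
  have hharm : ∀ (e f z : Fin 3 → F) (hfr : Frame hF e f z), (∀ t, T hF hfr t ∈ H) →
      ∀ c : F, Adm hF 0 c → c ≠ 0 → Pair (R hF hfr 0 c • fpt hF hfr) (R hF hfr 0 (-c) • fpt hF hfr) := by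
    intro e f z hfr hT c hc hc0
    set k := R hF hfr 0 c • fpt hF hfr
    obtain ⟨e', f', z', hfr', hk, hT'⟩ := exists_adapted hF H hq hpc k
    have hp : Pair k (fpt hF hfr') := hk ▸ (hpair e' f' z' hfr' hT').1
    obtain ⟨hef, heuniq⟩ := hpair e f z hfr hT
    have hne_e : fpt hF hfr' ≠ pt hF (fr_e0 hF hfr) hfr.ee := by
      intro h
      have h1 := hsymm _ _ hp
      rw [h] at h1
      obtain ⟨-, h2⟩ := R_fpt_inj hF hfr hc (adm_zero hF)
        (show R hF hfr 0 c • fpt hF hfr = R hF hfr 0 0 • fpt hF hfr by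
          rw [R_zero, one_smul]; exact heuniq _ h1)
      exact hc0 h2
    obtain ⟨u, hu1, hu3⟩ : ∃ u : Fˣ, u ^ (q + 1) = 1 ∧ sChar hF u ≠ 1 := by
      by_contra hcon
      push Not at hcon
      have hle : Nat.card (Forms.normOne F q) ≤ 3 := by
        refine le_trans (Nat.card_le_card_of_injective
          (fun w : Forms.normOne F q => (⟨(w : Fˣ), pow_eq_one_of_sChar hF (hcon _ w.2)⟩ :
            {t : Fˣ // t ^ Nat.card (Subgroup.center (Cfsg.SU 3 F q)) = 1})) fun a b h => ?_)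
          ((card_roots_unity_le hF _ Nat.card_pos).trans ?_)
        · exact Subtype.ext (congrArg
            (fun u : {t : Fˣ // t ^ Nat.card (Subgroup.center (Cfsg.SU 3 F q)) = 1} => (u : Fˣ)) h)
        · rw [Forms.card_center_SU hF (n := 3) (by norm_num)]
          exact Nat.le_of_dvd (by norm_num) (Nat.gcd_dvd_left _ _)
      rw [Forms.card_normOne hF] at hle
      omega
    have huN : (u : F) * σ u = 1 := by
      have h1 := congrArg Units.val hu1
      rwa [Units.val_pow_eq_pow_val, Units.val_one, pow_succ', ← Forms.frobQ_apply hF] at h1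
    have hufix : ∀ c : F, Adm hF 0 c → T hF hfr u • (R hF hfr 0 c • fpt hF hfr) = R hF hfr 0 c • fpt hF hfr :=
      fun c hc => (T_fix_iff hF hfr u hc).2 ⟨mul_zero _, by rw [huN, mul_one]⟩
    obtain ⟨a, c', hac, hfp⟩ := exists_R_smul hF hfr _ hne_e
    change R hF hfr a c' • fpt hF hfr = _ at hfp
    have ha : a = 0 := by
      have h1 := hp.2 _ (hT u) (hufix c hc)
      rw [← hfp, T_fix_iff hF hfr u hac] at h1
      by_contra ha0
      exact hu3 (Units.ext (mul_right_cancel₀ ha0 (h1.1.trans (one_mul a).symm)))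
    subst ha
    rw [← hfp] at hp
    have hc'0 : c' ≠ 0 := by
      intro h
      rw [h, R_zero, one_smul] at hp
      exact R_fpt_ne hF hfr hc (huniq _ _ _ (hsymm _ _ hp) (hsymm _ _ hef))
    set η := c' / c with hη
    have hηfix : σ η = η := by
      rw [hη, map_div₀, (adm_zero_iff hF c').1 hac, (adm_zero_iff hF c).1 hc, neg_div_neg_eq]
    have hη0 : η ≠ 0 := div_ne_zero hc'0 hc0
    obtain ⟨t, ht⟩ := exists_norm hF η hηfix
    have ht0 : t ≠ 0 := fun h => by rw [h, zero_mul] at ht; exact hη0 ht.symm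
    have h1 := hmap _ (hT (Units.mk0 t ht0)) _ _ hp
    rw [T_smul_R_fpt hF hfr _ hc, T_smul_R_fpt hF hfr _ hac, mul_zero, Units.val_mk0, ht] at h1
    have hcη : c * η = c' := by rw [hη]; exact mul_div_cancel₀ _ hc0
    rw [hcη] at h1
    have h2 := huniq _ _ _ h1 (hsymm _ _ hp)
    obtain ⟨-, h3⟩ := R_fpt_inj hF hfr (adm0_mul hF hfr hac hηfix) hc h2
    rw [← hcη] at h3
    have h4 : η * η = 1 := mul_left_cancel₀ hc0 (by rw [mul_one, ← mul_assoc]; exact h3)
    rcases mul_self_eq_one_iff.1 h4 with h | h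
    · exfalso
      rw [h, mul_one] at hcη
      rw [← hcη] at hp
      exact hp.1 rfl
    · rw [h, mul_neg_one] at hcη
      rwa [← hcη] at hp
  obtain ⟨e, f, z, hfr, -, hT⟩ := exists_adapted hF H hq hpc (pt hF (fr_e0 hF hfr₀) hfr₀.ee)
  obtain ⟨c, hc, hc0⟩ : ∃ c, Adm hF 0 c ∧ c ≠ 0 := by
    obtain ⟨a, ha⟩ := Forms.exists_kap_ne_zero hF
    exact ⟨kap hF a, (adm_zero_iff hF _).2 (by linear_combination kap_trace hF a), ha⟩
  have hP := hharm e f z hfr hT c hc hc0
  have h2 : (2 : F) ≠ 0 := by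
    intro h2
    refine hP.1 ?_
    rw [show -c = c by linear_combination -c * h2]
  -- the frame at `f + c e`
  obtain ⟨e', f', z', hfr', hk, hT'⟩ := exists_adapted hF H hq hpc (R hF hfr 0 c • fpt hF hfr)
  have hf' : fpt hF hfr' = R hF hfr 0 (-c) • fpt hF hfr :=
    huniq _ _ _ (hk ▸ (hpair e' f' z' hfr' hT').1) hP
  have hRf : ∀ c, Adm hF 0 c → act (R hF hfr 0 c) f = f + c • e := fun c hc => by
    rw [(act_R hF hfr hc).2.2, zero_smul, add_zero]
  have hnc : Adm hF 0 (-c) := by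
    rw [adm_zero_iff, map_neg, (adm_zero_iff hF c).1 hc]
  rw [fpt, smul_pt hF, pt_eq_iff] at hk
  obtain ⟨α, hα⟩ := hk
  rw [hRf c hc] at hα
  rw [fpt, fpt, smul_pt hF, pt_eq_iff] at hf'
  obtain ⟨β, hβ⟩ := hf'
  rw [hRf _ hnc] at hβ
  have hα0 : α ≠ 0 := fun h => fr_e0 hF hfr' (by rw [← hα, h, zero_smul])
  have hβ0 : β ≠ 0 := fun h => fr_f0 hF hfr' (by rw [← hβ, h, zero_smul])
  have hroot : ∀ ρ : F, σ ρ = ρ → ρ ≠ 0 → ρ ≠ 1 → ρ ≠ -1 → ρ * ρ = -1 := by
    intro ρ hρ hρ0 hρ1 hρ2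
    set A := (1 + ρ) / 2 with hA
    set B' := (1 - ρ) / 2 with hB'
    have hA0 : A ≠ 0 := div_ne_zero (fun h => hρ2 (by linear_combination h)) h2
    have hB0 : B' ≠ 0 := div_ne_zero (sub_ne_zero.2 (Ne.symm hρ1)) h2
    have key : ∀ (ρ A B' : F), Adm hF 0 (ρ * c) → A = (1 + ρ) / 2 → B' = (1 - ρ) / 2 → B' ≠ 0 →
        Adm hF 0 (A * β / (B' * α)) ∧
          R hF hfr' 0 (A * β / (B' * α)) • fpt hF hfr' = R hF hfr 0 (ρ * c) • fpt hF hfr := by
      intro ρ A B' hadm hA hB' hB0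
      set c'' := A * β / (B' * α) with hc''
      have hvec : f' + c'' • e' = (β / B') • (f + (ρ * c) • e) := by
        rw [← hα, ← hβ, hc'']
        subst hA; subst hB'
        have hB0' : (1 - ρ) ≠ 0 := fun h => hB0 (by rw [h, zero_div])
        match_scalars <;> field_simp <;> ring
      have hadm' : Adm hF 0 c'' := by
        rw [adm_zero_iff]
        have hv : B (f' + c'' • e') (f' + c'' • e') = 0 := by
          rw [hvec, ub_smul_left hF, ub_smul_right hF, ← hRf _ hadm, act_ub hF, hfr.ff, mul_zero, mul_zero]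
        simp only [ub_add_left hF, ub_add_right hF, ub_smul_left hF, ub_smul_right hF, hfr'.ff, hfr'.ee,
          hfr'.ef, fr_fe hF hfr', mul_zero, mul_one, zero_add, add_zero] at hv
        linear_combination hv
      refine ⟨hadm', ?_⟩
      rw [fpt, fpt, smul_pt hF, smul_pt hF, pt_eq_iff]
      refine ⟨β / B', ?_⟩
      rw [hRf _ hadm, (act_R hF hfr' hadm').2.2, zero_smul, add_zero, hvec]
    have hρc : Adm hF 0 (ρ * c) := by rw [mul_comm]; exact adm0_mul hF hfr hc hρ
    have hρc' : Adm hF 0 (-ρ * c) := by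
      rw [mul_comm]; exact adm0_mul hF hfr hc (by rw [map_neg, hρ])
    obtain ⟨h1, e1⟩ := key ρ A B' hρc hA hB' hB0
    obtain ⟨h3, e2⟩ := key (-ρ) B' A hρc' (by rw [hB']; ring) (by rw [hA]; ring) hA0
    have hcr : A * β / (B' * α) ≠ 0 := div_ne_zero (mul_ne_zero hA0 hβ0) (mul_ne_zero hB0 hα0)
    have hp1 := hharm e' f' z' hfr' hT' _ h1 hcr
    have hp2 := hharm e f z hfr hT (ρ * c) hρc (mul_ne_zero hρ0 hc0)
    rw [e1] at hp1
    rw [show -(ρ * c) = -ρ * c by ring, ← e2] at hp2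
    have hn1 : Adm hF 0 (-(A * β / (B' * α))) := by
      rw [adm_zero_iff, map_neg, (adm_zero_iff hF _).1 h1]
    obtain ⟨-, h4⟩ := R_fpt_inj hF hfr' h3 hn1 (huniq _ _ _ hp2 hp1)
    have h5 : A * A + B' * B' = 0 := by
      field_simp at h4
      linear_combination h4
    rw [hA, hB'] at h5
    field_simp at h5
    have h6 : (2 : F) * (1 + ρ * ρ) = 0 := by linear_combination h5
    have h7 := (mul_eq_zero.1 h6).resolve_left h2
    linear_combination h7
  -- so the fixed field has at most five elements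
  have hq5 : q ≤ 5 := by
    set S : Finset F := ({0, 1, -1} : Finset F) ∪ (Polynomial.nthRoots 2 (-1 : F)).toFinset with hS
    have hsub : ∀ k : Linear.fixedQ hF, (k : F) ∈ S := by
      intro k
      have hk := (Linear.mem_fixedQ hF).1 k.2
      by_cases h : (k : F) = 0 ∨ (k : F) = 1 ∨ (k : F) = -1
      · rw [hS, Finset.mem_union]
        left
        simp only [Finset.mem_insert, Finset.mem_singleton]
        exact h
      · push Not at h
        rw [hS, Finset.mem_union, Multiset.mem_toFinset, Polynomial.mem_nthRoots (by norm_num)]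
        right
        rw [pow_two]
        exact hroot k hk h.1 h.2.1 h.2.2
    have h8 : Nat.card (Linear.fixedQ hF) ≤ S.card := by
      refine le_of_le_of_eq (Nat.card_le_card_of_injective
        (fun k : Linear.fixedQ hF => (⟨(k : F), hsub k⟩ : S)) fun a b h => ?_) (by simp)
      exact Subtype.ext (congrArg (fun x : S => (x : F)) h)
    rw [Linear.card_fixedQ hF] at h8
    have h9 : S.card ≤ 3 + 2 := (Finset.card_union_le _ _).trans (Nat.add_le_add Finset.card_le_three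
      ((Multiset.toFinset_card_le _).trans (Polynomial.card_nthRoots _ _)))
    omega
  have hq3 : q = 3 := by
    obtain ⟨p, r, hp, hcp, hqp, hr⟩ := exists_prime_pow hF
    haveI := hcp
    rcases (by omega : q = 3 ∨ q = 4) with h | h
    · exact h
    exfalso
    refine h2 ?_
    have h22 : p ∣ 2 ^ 2 := by rw [show (2 : ℕ) ^ 2 = q by rw [h]; rfl, hqp]; exact dvd_pow_self p hr.ne'
    have hp2 : p = 2 := (Nat.prime_dvd_prime_iff_eq hp Nat.prime_two).1 (hp.dvd_of_dvd_pow h22)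
    have := CharP.cast_eq_zero F p
    rw [hp2] at this
    exact_mod_cast this
  -- `q = 3`
  have hH' : Nat.card H = 224 := by rw [hcard, hq3]; norm_num
  have hd' : Nat.card (Subgroup.center (Cfsg.SU 3 F q)) = 1 := by
    rw [Forms.card_center_SU hF (n := 3) (by norm_num), hq3]; norm_num
  obtain ⟨hm1, -, -, -⟩ := sNum_spec hF
  have hm : sNum hF = 7 := by
    rw [hd', one_mul] at hm1
    rw [hm1, hq3]
  obtain ⟨x, hxH, hx, hrx⟩ := exists_singer hF (r := 7) (by norm_num) (dvd_of_eq hm.symm)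
    (by rw [hH']; norm_num)
  obtain ⟨k, hk, hk1⟩ := cen_card_eq hF hZ hx (by rw [hm]; exact hrx)
  rw [hd'] at hk hk1
  rw [Nat.dvd_one.1 hk1, hm] at hk
  obtain ⟨-, hc2⟩ := cls_card hF hZ hx hxH
  have hI := nor_index_modEq hF hZ hx hxH (m := 7) (by norm_num) hrx
  rw [hk, hH'] at hc2
  rw [Nat.ModEq] at hI
  set I := ((nor H x).subgroupOf H).index
  rcases nor_index_cases hF hx hxH with h | h <;> rw [h] at hc2 <;> omega

end Cfsg.Agent.Forms.SUThree.MinIdx
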