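import Cfsg.Agent.Forms.SympBridge
import Cfsg.Agent.Forms.SubspaceStab

/-!
# The normaliser of the diagonal torus of the symplectic group
-/

set_option autoImplicit false
set_option linter.unusedSectionVars false

namespace Cfsg.Agent.Forms

open Module Matrix

namespace SympTorus

variable {F : Type*} [Field F] {m : ℕ}

/-- The coordinate `(i, s)`. -/
def coord (i : Fin m) : Bool → Fin m ⊕ Fin m
  | false => Sum.inl i
  | true => Sum.inr i

/-- Sign of `(s, !s)`. -/
def sgn (s : Bool) : F := if s then 1 else -1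

/-- Basis vectors. -/
abbrev ev (x : Fin m ⊕ Fin m) : Fin m ⊕ Fin m → F := Pi.single x 1

theorem coord_surj (x : Fin m ⊕ Fin m) : ∃ i s, coord i s = x := by
  rcases x with i | i
  · exact ⟨i, false, rfl⟩
  · exact ⟨i, true, rfl⟩

theorem coord_inj {i j : Fin m} {s t : Bool} (h : coord i s = coord j t) : i = j ∧ s = t := by
  cases s <;> cases t <;> simp_all [coord]

theorem sympB_coord (i j : Fin m) (s t : Bool) :
    sympB m F (ev (coord i s)) (ev (coord j t)) =
      if i = j ∧ t = !s then sgn s else 0 := by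
  rw [sympB_apply, sympForm_eq]
  cases s <;> cases t <;> simp [coord, ev, sgn, Pi.single_apply] <;>
    (rcases eq_or_ne i j with rfl | h <;> simp_all [Ne.symm])

theorem sgn_ne_zero (s : Bool) : (sgn s : F) ≠ 0 := by cases s <;> simp [sgn]

/-- A symplectic matrix from the images of the basis vectors. -/
theorem mem_symplectic_of_basis {M : Matrix (Fin m ⊕ Fin m) (Fin m ⊕ Fin m) F}
    (h : ∀ x y, sympB m F (M *ᵥ ev x) (M *ᵥ ev y) = sympB m F (ev x) (ev y)) :
    M ∈ Matrix.symplecticGroup (Fin m) F := by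
  rw [mem_symplectic_iff]
  intro u v
  have key : (sympB m F).compl₁₂ (Matrix.toLin' M) (Matrix.toLin' M) = sympB m F :=
    LinearMap.ext_basis (Pi.basisFun F _) (Pi.basisFun F _) fun x y => by
      simpa [LinearMap.compl₁₂_apply] using h x y
  simpa using LinearMap.congr_fun (LinearMap.congr_fun key u) v

/-- The image of a basis vector under a signed permutation. -/
def img (p : Equiv.Perm (Fin m) × (Fin m → Bool) × (Fin m → Fˣ)) :
    Fin m ⊕ Fin m → (Fin m ⊕ Fin m → F)
  | .inl i => (p.2.2 i : F) • ev (coord (p.1 i) (p.2.1 i))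
  | .inr i => (-(sgn (p.2.1 i)) * (p.2.2 i : F)⁻¹) • ev (coord (p.1 i) (!p.2.1 i))

theorem img_false (p : Equiv.Perm (Fin m) × (Fin m → Bool) × (Fin m → Fˣ)) (i : Fin m) :
    img p (coord i false) = (p.2.2 i : F) • ev (coord (p.1 i) (p.2.1 i)) := rfl

theorem img_true (p : Equiv.Perm (Fin m) × (Fin m → Bool) × (Fin m → Fˣ)) (i : Fin m) :
    img p (coord i true) =
      (-(sgn (p.2.1 i)) * (p.2.2 i : F)⁻¹) • ev (coord (p.1 i) (!p.2.1 i)) := rfl

/-- The monomial symplectic matrix. -/
def mono (p : Equiv.Perm (Fin m) × (Fin m → Bool) × (Fin m → Fˣ)) :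
    Matrix (Fin m ⊕ Fin m) (Fin m ⊕ Fin m) F :=
  Matrix.of fun x y => img p y x

theorem mono_ev (p : Equiv.Perm (Fin m) × (Fin m → Bool) × (Fin m → Fˣ)) (y : Fin m ⊕ Fin m) :
    mono p *ᵥ ev y = img p y := by
  rw [Matrix.mulVec_single_one]
  rfl

theorem mono_mem (p : Equiv.Perm (Fin m) × (Fin m → Bool) × (Fin m → Fˣ)) :
    mono p ∈ Matrix.symplecticGroup (Fin m) F := by
  refine mem_symplectic_of_basis fun x y => ?_
  rw [mono_ev, mono_ev]
  obtain ⟨i, s, rfl⟩ := coord_surj x
  obtain ⟨j, t, rfl⟩ := coord_surj y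
  rw [sympB_coord]
  have hsq : ∀ b : Bool, sgn b * sgn b = (1 : F) := fun b => by cases b <;> simp [sgn]
  have hnot : ∀ b : Bool, sgn (!b) = -(sgn b : F) := fun b => by cases b <;> simp [sgn]
  have hc : ∀ k, (p.2.2 k : F) ≠ 0 := fun k => (p.2.2 k).ne_zero
  cases s <;> cases t <;> simp only [img_false, img_true, map_smul, LinearMap.smul_apply, sympB_coord, smul_eq_mul]
  all_goals
    rcases eq_or_ne i j with rfl | hne
    · cases hb : p.2.1 i <;> simp [sgn, hc]
    · simp [hne, (p.1.injective.ne hne)]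

/-- The monomial element. -/
def monoElt (p : Equiv.Perm (Fin m) × (Fin m → Bool) × (Fin m → Fˣ)) :
    Matrix.symplecticGroup (Fin m) F :=
  ⟨mono p, mono_mem p⟩

theorem monoElt_injective : Function.Injective (monoElt (F := F) (m := m)) := by
  intro p p' h
  have hM : mono p = mono p' := congrArg Subtype.val h
  have key : ∀ i, coord (p.1 i) (p.2.1 i) = coord (p'.1 i) (p'.2.1 i) ∧
      (p.2.2 i : F) = p'.2.2 i := by
    intro i
    have h1 := congrFun (congrArg (fun M => M *ᵥ ev (Sum.inl i)) hM) (coord (p.1 i) (p.2.1 i))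
    simp only [mono_ev, img, Pi.smul_apply, ev, Pi.single_eq_same, smul_eq_mul, mul_one] at h1
    by_cases hco : coord (p.1 i) (p.2.1 i) = coord (p'.1 i) (p'.2.1 i)
    · rw [hco, Pi.single_eq_same, mul_one] at h1
      exact ⟨hco, h1⟩
    · rw [Pi.single_eq_of_ne hco, mul_zero] at h1
      exact absurd h1 (p.2.2 i).ne_zero
  refine Prod.ext (Equiv.ext fun i => (coord_inj (key i).1).1)
    (Prod.ext (funext fun i => (coord_inj (key i).1).2) (funext fun i => Units.ext (key i).2))

/-- The diagonal torus. -/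
abbrev torus (m : ℕ) (F : Type*) [Field F] : Subgroup (Matrix.symplecticGroup (Fin m) F) :=
  ⨅ i : Fin m ⊕ Fin m, Cfsg.stabilizing (Cfsg.spToMat m F)
    ((Submodule.span F {(Pi.single i (1 : F) : Fin m ⊕ Fin m → F)} :
      Submodule F (Fin m ⊕ Fin m → F)) : Set (Fin m ⊕ Fin m → F))

theorem mem_torus {g : Matrix.symplecticGroup (Fin m) F} :
    g ∈ torus m F ↔ ∀ x, ∃ a : F, (g : Matrix (Fin m ⊕ Fin m) (Fin m ⊕ Fin m) F) *ᵥ ev x = a • ev x := by
  rw [Subgroup.mem_iInf]
  refine forall_congr' fun x => ?_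
  change (∀ v, v ∈ Submodule.span F {ev x} ↔
    (spEquiv m F g).1 v ∈ Submodule.span F {ev x}) ↔ _
  rw [stable_iff_mapsTo]
  constructor
  · intro h
    obtain ⟨a, ha⟩ := Submodule.mem_span_singleton.1 (h _ (Submodule.mem_span_singleton_self _))
    exact ⟨a, by rw [ha, spEquiv_apply]⟩
  · rintro ⟨a, ha⟩ v hv
    obtain ⟨c, rfl⟩ := Submodule.mem_span_singleton.1 hv
    rw [map_smul, spEquiv_apply, ha]
    exact Submodule.smul_mem _ _ (Submodule.smul_mem _ _ (Submodule.mem_span_singleton_self _))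

theorem monoElt_normalizes (p : Equiv.Perm (Fin m) × (Fin m → Bool) × (Fin m → Fˣ))
    {t : Matrix.symplecticGroup (Fin m) F} (ht : t ∈ torus m F) :
    monoElt p * t * (monoElt p)⁻¹ ∈ torus m F := by
  rw [mem_torus] at ht ⊢
  intro x
  obtain ⟨y, hy⟩ : ∃ y, ∃ c : F, c ≠ 0 ∧ mono p *ᵥ ev y = c • ev x := by
    obtain ⟨i, s, rfl⟩ := coord_surj x
    by_cases hs : p.2.1 (p.1.symm i) = s
    · exact ⟨Sum.inl (p.1.symm i), _, (p.2.2 (p.1.symm i)).ne_zero, by rw [mono_ev]; simp [img, hs]⟩
    · refine ⟨Sum.inr (p.1.symm i), _, mul_ne_zero (neg_ne_zero.2 (sgn_ne_zero (p.2.1 (p.1.symm i))))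
        (inv_ne_zero (p.2.2 (p.1.symm i)).ne_zero), ?_⟩
      have hs' : (!p.2.1 (p.1.symm i)) = s := by
        revert hs; cases p.2.1 (p.1.symm i) <;> cases s <;> simp
      rw [mono_ev]
      simp only [img, Equiv.apply_symm_apply, hs']
  obtain ⟨c, hc, hcy⟩ := hy
  obtain ⟨a, ha⟩ := ht y
  refine ⟨a, ?_⟩
  have hx : ev x = mono p *ᵥ (c⁻¹ • ev y) := by
    rw [Matrix.mulVec_smul, hcy, smul_smul, inv_mul_cancel₀ hc, one_smul]
  have h1 : (((monoElt p)⁻¹ : Matrix.symplecticGroup (Fin m) F) :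
      Matrix (Fin m ⊕ Fin m) (Fin m ⊕ Fin m) F) * mono p = 1 :=
    congrArg Subtype.val (inv_mul_cancel (monoElt p))
  conv_lhs => rw [hx]
  rw [Submonoid.coe_mul, Submonoid.coe_mul, ← Matrix.mulVec_mulVec, ← Matrix.mulVec_mulVec,
    Matrix.mulVec_mulVec _ _ (mono p), h1, Matrix.one_mulVec, Matrix.mulVec_smul, ha,
    smul_comm, Matrix.mulVec_smul]
  change a • (mono p *ᵥ (c⁻¹ • ev y)) = a • ev x
  rw [← hx]

theorem monoElt_mem_normalizer [Finite F]
    (p : Equiv.Perm (Fin m) × (Fin m → Bool) × (Fin m → Fˣ)) :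
    monoElt p ∈ Subgroup.normalizer (torus m F : Set (Matrix.symplecticGroup (Fin m) F)) := by
  have := Fintype.ofFinite F
  rw [Subgroup.mem_normalizer_iff]
  refine fun t => ⟨monoElt_normalizes p, fun ht => ?_⟩
  set T := torus m F
  have hfin : Finite T := inferInstance
  have hb : Function.Bijective
      (fun s : T => (⟨_, monoElt_normalizes p s.2⟩ : T)) :=
    Finite.injective_iff_bijective.1 fun a b h =>
      Subtype.ext (mul_left_cancel (mul_right_cancel (congrArg Subtype.val h)))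
  obtain ⟨s, hs⟩ := hb.2 ⟨_, ht⟩
  have := mul_left_cancel (mul_right_cancel (congrArg Subtype.val hs))
  exact this ▸ s.2

theorem monoElt_surj {a : F} (ha0 : a ≠ 0) (ha1 : a ≠ 1) (haa : a * a ≠ 1)
    {g : Matrix.symplecticGroup (Fin m) F}
    (hg : g ∈ Subgroup.normalizer (torus m F : Set (Matrix.symplecticGroup (Fin m) F))) :
    ∃ p, monoElt p = g := by
  classical
  set M : Matrix (Fin m ⊕ Fin m) (Fin m ⊕ Fin m) F := (g : Matrix (Fin m ⊕ Fin m) (Fin m ⊕ Fin m) F) with hM
  let t₀ : Fin m → Equiv.Perm (Fin m) × (Fin m → Bool) × (Fin m → Fˣ) :=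
    fun k => (1, fun _ => false, fun i => if i = k then Units.mk0 a ha0 else 1)
  let d : Fin m → Fin m ⊕ Fin m → F := fun k =>
    Sum.elim (fun i => if i = k then a else 1) (fun i => if i = k then a⁻¹ else 1)
  have ht₀ : ∀ k x, mono (t₀ k) *ᵥ ev x = d k x • ev x := by
    intro k x
    rw [mono_ev]
    rcases x with i | i <;> by_cases h : i = k <;> simp [img, t₀, d, coord, sgn, h]
  have hmem : ∀ k, monoElt (t₀ k) ∈ torus m F := fun k =>
    mem_torus.2 fun x => ⟨_, ht₀ k x⟩
  have hsep : ∀ x y : Fin m ⊕ Fin m, x ≠ y → ∃ k, d k x ≠ d k y := by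
    have hainv : a ≠ a⁻¹ := fun h => haa (by nth_rewrite 2 [h]; exact mul_inv_cancel₀ ha0)
    have hinv1 : a⁻¹ ≠ 1 := fun h => ha1 (inv_eq_one.1 h)
    intro x y hxy
    rcases x with i | i <;> rcases y with j | j <;> refine ⟨i, ?_⟩ <;>
      rcases eq_or_ne j i with rfl | hji <;>
      simp_all [d, Ne.symm]
  have hinj : Function.Injective (fun v => M *ᵥ v) := by
    intro u v h
    exact (spEquiv m F g).1.injective h
  have himg : ∀ x, ∃ y, ∃ c : F, c ≠ 0 ∧ M *ᵥ ev x = c • ev y := by
    intro x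
    set v := M *ᵥ ev x with hv
    have hv0 : v ≠ 0 := by
      intro h
      have : ev x = (0 : Fin m ⊕ Fin m → F) := hinj (h.trans (Matrix.mulVec_zero M).symm)
      simpa [ev] using congrFun this x
    have heig : ∀ k, ∃ lam : F, ∀ z, d k z * v z = lam * v z := by
      intro k
      have h1 := (Subgroup.mem_normalizer_iff''.1 hg (monoElt (t₀ k))).1 (hmem k)
      obtain ⟨lam, hlam⟩ := mem_torus.1 h1 x
      refine ⟨lam, fun z => ?_⟩
      have h2 : mono (t₀ k) *ᵥ v = lam • v := by
        have h3 := congrArg (fun w => M *ᵥ w) hlam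
        simp only [Matrix.mulVec_smul] at h3
        rw [← hv, Matrix.mulVec_mulVec] at h3
        rw [← h3, hv, hM, Matrix.mulVec_mulVec]
        congr 1
        exact congrArg Subtype.val (show monoElt (t₀ k) * g = g * (g⁻¹ * monoElt (t₀ k) * g) by group)
      have h4 : mono (t₀ k) *ᵥ v = fun z => d k z * v z := by
        have hsum : v = ∑ z, v z • ev z := by funext w; simp [ev, Pi.single_apply]
        conv_lhs => rw [hsum]
        rw [Matrix.mulVec_sum]
        funext w
        simp only [Matrix.mulVec_smul, ht₀, Finset.sum_apply, Pi.smul_apply, ev, Pi.single_apply,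
          smul_eq_mul, mul_ite, mul_one, mul_zero, Finset.sum_ite_eq, Finset.mem_univ, if_true]
        ring
      exact (congrFun h4 z).symm.trans (congrFun h2 z)
    obtain ⟨y, hy⟩ := Function.ne_iff.1 hv0
    refine ⟨y, v y, hy, funext fun z => ?_⟩
    by_cases hzy : z = y
    · simp [hzy, ev]
    · rw [Pi.smul_apply, ev, Pi.single_eq_of_ne hzy, smul_zero]
      by_contra hz
      obtain ⟨k, hk⟩ := hsep z y hzy
      obtain ⟨lam, hlam⟩ := heig k
      exact hk ((mul_right_cancel₀ hz (hlam z)).trans (mul_right_cancel₀ hy (hlam y)).symm)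
  choose π c hc hπ using himg
  have hπinj : Function.Injective π := by
    intro x x' h
    by_contra hne
    have h1 : M *ᵥ ev x = M *ᵥ ((c x * (c x')⁻¹) • ev x') := by
      rw [Matrix.mulVec_smul, hπ, hπ, h, smul_smul, mul_assoc, inv_mul_cancel₀ (hc x'), mul_one]
    have h2 := congrFun (hinj h1) x
    simp [ev, hne] at h2
  choose pr sr hprs using fun i => coord_surj (π (Sum.inl i))
  have hpres : ∀ u v, sympB m F (M *ᵥ u) (M *ᵥ v) = sympB m F u v := fun u v => by
    rw [sympB_apply, sympB_apply]; exact mem_symplectic_iff.1 g.2 u v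
  have hright : ∀ i, π (Sum.inr i) = coord (pr i) (!sr i) ∧
      c (Sum.inr i) = -(sgn (sr i)) * (c (Sum.inl i))⁻¹ := by
    intro i
    obtain ⟨j, t, hjt⟩ := coord_surj (π (Sum.inr i))
    have h := hpres (ev (coord i false)) (ev (coord i true))
    rw [sympB_coord] at h
    simp only [show coord i false = Sum.inl i from rfl, show coord i true = Sum.inr i from rfl, hπ,
      map_smul, LinearMap.smul_apply, ← hjt, ← hprs i, sympB_coord,
      smul_eq_mul, Bool.not_false, and_self, if_true] at h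
    split_ifs at h with hcond
    · obtain ⟨rfl, rfl⟩ := hcond
      refine ⟨hjt.symm, ?_⟩
      have hs : sgn (sr i) * sgn (sr i) = (1 : F) := by cases sr i <;> simp [sgn]
      have hci := hc (Sum.inl i)
      field_simp
      simp only [sgn, Bool.false_eq_true, if_false] at h
      simp only [sgn] at hs ⊢
      linear_combination (if sr i = true then (1 : F) else -1) * h - c (Sum.inl i) * c (Sum.inr i) * hs
    · simp [sgn] at h
  have hprinj : Function.Injective pr := by
    intro i j hij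
    by_contra hne
    rcases (show sr j = sr i ∨ sr j = !sr i by cases sr i <;> cases sr j <;> simp) with h | h
    · exact hne (Sum.inl_injective (hπinj (by rw [← hprs i, ← hprs j, hij, h])))
    · exact Sum.inr_ne_inl (hπinj (show π (Sum.inr i) = π (Sum.inl j) by
        rw [(hright i).1, ← hprs j, hij, h]))
  refine ⟨(Equiv.ofBijective pr ⟨hprinj, Finite.surjective_of_injective hprinj⟩, sr,
    fun i => Units.mk0 _ (hc (Sum.inl i))), Subtype.ext (matrix_ext_mulVec fun v => ?_)⟩
  refine LinearMap.congr_fun (f := Matrix.toLin' (mono _)) (g := Matrix.toLin' M) ?_ v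
  refine (Pi.basisFun F _).ext fun x => ?_
  rw [Pi.basisFun_apply, Matrix.toLin'_apply, Matrix.toLin'_apply, hπ, mono_ev]
  rcases x with i | i
  · simp only [img, Units.val_mk0]; rw [← hprs i]; rfl
  · rw [(hright i).1, (hright i).2]; rfl

/-- The order of the normaliser of the torus. -/
theorem card_normalizer [Fintype F] {q : ℕ} (hF : Fintype.card F = q) (hq : 4 ≤ q) (m : ℕ) :
    Nat.card ↥(Subgroup.normalizer (torus m F : Set (Matrix.symplecticGroup (Fin m) F))) =
      2 ^ m * Nat.factorial m * (q - 1) ^ m := by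
  obtain ⟨a, ha0, haa⟩ := exists_mul_self_ne_one (F := F) (by omega)
  have ha1 : a ≠ 1 := fun h => haa (by rw [h, one_mul])
  rw [← Nat.card_congr (Equiv.ofBijective
    (fun p : Equiv.Perm (Fin m) × (Fin m → Bool) × (Fin m → Fˣ) =>
      (⟨monoElt p, monoElt_mem_normalizer p⟩ :
        ↥(Subgroup.normalizer (torus m F : Set (Matrix.symplecticGroup (Fin m) F)))))
    ⟨fun p p' h => monoElt_injective (congrArg Subtype.val h),
      fun g => by obtain ⟨p, hp⟩ := monoElt_surj ha0 ha1 haa g.2; exact ⟨p, Subtype.ext hp⟩⟩)]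
  rw [Nat.card_prod, Nat.card_prod, Nat.card_perm, Nat.card_fun, Nat.card_fun, Nat.card_units]
  simp [hF]
  ring

end SympTorus

end Cfsg.Agent.Forms
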